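import Cfsg.Agent.Lib.H9.GolayDual
import Cfsg.Agent.Lib.H9.OctadStab
import Cfsg.Agent.Lib.H10.SteinerAut
import Cfsg.Agent.Lib.H10.Data3622

set_option autoImplicit false

/-! The automorphism group of S(3,6,22). -/

namespace H9.Aut22

open Cfsg Finset H8.GolayBasic MulAction H9.GolayDual

variable {α : Type*} [Fintype α] [DecidableEq α]

/-- a realisation of a set system on the complement of two points of the Golay structure -/
structure Emb (B : Set (Finset α)) (p q : GolayPt) where
  j : α → GolayPt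
  inj : Function.Injective j
  rng : ∀ x, x ≠ p → x ≠ q → ∃ a, j a = x
  jp : ∀ a, j a ≠ p
  jq : ∀ a, j a ≠ q
  hB : ∀ b : Finset α, b ∈ B ↔ insert p (insert q (b.image j)) ∈ octads

/-- the points other than `p`, `q` -/
abbrev Pt2 (p q : GolayPt) := {x : GolayPt // x ≠ p ∧ x ≠ q}

/-- the derived system -/
def B0 (p q : GolayPt) : Set (Finset (Pt2 p q)) :=
  {b | insert p (insert q (b.image Subtype.val)) ∈ octads}

theorem card_pt2 {p q : GolayPt} (hpq : p ≠ q) : Fintype.card (Pt2 p q) = 22 := by
  have h := H9.M24Stab.card_ne_ne hpq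
  rw [← Nat.card_eq_fintype_card]
  exact h

theorem card_ins {p q : GolayPt} (hpq : p ≠ q) (b : Finset (Pt2 p q)) :
    (insert p (insert q (b.image Subtype.val)) : Finset GolayPt).card = b.card + 2 := by
  have h1 : q ∉ b.image (Subtype.val : Pt2 p q → GolayPt) := by
    intro h; obtain ⟨x, _, hx⟩ := mem_image.mp h; exact x.2.2 hx
  have h2 : p ∉ insert q (b.image (Subtype.val : Pt2 p q → GolayPt)) := by
    intro h
    rcases mem_insert.mp h with h | h
    · exact hpq h
    · obtain ⟨x, _, hx⟩ := mem_image.mp h; exact x.2.1 hx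
  rw [card_insert_of_notMem h2, card_insert_of_notMem h1, card_image_of_injective _ Subtype.val_injective]

theorem steiner_B0 {p q : GolayPt} (hpq : p ≠ q) : IsSteinerSystem 3 6 (B0 p q) := by
  constructor
  · intro b hb
    have h1 : (insert p (insert q (b.image Subtype.val)) : Finset GolayPt).card = 8 := hb.2
    rw [card_ins hpq] at h1
    omega
  · intro s hs
    obtain ⟨O, ⟨hO, hsO⟩, hu⟩ := octads_steiner.2 (insert p (insert q (s.image Subtype.val)))
      (by rw [card_ins hpq, hs])
    have hp : p ∈ O := hsO (mem_insert_self _ _)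
    have hq : q ∈ O := hsO (mem_insert_of_mem (mem_insert_self _ _))
    have hO' : insert p (insert q ((univ.filter fun x : Pt2 p q => x.1 ∈ O).image Subtype.val)) = O := by
      ext x
      simp only [mem_insert, mem_image, mem_filter, mem_univ, true_and]
      constructor
      · rintro (rfl | rfl | ⟨y, hy, rfl⟩)
        · exact hp
        · exact hq
        · exact hy
      · intro hx
        by_cases h1 : x = p
        · exact Or.inl h1
        by_cases h2 : x = q
        · exact Or.inr (Or.inl h2)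
        · exact Or.inr (Or.inr ⟨⟨x, h1, h2⟩, hx, rfl⟩)
    refine ⟨univ.filter fun x : Pt2 p q => x.1 ∈ O, ⟨?_, ?_⟩, ?_⟩
    · show insert p (insert q (_)) ∈ octads
      rw [hO']; exact hO
    · intro x hx
      rw [mem_filter]
      refine ⟨mem_univ _, hsO ?_⟩
      exact mem_insert_of_mem (mem_insert_of_mem (mem_image_of_mem _ hx))
    · rintro b ⟨hb, hsb⟩
      have h1 := hu _ ⟨hb, insert_subset_insert _ (insert_subset_insert _ (image_subset_image hsb))⟩
      ext x
      rw [mem_filter, ← h1]
      simp only [mem_univ, true_and, mem_insert, mem_image]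
      constructor
      · intro h; exact Or.inr (Or.inr ⟨x, h, rfl⟩)
      · rintro (h | h | ⟨y, hy, hyx⟩)
        · exact absurd h x.2.1
        · exact absurd h x.2.2
        · rwa [← Subtype.val_injective hyx]

theorem exists_emb (hα : Fintype.card α = 22) {B : Set (Finset α)} (hB : IsSteinerSystem 3 6 B)
    {p q : GolayPt} (hpq : p ≠ q) : Nonempty (Emb B p q) := by
  obtain ⟨e, he⟩ := H10.SteinerAut.setSystemIso H10.Data3622.par H10.Data3622.tree (by decide) (by decide) (by rfl)
    H10.Data3622.check_eq H10.Data3622.covers_eq hα (card_pt2 hpq) hB (steiner_B0 hpq)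
  refine ⟨⟨fun a => (e a).1, fun a b h => e.injective (Subtype.val_injective h), ?_, fun a => (e a).2.1,
    fun a => (e a).2.2, ?_⟩⟩
  · intro x h1 h2
    exact ⟨e.symm ⟨x, h1, h2⟩, by simp⟩
  · intro b
    have h1 : b ∈ B ↔ b.image e ∈ B0 p q := by
      rw [← he]
      constructor
      · intro h; exact ⟨b, h, rfl⟩
      · rintro ⟨c, hc, hcb⟩
        have : c = b := image_injective e.injective hcb
        rwa [← this]
    rw [h1]
    show insert p (insert q ((b.image e).image Subtype.val)) ∈ octads ↔ _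
    rw [image_image]
    rfl

section main
variable {B : Set (Finset α)} {p q : GolayPt} (hpq : p ≠ q) (E : Emb B p q)

/-- an element of `M24` is determined by its action off two points -/
theorem ext_unique {g h : Equiv.Perm GolayPt} (hg : g ∈ M24) (hh : h ∈ M24)
    (hgh : ∀ x, x ≠ p → x ≠ q → g x = h x) : g = h := by
  have h1 : h⁻¹ * g = 1 := by
    apply H9.M22.eq_one_of_fix13 (M24.mul_mem (M24.inv_mem hh) hg) (F := univ \ {p, q})
    · rw [card_sdiff_of_subset (subset_univ _), card_univ, H8.GolayCode.card_pt]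
      have := card_le_two (a := p) (b := q)
      omega
    · intro x hx
      simp only [mem_sdiff, mem_univ, true_and, mem_insert, mem_singleton, not_or] at hx
      rw [Equiv.Perm.mul_apply, hgh x hx.1 hx.2]
      simp
  rw [inv_mul_eq_one] at h1
  exact h1.symm

include hpq in
theorem mem_M24_of {F : Equiv.Perm GolayPt} (hF : (F p = p ∧ F q = q) ∨ (F p = q ∧ F q = p))
    (hX : ∀ O ∈ octads, p ∈ O → q ∈ O → O.image F ∈ octads) {S0 : Finset GolayPt} (hS0 : S0 ∈ octads)
    (hp0 : p ∈ S0) (hq0 : q ∉ S0) (hFS : S0.image F ∈ GS) : F ∈ M24 := by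
  classical
  -- the preimage of an octad through `p`, `q` is an octad
  have hset : ∀ O : Finset GolayPt, p ∈ O → q ∈ O → p ∈ O.image F ∧ q ∈ O.image F := by
    intro O hp hq
    rcases hF with ⟨h1, h2⟩ | ⟨h1, h2⟩
    · exact ⟨mem_image.mpr ⟨p, hp, h1⟩, mem_image.mpr ⟨q, hq, h2⟩⟩
    · exact ⟨mem_image.mpr ⟨q, hq, h2⟩, mem_image.mpr ⟨p, hp, h1⟩⟩
  have hpre : ∀ O ∈ octads, p ∈ O → q ∈ O → ∃ O' ∈ octads, p ∈ O' ∧ q ∈ O' ∧ O'.image F = O := by
    let X : Finset (Finset GolayPt) := univ.filter fun O => O ∈ octads ∧ p ∈ O ∧ q ∈ O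
    have hXm : ∀ O, O ∈ X ↔ O ∈ octads ∧ p ∈ O ∧ q ∈ O := by intro O; simp [X]
    have hsub : X.image (fun O => O.image F) ⊆ X := by
      intro O hO
      obtain ⟨O', hO', rfl⟩ := mem_image.mp hO
      rw [hXm] at hO' ⊢
      exact ⟨hX O' hO'.1 hO'.2.1 hO'.2.2, hset O' hO'.2.1 hO'.2.2⟩
    have heq := eq_of_subset_of_card_le hsub (by
      rw [card_image_of_injective _ (image_injective F.injective)])
    intro O hO hp hq
    have : O ∈ X.image (fun O => O.image F) := by rw [heq, hXm]; exact ⟨hO, hp, hq⟩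
    obtain ⟨O', hO', h⟩ := mem_image.mp this
    rw [hXm] at hO'
    exact ⟨O', hO'.1, hO'.2.1, hO'.2.2, h⟩
  have himg : ∀ S T : Finset GolayPt, (S.image F ∩ T.image F).card = (S ∩ T).card := by
    intro S T
    rw [← image_inter _ _ F.injective, card_image_of_injective _ F.injective]
  have hort : ∀ S ∈ octads, ∀ O ∈ octads, p ∈ O → q ∈ O → Even (S.image F ∩ O).card := by
    intro S hS O hO hp hq
    obtain ⟨O', hO', _, _, rfl⟩ := hpre O hO hp hq
    rw [himg]
    exact inter_even hS.1 hO'.1
  have hpq2 : ∀ S : Finset GolayPt, ({p, q} : Finset GolayPt).image F = {p, q} := by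
    intro S
    rw [image_insert, image_singleton]
    rcases hF with ⟨h1, h2⟩ | ⟨h1, h2⟩
    · rw [h1, h2]
    · rw [h1, h2, pair_comm]
  have hone : ({p, q} ∩ S0 : Finset GolayPt).card = 1 := by
    have : ({p, q} ∩ S0 : Finset GolayPt) = {p} := by
      ext x; simp only [mem_inter, mem_insert, mem_singleton]
      constructor
      · rintro ⟨rfl | rfl, h⟩
        · rfl
        · exact absurd h hq0
      · rintro rfl; simp [hp0]
    rw [this, card_singleton]
  have hoct : ∀ S ∈ octads, S.image F ∈ octads := by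
    intro S hS
    refine ⟨?_, by rw [card_image_of_injective _ F.injective]; exact hS.2⟩
    rcases dual_two hpq (hort S hS) with h | h
    · exact h
    · exfalso
      have h1 := inter_even h hFS
      have h2 : symmDiff (S.image F) {p, q} ∩ S0.image F = symmDiff (S.image F ∩ S0.image F) ({p, q} ∩ S0.image F) := by
        ext x; simp only [mem_inter, mem_symmDiff]; tauto
      have h3 := card_symmDiff (S.image F ∩ S0.image F) ({p, q} ∩ S0.image F)
      have h4 : ({p, q} ∩ S0.image F : Finset GolayPt).card = 1 := by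
        rw [← hpq2 S, himg, hone]
      have h5 := inter_even hS.1 hS0.1
      rw [himg] at h3
      rw [h2, Nat.even_iff] at h1
      rw [Nat.even_iff] at h5
      omega
  rw [← H9.OctadStab.aut_octads, H9.Aut24.mem_aut]
  have hmap : ∀ b : Finset GolayPt, b.map F.toEmbedding = b.image F := by
    intro b; rw [map_eq_image]; rfl
  let X : Finset (Finset GolayPt) := univ.filter fun O => O ∈ octads
  have hXm : ∀ O, O ∈ X ↔ O ∈ octads := by intro O; simp [X]
  have hsub : X.image (fun O => O.image F) ⊆ X := by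
    intro O hO
    obtain ⟨O', hO', rfl⟩ := mem_image.mp hO
    rw [hXm] at hO' ⊢
    exact hoct O' hO'
  have heq := eq_of_subset_of_card_le hsub (by
    rw [card_image_of_injective _ (image_injective F.injective)])
  intro b
  rw [hmap]
  constructor
  · exact hoct b
  · intro hb
    have : b.image F ∈ X.image (fun O => O.image F) := by rw [heq, hXm]; exact hb
    obtain ⟨O', hO', h⟩ := mem_image.mp this
    have : O' = b := image_injective F.injective h
    rw [← this]; exact (hXm _).mp hO'

/-- the labelling as an equivalence -/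
noncomputable def Emb.e (E : Emb B p q) : α ≃ Pt2 p q :=
  Equiv.ofBijective (fun a => ⟨E.j a, E.jp a, E.jq a⟩) ⟨fun a b h => E.inj (congrArg Subtype.val h), by
    rintro ⟨x, h1, h2⟩
    obtain ⟨a, ha⟩ := E.rng x h1 h2
    exact ⟨a, Subtype.ext ha⟩⟩

theorem Emb.e_apply (a : α) : ((E.e a : Pt2 p q) : GolayPt) = E.j a := rfl

/-- extension of a permutation by fixing `p`, `q` -/
noncomputable def Emb.ext (E : Emb B p q) (f : Equiv.Perm α) : Equiv.Perm GolayPt :=
  Equiv.Perm.ofSubtype (E.e.permCongr f)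

theorem Emb.ext_j (f : Equiv.Perm α) (a : α) : E.ext f (E.j a) = E.j (f a) := by
  rw [← E.e_apply, Emb.ext, Equiv.Perm.ofSubtype_apply_coe]
  simp [Equiv.permCongr_apply, Emb.e_apply]

theorem Emb.ext_p (f : Equiv.Perm α) : E.ext f p = p := by
  apply Equiv.Perm.ofSubtype_apply_of_not_mem
  simp

theorem Emb.ext_q (f : Equiv.Perm α) : E.ext f q = q := by
  apply Equiv.Perm.ofSubtype_apply_of_not_mem
  simp

theorem Emb.cover (x : GolayPt) : x = p ∨ x = q ∨ ∃ a, E.j a = x := by
  by_cases h1 : x = p
  · exact Or.inl h1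
  by_cases h2 : x = q
  · exact Or.inr (Or.inl h2)
  · exact Or.inr (Or.inr (E.rng x h1 h2))

include hpq in
/-- automorphisms extend to `M24` -/
theorem exists_ext {f : Equiv.Perm α} (hf : f ∈ setSystemAut B) : ∃ g ∈ M24, (∀ a, g (E.j a) = E.j (f a)) ∧
    ((g p = p ∧ g q = q) ∨ (g p = q ∧ g q = p)) := by
  classical
  rw [H9.Aut24.mem_aut] at hf
  -- image of octads through `p`, `q`
  have hX : ∀ F : Equiv.Perm GolayPt, (∀ a, F (E.j a) = E.j (f a)) → ((F p = p ∧ F q = q) ∨ (F p = q ∧ F q = p)) →
      ∀ O ∈ octads, p ∈ O → q ∈ O → O.image F ∈ octads := by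
    intro F hF hFpq O hO hp hq
    let b : Finset α := univ.filter fun a => E.j a ∈ O
    have hb : insert p (insert q (b.image E.j)) = O := by
      ext x
      simp only [mem_insert, mem_image, b, mem_filter, mem_univ, true_and]
      constructor
      · rintro (rfl | rfl | ⟨a, ha, rfl⟩)
        · exact hp
        · exact hq
        · exact ha
      · intro hx
        rcases E.cover x with h | h | ⟨a, rfl⟩
        · exact Or.inl h
        · exact Or.inr (Or.inl h)
        · exact Or.inr (Or.inr ⟨a, hx, rfl⟩)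
    have hbB : b ∈ B := by rw [E.hB, hb]; exact hO
    have h2 := (hf b).mp hbB
    rw [E.hB] at h2
    have h3 : O.image F = insert p (insert q ((b.map f.toEmbedding).image E.j)) := by
      rw [← hb, image_insert, image_insert, image_image, map_eq_image, image_image]
      have h4 : b.image (F ∘ E.j) = b.image (E.j ∘ f.toEmbedding) := by
        apply image_congr
        intro a _
        exact hF a
      rw [h4]
      rcases hFpq with ⟨h1, h2⟩ | ⟨h1, h2⟩
      · rw [h1, h2]
      · rw [h1, h2, Finset.insert_comm]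
    rw [h3]; exact h2
  -- an octad through `p` and not `q`
  obtain ⟨S0, hS0, hp0, hq0⟩ : ∃ S0 ∈ octads, p ∈ S0 ∧ q ∉ S0 := by
    obtain ⟨O1, hO1⟩ : octads.Nonempty := by
      apply Set.nonempty_of_ncard_ne_zero
      rw [octads_ncard]; norm_num
    have h8 : O1.card = 8 := hO1.2
    obtain ⟨a, ha⟩ : O1.Nonempty := by rw [← card_pos]; omega
    obtain ⟨b, _, hb⟩ := exists_mem_not_mem (S := univ) (U := O1) (by rw [card_univ, H8.GolayCode.card_pt]; omega)
    have hab : a ≠ b := fun h => hb (h ▸ ha)
    obtain ⟨g, hga, hgb⟩ := H9.M24Stab.two (a := a) (b := b) (a' := p) (b' := q) hab hpq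
    refine ⟨O1.image g.1, H8.M24Chain.image_octad g.2 hO1, mem_image.mpr ⟨a, ha, hga⟩, ?_⟩
    intro h
    obtain ⟨y, hy, hyq⟩ := mem_image.mp h
    have : y = b := g.1.injective (hyq.trans hgb.symm)
    exact hb (this ▸ hy)
  set F0 := E.ext f with hF0
  have hF0j := E.ext_j f
  have hF0p := E.ext_p f
  have hF0q := E.ext_q f
  have hX0 := hX F0 hF0j (Or.inl ⟨hF0p, hF0q⟩)
  have hort : ∀ O ∈ octads, p ∈ O → q ∈ O → Even (S0.image F0 ∩ O).card := by
    let X : Finset (Finset GolayPt) := univ.filter fun O => O ∈ octads ∧ p ∈ O ∧ q ∈ O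
    have hXm : ∀ O, O ∈ X ↔ O ∈ octads ∧ p ∈ O ∧ q ∈ O := by intro O; simp [X]
    have hsub : X.image (fun O => O.image F0) ⊆ X := by
      intro O hO
      obtain ⟨O', hO', rfl⟩ := mem_image.mp hO
      rw [hXm] at hO' ⊢
      exact ⟨hX0 O' hO'.1 hO'.2.1 hO'.2.2, mem_image.mpr ⟨p, hO'.2.1, hF0p⟩, mem_image.mpr ⟨q, hO'.2.2, hF0q⟩⟩
    have heq := eq_of_subset_of_card_le hsub (by
      rw [card_image_of_injective _ (image_injective F0.injective)])
    intro O hO hp hq
    have : O ∈ X.image (fun O => O.image F0) := by rw [heq, hXm]; exact ⟨hO, hp, hq⟩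
    obtain ⟨O', hO', h⟩ := mem_image.mp this
    rw [hXm] at hO'
    have h' : O'.image F0 = O := h
    rw [← h', ← image_inter _ _ F0.injective, card_image_of_injective _ F0.injective]
    exact inter_even hS0.1 hO'.1.1
  rcases dual_two hpq hort with h | h
  · exact ⟨F0, mem_M24_of hpq (Or.inl ⟨hF0p, hF0q⟩) hX0 hS0 hp0 hq0 h, hF0j, Or.inl ⟨hF0p, hF0q⟩⟩
  · let F1 : Equiv.Perm GolayPt := Equiv.swap p q * F0
    have hF1j : ∀ a, F1 (E.j a) = E.j (f a) := by
      intro a
      show Equiv.swap p q (F0 (E.j a)) = _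
      rw [hF0j]
      exact Equiv.swap_apply_of_ne_of_ne (E.jp _) (E.jq _)
    have hF1p : F1 p = q := by
      show Equiv.swap p q (F0 p) = _
      rw [hF0p, Equiv.swap_apply_left]
    have hF1q : F1 q = p := by
      show Equiv.swap p q (F0 q) = _
      rw [hF0q, Equiv.swap_apply_right]
    have h1 : S0.image F1 = symmDiff (S0.image F0) {p, q} := by
      ext x
      simp only [mem_image, mem_symmDiff, mem_insert, mem_singleton]
      rcases E.cover x with h | h | ⟨a, rfl⟩
      · subst h
        constructor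
        · rintro ⟨y, hy, hyx⟩
          have : y = q := F1.injective (hyx.trans hF1q.symm)
          exact absurd (this ▸ hy) hq0
        · rintro (⟨_, h⟩ | ⟨_, h⟩)
          · exact absurd (Or.inl rfl) h
          · exact absurd ⟨x, hp0, hF0p⟩ h
      · subst h
        constructor
        · intro _
          right
          refine ⟨Or.inr rfl, ?_⟩
          rintro ⟨y, hy, hyx⟩
          have : y = x := F0.injective (hyx.trans hF0q.symm)
          exact hq0 (this ▸ hy)
        · intro _
          exact ⟨p, hp0, hF1p⟩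
      · have hne : ¬ (E.j a = p ∨ E.j a = q) := by
          rintro (h | h)
          · exact E.jp _ h
          · exact E.jq _ h
        constructor
        · rintro ⟨y, hy, hyx⟩
          left
          refine ⟨⟨y, hy, ?_⟩, hne⟩
          have hyx' : Equiv.swap p q (F0 y) = E.j a := hyx
          have : F0 y = Equiv.swap p q (E.j a) := by rw [← hyx', Equiv.swap_apply_self]
          rw [this, Equiv.swap_apply_of_ne_of_ne (E.jp _) (E.jq _)]
        · rintro (⟨⟨y, hy, hyx⟩, _⟩ | ⟨h, _⟩)
          · refine ⟨y, hy, ?_⟩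
            show Equiv.swap p q (F0 y) = _
            rw [hyx, Equiv.swap_apply_of_ne_of_ne (E.jp _) (E.jq _)]
          · exact absurd h hne
    rw [← h1] at h
    exact ⟨F1, mem_M24_of hpq (Or.inr ⟨hF1p, hF1q⟩) (hX F1 hF1j (Or.inr ⟨hF1p, hF1q⟩)) hS0 hp0 hq0 h, hF1j,
      Or.inr ⟨hF1p, hF1q⟩⟩

/-- restriction -/
theorem exists_res {g : Equiv.Perm GolayPt} (hg : g ∈ M24) (h : (g p = p ∧ g q = q) ∨ (g p = q ∧ g q = p)) :
    ∃ f ∈ setSystemAut B, ∀ a, g (E.j a) = E.j (f a) := by
  have h1 : ∀ a, ∃ b, E.j b = g (E.j a) := by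
    intro a
    apply E.rng
    · intro h'
      rcases h with ⟨h2, h3⟩ | ⟨h2, h3⟩
      · exact E.jp a (g.injective (h'.trans h2.symm))
      · exact E.jq a (g.injective (h'.trans h3.symm))
    · intro h'
      rcases h with ⟨h2, h3⟩ | ⟨h2, h3⟩
      · exact E.jq a (g.injective (h'.trans h3.symm))
      · exact E.jp a (g.injective (h'.trans h2.symm))
  choose f hf using h1
  have hinj : Function.Injective f := by
    intro a b hab
    apply E.inj
    apply g.injective
    rw [← hf, ← hf, hab]
  let F : Equiv.Perm α := Equiv.ofBijective f (Finite.injective_iff_bijective.mp hinj)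
  refine ⟨F, ?_, fun a => (hf a).symm⟩
  rw [H9.Aut24.mem_aut]
  have hM := H9.M22.mem_aut_octads hg
  rw [H9.Aut24.mem_aut] at hM
  intro b
  rw [E.hB, E.hB, hM]
  have h4 : (insert p (insert q (b.image E.j))).map g.toEmbedding =
      insert p (insert q ((b.map F.toEmbedding).image E.j)) := by
    rw [map_eq_image, map_eq_image, image_insert, image_insert, image_image, image_image]
    have h5 : b.image (g.toEmbedding ∘ E.j) = b.image (E.j ∘ F.toEmbedding) := by
      apply image_congr
      intro a _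
      exact (hf a).symm
    rw [h5]
    rcases h with ⟨h1, h2⟩ | ⟨h1, h2⟩
    · show insert (g p) (insert (g q) _) = _
      rw [h1, h2]
    · show insert (g p) (insert (g q) _) = _
      rw [h1, h2, Finset.insert_comm]
  rw [h4]

include hpq in
theorem swap_not_mem : Equiv.swap p q ∉ M24 := by
  intro h
  have : Equiv.swap p q = 1 := ext_unique (p := p) (q := q) h M24.one_mem (fun x h1 h2 =>
    Equiv.swap_apply_of_ne_of_ne h1 h2)
  rw [Equiv.swap_eq_one_iff] at this
  exact hpq this

/-- the extension homomorphism -/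
noncomputable def hom : setSystemAut B →* M24 where
  toFun f := ⟨(exists_ext hpq E f.2).choose, (exists_ext hpq E f.2).choose_spec.1⟩
  map_one' := by
    apply Subtype.ext
    apply ext_unique (p := p) (q := q) (exists_ext hpq E (1 : setSystemAut B).2).choose_spec.1 M24.one_mem
    intro x h1 h2
    obtain ⟨a, rfl⟩ := E.rng x h1 h2
    exact (exists_ext hpq E (1 : setSystemAut B).2).choose_spec.2.1 a
  map_mul' f g := by
    apply Subtype.ext
    apply ext_unique (p := p) (q := q) (exists_ext hpq E (f * g).2).choose_spec.1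
      (M24.mul_mem (exists_ext hpq E f.2).choose_spec.1 (exists_ext hpq E g.2).choose_spec.1)
    intro x h1 h2
    obtain ⟨a, rfl⟩ := E.rng x h1 h2
    rw [(exists_ext hpq E (f * g).2).choose_spec.2.1 a, Equiv.Perm.mul_apply,
      (exists_ext hpq E g.2).choose_spec.2.1 a, (exists_ext hpq E f.2).choose_spec.2.1]
    rfl

theorem hom_j (f : setSystemAut B) (a : α) : (hom hpq E f).1 (E.j a) = E.j (f.1 a) :=
  (exists_ext hpq E f.2).choose_spec.2.1 a

theorem hom_pq (f : setSystemAut B) : ((hom hpq E f).1 p = p ∧ (hom hpq E f).1 q = q) ∨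
    ((hom hpq E f).1 p = q ∧ (hom hpq E f).1 q = p) := (exists_ext hpq E f.2).choose_spec.2.2

theorem exists_hom_eq {g : Equiv.Perm GolayPt} (hg : g ∈ M24) (h : (g p = p ∧ g q = q) ∨ (g p = q ∧ g q = p)) :
    ∃ f : setSystemAut B, (hom hpq E f).1 = g := by
  obtain ⟨f, hf, hfa⟩ := exists_res E hg h
  refine ⟨⟨f, hf⟩, ?_⟩
  apply ext_unique (p := p) (q := q) (hom hpq E _).2 hg
  intro x h1 h2
  obtain ⟨a, rfl⟩ := E.rng x h1 h2
  rw [hom_j, hfa]

theorem hom_inj : Function.Injective (hom hpq E) := by
  intro f g h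
  apply Subtype.ext
  ext a
  apply E.inj
  rw [← hom_j hpq E, ← hom_j hpq E, h]

/-- the subgroup fixing `p` -/
noncomputable def HH : Subgroup (setSystemAut B) := (stabilizer M24 p).comap (hom hpq E)

theorem mem_HH {f : setSystemAut B} : f ∈ HH hpq E ↔ (hom hpq E f).1 p = p := Iff.rfl

theorem HH_equiv : Nonempty (HH hpq E ≃* ↥(stabilizer M24 p ⊓ stabilizer M24 q)) := by
  let φ : HH hpq E →* ↥(stabilizer M24 p ⊓ stabilizer M24 q) :=
    ((hom hpq E).comp (HH hpq E).subtype).codRestrict _ (fun f => ⟨f.2, by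
      show (hom hpq E f.1).1 q = q
      rcases hom_pq hpq E f.1 with h | h
      · exact h.2
      · exfalso
        have h1 : (hom hpq E f.1).1 p = p := f.2
        exact hpq (h1.symm.trans h.1)⟩)
  refine ⟨MulEquiv.ofBijective φ ⟨?_, ?_⟩⟩
  · intro f g h
    apply Subtype.ext
    apply hom_inj hpq E
    exact congrArg Subtype.val h
  · rintro ⟨⟨g, hg⟩, h1, h2⟩
    obtain ⟨f, hf⟩ := exists_hom_eq hpq E hg (Or.inl ⟨h1, h2⟩)
    refine ⟨⟨f, ?_⟩, ?_⟩
    · rw [mem_HH, hf]; exact h1
    · apply Subtype.ext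
      apply Subtype.ext
      exact hf

theorem HH_index : (HH hpq E).index = 2 := by
  rw [Subgroup.index_eq_two_iff]
  obtain ⟨s, h1, h2⟩ := H9.M24Stab.two (a := p) (b := q) (a' := q) (b' := p) hpq hpq.symm
  obtain ⟨t, ht⟩ := exists_hom_eq hpq E s.2 (Or.inr ⟨h1, h2⟩)
  have htp : (hom hpq E t).1 p = q := by rw [ht]; exact h1
  have htq : (hom hpq E t).1 q = p := by rw [ht]; exact h2
  refine ⟨t, fun b => ?_⟩
  rw [mem_HH, mem_HH, map_mul]
  have h3 : (hom hpq E b * hom hpq E t).1 p = (hom hpq E b).1 q := by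
    show (hom hpq E b).1 ((hom hpq E t).1 p) = _
    rw [htp]
  rw [h3]
  rcases hom_pq hpq E b with h | h
  · right
    exact ⟨h.1, fun h' => hpq.symm (h.2.symm.trans h')⟩
  · left
    exact ⟨h.2, fun h' => hpq (h'.symm.trans h.1)⟩

end main

theorem main {p q : GolayPt} (hpq : p ≠ q) (hα : Fintype.card α = 22) {B : Set (Finset α)}
    (hB : IsSteinerSystem 3 6 B) : Nat.card (setSystemAut B) = 887040 ∧
      IsMultiplyPretransitive (setSystemAut B) α 3 ∧ ∃ H : Subgroup (setSystemAut B), H.index = 2 ∧ IsM22 H := by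
  obtain ⟨E⟩ := exists_emb hα hB hpq
  obtain ⟨φ⟩ := HH_equiv hpq E
  have hcard : Nat.card (HH hpq E) = 443520 := by
    rw [Nat.card_congr φ.toEquiv]
    exact H9.M24Stab.card_two hpq
  refine ⟨?_, ?_, HH hpq E, HH_index hpq E, ?_, hcard⟩
  · rw [← Subgroup.card_mul_index (HH hpq E), hcard, HH_index]
  · constructor
    intro x y
    have hcons : ∀ x : Fin 3 ↪ α, Function.Injective (![p, q, E.j (x 0), E.j (x 1), E.j (x 2)] : Fin 5 → GolayPt) := by
      intro x
      have h01 : E.j (x 0) ≠ E.j (x 1) := fun h => by simpa using x.injective (E.inj h)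
      have h02 : E.j (x 0) ≠ E.j (x 2) := fun h => by simpa using x.injective (E.inj h)
      have h12 : E.j (x 1) ≠ E.j (x 2) := fun h => by simpa using x.injective (E.inj h)
      have h1 := fun i => E.jp (x i)
      have h2 := fun i => E.jq (x i)
      intro i j hij
      fin_cases i <;> fin_cases j <;> first | rfl | (exfalso; simp at hij; first | exact hpq hij | exact hpq hij.symm | exact h1 _ hij | exact h1 _ hij.symm | exact h2 _ hij | exact h2 _ hij.symm | exact h01 hij | exact h01 hij.symm | exact h02 hij | exact h02 hij.symm | exact h12 hij | exact h12 hij.symm | (have := x.injective (E.inj hij); simp at this))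
    obtain ⟨g, hg⟩ := H9.M24Stab.five (hcons x) (hcons y)
    have g0 : g.1 p = p := hg 0
    have g1 : g.1 q = q := hg 1
    obtain ⟨f, hf⟩ := exists_hom_eq hpq E g.2 (Or.inl ⟨g0, g1⟩)
    refine ⟨f, ?_⟩
    ext i
    show f.1 (x i) = y i
    apply E.inj
    rw [← hom_j hpq E, hf]
    fin_cases i
    · exact hg 2
    · exact hg 3
    · exact hg 4
  · have := H9.M22.simple hpq
    exact (MulEquiv.isSimpleGroup φ)

end H9.Aut22
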