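import Cfsg.Agent.Lib.H9.SteinerMore
import Cfsg.Agent.Lib.H9.FrameCode
import Cfsg.Agent.Lib.H9.Aut24
import Cfsg.Agent.Lib.H9.Sharp

set_option autoImplicit false

/-! A Steiner system S(4,7,23) extends to an S(5,8,24). -/

namespace H9.Ext23

open Cfsg Finset H9.Steiner H9.Steiner24 H9.SteinerMore H9.FrameCode

variable {α : Type*} [Fintype α] [DecidableEq α] {B : Set (Finset α)}

/-- sets meeting all extended blocks evenly -/
noncomputable def D (B : Set (Finset α)) : Finset (Finset (Option α)) :=
  by classical exact univ.filter fun S => ∀ b ∈ B, Even (S ∩ insertNone b).card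

theorem mem_D {S : Finset (Option α)} : S ∈ D B ↔ ∀ b ∈ B, Even (S ∩ insertNone b).card := by
  simp [D]

theorem card_inter (S : Finset (Option α)) (b : Finset α) :
    (S ∩ insertNone b).card = (b ∩ eraseNone S).card + if none ∈ S then 1 else 0 := by
  have h1 : (S ∩ insertNone b).erase none = (b ∩ eraseNone S).map Function.Embedding.some := by
    ext x
    cases x with
    | none => simp
    | some a =>
      simp only [mem_erase, ne_eq, reduceCtorEq, not_false_eq_true, mem_inter, some_mem_insertNone, true_and,
        mem_map, mem_eraseNone, Function.Embedding.some_apply, Option.some.injEq, exists_eq_right]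
      tauto
  have h2 : ((S ∩ insertNone b).erase none).card = (b ∩ eraseNone S).card := by rw [h1, card_map]
  by_cases hn : none ∈ S
  · have h3 : none ∈ S ∩ insertNone b := mem_inter.mpr ⟨hn, none_mem_insertNone⟩
    have h4 := card_erase_add_one h3
    rw [if_pos hn]; omega
  · have h3 : none ∉ S ∩ insertNone b := fun h => hn (mem_inter.mp h).1
    rw [erase_eq_of_notMem h3] at h2
    rw [if_neg hn]; omega

theorem card_eq (S : Finset (Option α)) : S.card = (eraseNone S).card + if none ∈ S then 1 else 0 := by
  have := card_inter S univ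
  rw [univ_inter] at this
  have h2 : insertNone (univ : Finset α) = univ := by
    ext x; cases x <;> simp
  rwa [h2, inter_univ] at this

theorem card_insertNone' (b : Finset α) : (insertNone b).card = b.card + 1 := Finset.card_insertNone b

variable (hα : Fintype.card α = 23) (hB : IsSteinerSystem 4 7 B)
include hα hB

theorem l0 (S : Finset α) (hS : S.card = 0) : ((blk B).filter fun b => S ⊆ b).card = 253 := by
  have := card_blk_containing hB (S := S) (by omega)
  rw [hS, hα] at this; norm_num [Nat.choose] at this; omega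
theorem l1 (S : Finset α) (hS : S.card = 1) : ((blk B).filter fun b => S ⊆ b).card = 77 := by
  have := card_blk_containing hB (S := S) (by omega)
  rw [hS, hα] at this; norm_num [Nat.choose] at this; omega
theorem l2 (S : Finset α) (hS : S.card = 2) : ((blk B).filter fun b => S ⊆ b).card = 21 := by
  have := card_blk_containing hB (S := S) (by omega)
  rw [hS, hα] at this; norm_num [Nat.choose] at this; omega
theorem l3 (S : Finset α) (hS : S.card = 3) : ((blk B).filter fun b => S ⊆ b).card = 5 := by
  have := card_blk_containing hB (S := S) (by omega)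
  rw [hS, hα] at this; norm_num [Nat.choose] at this; omega
theorem l4 (S : Finset α) (hS : S.card = 4) : ((blk B).filter fun b => S ⊆ b).card = 1 := by
  have := card_blk_containing hB (S := S) (by omega)
  rw [hS, hα] at this; norm_num [Nat.choose] at this; omega

/-- linear functional of the intersection numbers -/
theorem moment (s : Finset α) (a0 a1 a2 a3 a4 : ℤ) :
    ∑ c ∈ blk B, (a0 * ((c ∩ s).card.choose 0 : ℤ) + a1 * ((c ∩ s).card.choose 1 : ℤ)
      + a2 * ((c ∩ s).card.choose 2 : ℤ) + a3 * ((c ∩ s).card.choose 3 : ℤ) + a4 * ((c ∩ s).card.choose 4 : ℤ)) =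
    a0 * (s.card.choose 0 * 253 : ℕ) + a1 * (s.card.choose 1 * 77 : ℕ) + a2 * (s.card.choose 2 * 21 : ℕ) +
      a3 * (s.card.choose 3 * 5 : ℕ) + a4 * (s.card.choose 4 * 1 : ℕ) := by
  simp only [sum_add_distrib, ← mul_sum]
  have m0 := sum_choose_inter B s (l0 hα hB)
  have m1 := sum_choose_inter B s (l1 hα hB)
  have m2 := sum_choose_inter B s (l2 hα hB)
  have m3 := sum_choose_inter B s (l3 hα hB)
  have m4 := sum_choose_inter B s (l4 hα hB)
  rw [← m0, ← m1, ← m2, ← m3, ← m4]
  push_cast
  rfl

theorem insertNone_mem_D {b : Finset α} (hb : b ∈ B) : insertNone b ∈ D B := by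
  rw [mem_D]
  intro c hc
  rw [card_inter, if_pos none_mem_insertNone]
  have h1 : eraseNone (insertNone b) = b := by ext x; simp
  rw [h1]
  by_cases hcb : c = b
  · subst hcb; rw [inter_self, hB.1 c hc]; decide
  · rcases inter_card_23 hα hB hc hb hcb with h | h <;> rw [h] <;> decide

theorem isCode : IsCode (D B) := by
  classical
  refine ⟨?_, ?_, ?_⟩
  · intro S hS T hT
    rw [mem_D] at hS hT ⊢
    intro b hb
    have h1 : _root_.symmDiff S T ∩ insertNone b = _root_.symmDiff (S ∩ insertNone b) (T ∩ insertNone b) := by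
      ext x
      simp only [mem_inter, mem_symmDiff]
      tauto
    rw [h1]
    have h2 := FrameCode.card_symmDiff (S ∩ insertNone b) (T ∩ insertNone b)
    obtain ⟨u, hu⟩ := hS b hb
    obtain ⟨v, hv⟩ := hT b hb
    rw [Nat.even_iff]
    omega
  · rw [mem_D]
    intro b _
    simp
  · intro S hS hne
    rw [mem_D] at hS
    have hpar : ∀ c ∈ blk B, Even ((c ∩ eraseNone S).card + if none ∈ S then 1 else 0) := by
      intro c hc
      rw [← card_inter]
      exact hS c (mem_blk.mp hc)
    have hle : ∀ c ∈ blk B, (c ∩ eraseNone S).card ≤ (eraseNone S).card := fun c _ => card_le_card inter_subset_right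
    have hSc := card_eq S
    have hpos : 0 < S.card := card_pos.mpr (nonempty_iff_ne_empty.mpr hne)
    by_contra hlt
    push Not at hlt
    set s := eraseNone S with hs
    have hmom := moment hα hB s
    -- evenness of the total
    by_cases hn : none ∈ S
    · rw [if_pos hn] at hSc
      simp only [if_pos hn] at hpar
      have hodd : ∀ c ∈ blk B, (c ∩ s).card % 2 = 1 := by
        intro c hc
        have := hpar c hc
        rw [Nat.even_add_one, Nat.not_even_iff] at this
        exact this
      have hj : s.card = 0 ∨ s.card = 1 ∨ s.card = 2 ∨ s.card = 3 ∨ s.card = 4 ∨ s.card = 5 ∨ s.card = 6 := by omega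
      have key : ∀ (a0 a1 a2 a3 a4 : ℤ), (∀ i : ℕ, i ≤ s.card → i % 2 = 1 →
          a0 * (i.choose 0 : ℤ) + a1 * (i.choose 1 : ℤ) + a2 * (i.choose 2 : ℤ) + a3 * (i.choose 3 : ℤ) + a4 * (i.choose 4 : ℤ) ≤ 0) →
          a0 * (s.card.choose 0 * 253 : ℕ) + a1 * (s.card.choose 1 * 77 : ℕ) + a2 * (s.card.choose 2 * 21 : ℕ) +
          a3 * (s.card.choose 3 * 5 : ℕ) + a4 * (s.card.choose 4 * 1 : ℕ) ≤ 0 := by
        intro a0 a1 a2 a3 a4 h
        rw [← hmom]
        exact sum_nonpos fun c hc => h _ (hle c hc) (hodd c hc)
      -- parity of s.card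
      have hsodd : ∑ c ∈ blk B, (c ∩ s).card.choose 1 = s.card.choose 1 * 77 := sum_choose_inter B s (l1 hα hB)
      have hspar : (∑ c ∈ blk B, (c ∩ s).card.choose 1) % 2 = 1 := by
        rw [Finset.sum_nat_mod, sum_congr rfl fun c hc => by rw [Nat.choose_one_right, hodd c hc], Finset.sum_const,
          smul_eq_mul, mul_one]
        have := l0 hα hB ∅ rfl
        simp only [empty_subset, filter_true] at this
        rw [this]
      rw [hsodd, Nat.choose_one_right] at hspar
      have hj : s.card = 1 ∨ s.card = 3 ∨ s.card = 5 := by omega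
      rcases hj with hj | hj | hj <;> rw [hj] at key
      · have := key 1 (-1) 0 0 0 (by intro i hi hi2; interval_cases i <;> simp_all)
        norm_num [Nat.choose] at this
      · have := key 3 (-3) 2 0 0 (by intro i hi hi2; interval_cases i <;> simp_all [Nat.choose])
        norm_num [Nat.choose] at this
      · have := key 3 (-3) 2 0 (-2) (by intro i hi hi2; interval_cases i <;> simp_all [Nat.choose])
        norm_num [Nat.choose] at this
    · rw [if_neg hn] at hSc
      simp only [if_neg hn, add_zero] at hpar
      have hev : ∀ c ∈ blk B, (c ∩ s).card % 2 = 0 := by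
        intro c hc
        exact Nat.even_iff.mp (hpar c hc)
      have key : ∀ (a0 a1 a2 a3 a4 : ℤ), (∀ i : ℕ, i ≤ s.card → i % 2 = 0 →
          a0 * (i.choose 0 : ℤ) + a1 * (i.choose 1 : ℤ) + a2 * (i.choose 2 : ℤ) + a3 * (i.choose 3 : ℤ) + a4 * (i.choose 4 : ℤ) ≤ 0) →
          a0 * (s.card.choose 0 * 253 : ℕ) + a1 * (s.card.choose 1 * 77 : ℕ) + a2 * (s.card.choose 2 * 21 : ℕ) +
          a3 * (s.card.choose 3 * 5 : ℕ) + a4 * (s.card.choose 4 * 1 : ℕ) ≤ 0 := by
        intro a0 a1 a2 a3 a4 h
        rw [← hmom]
        exact sum_nonpos fun c hc => h _ (hle c hc) (hev c hc)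
      have hsodd : ∑ c ∈ blk B, (c ∩ s).card.choose 1 = s.card.choose 1 * 77 := sum_choose_inter B s (l1 hα hB)
      have hspar : (∑ c ∈ blk B, (c ∩ s).card.choose 1) % 2 = 0 := by
        rw [Finset.sum_nat_mod, Finset.sum_eq_zero (fun c hc => by rw [Nat.choose_one_right, hev c hc]), Nat.zero_mod]
      rw [hsodd, Nat.choose_one_right] at hspar
      have hj : s.card = 2 ∨ s.card = 4 ∨ s.card = 6 := by omega
      rcases hj with hj | hj | hj <;> rw [hj] at key
      · have := key 0 1 (-2) 0 0 (by intro i hi hi2; interval_cases i <;> simp_all [Nat.choose])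
        norm_num [Nat.choose] at this
      · have := key 0 0 0 1 (-4) (by intro i hi hi2; interval_cases i <;> simp_all [Nat.choose])
        norm_num [Nat.choose] at this
      · have := key 0 0 0 1 (-4) (by intro i hi hi2; interval_cases i <;> simp_all [Nat.choose])
        norm_num [Nat.choose] at this

/-- blocks meeting a block in three points -/
theorem card_three {b : Finset α} (hb : b ∈ B) : ((blk B).filter fun c => (c ∩ b).card = 3).card = 140 := by
  classical
  have hb7 := hB.1 b hb
  have hmom := moment hα hB b (-1) 1 0 0 0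
  rw [hb7] at hmom
  have hterm : ∀ c ∈ blk B, ((-1 : ℤ) * ((c ∩ b).card.choose 0 : ℤ) + 1 * ((c ∩ b).card.choose 1 : ℤ)
      + 0 * ((c ∩ b).card.choose 2 : ℤ) + 0 * ((c ∩ b).card.choose 3 : ℤ) + 0 * ((c ∩ b).card.choose 4 : ℤ)) =
      2 * (if (c ∩ b).card = 3 then 1 else 0) + 6 * (if c = b then 1 else 0) := by
    intro c hc
    rw [mem_blk] at hc
    by_cases hcb : c = b
    · subst hcb; rw [inter_self, hb7]; norm_num [Nat.choose]
    · rw [if_neg hcb]
      rcases inter_card_23 hα hB hc hb hcb with h | h <;> rw [h] <;> norm_num [Nat.choose]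
  have hbm : b ∈ blk B := mem_blk.mpr hb
  rw [sum_congr rfl hterm, sum_add_distrib, ← mul_sum, ← mul_sum, sum_ite_eq' (blk B) b, if_pos hbm] at hmom
  have h2 : ∑ c ∈ blk B, (if (c ∩ b).card = 3 then (1 : ℤ) else 0) = (((blk B).filter fun c => (c ∩ b).card = 3).card : ℤ) := by
    rw [card_filter]; push_cast; rfl
  rw [h2] at hmom
  norm_num [Nat.choose] at hmom
  omega

theorem card_blk23 : (blk B).card = 253 := by
  have := l0 hα hB ∅ rfl
  simpa using this

/-- the extended system has at least 759 octads -/
theorem card_octads : 759 ≤ ((D B).filter fun S => S.card = 8).card := by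
  classical
  set O := (D B).filter fun S => S.card = 8 with hO
  have hcode := isCode hα hB
  have hsplit : (O.filter fun S => none ∈ S).card + (O.filter fun S => ¬ none ∈ S).card = O.card :=
    card_filter_add_card_filter_not _
  have h1 : 253 ≤ (O.filter fun S => none ∈ S).card := by
    rw [← card_blk23 hα hB]
    apply card_le_card_of_injOn (fun b => insertNone b)
    · intro b hb
      rw [mem_coe, mem_blk] at hb
      rw [mem_coe, mem_filter, hO, mem_filter]
      exact ⟨⟨insertNone_mem_D hα hB hb, by rw [card_insertNone', hB.1 b hb]⟩, none_mem_insertNone⟩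
    · intro b _ c _ hbc
      exact insertNone.injective hbc
  -- pairs of blocks
  set P := (blk B ×ˢ blk B).filter fun p => (p.2 ∩ p.1).card = 3 with hP
  have hPc : P.card = 253 * 140 := by
    have : P = (blk B).biUnion fun b => ((blk B).filter fun c => (c ∩ b).card = 3).image fun c => (b, c) := by
      ext ⟨b, c⟩
      simp only [hP, mem_filter, mem_product, mem_biUnion, mem_image, Prod.mk.injEq]
      constructor
      · rintro ⟨⟨h1, h2⟩, h3⟩; exact ⟨b, h1, c, ⟨h2, h3⟩, rfl, rfl⟩
      · rintro ⟨b', h1, c', ⟨h2, h3⟩, rfl, rfl⟩; exact ⟨⟨h1, h2⟩, h3⟩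
    rw [this, card_biUnion]
    · rw [sum_const_nat (m := 140), card_blk23 hα hB]
      intro b hb
      rw [card_image_of_injective _ (fun c c' h => (Prod.mk.injEq _ _ _ _ ▸ h).2)]
      exact card_three hα hB (mem_blk.mp hb)
    · intro b _ c _ hbc
      rw [Function.onFun, disjoint_left]
      rintro ⟨x, y⟩ hx hy
      rw [mem_image] at hx hy
      obtain ⟨_, _, hx⟩ := hx
      obtain ⟨_, _, hy⟩ := hy
      rw [Prod.mk.injEq] at hx hy
      exact hbc (hx.1.trans hy.1.symm)
  have h2 : P.card ≤ 70 * (O.filter fun S => ¬ none ∈ S).card := by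
    apply card_le_mul_card_image_of_maps_to (f := fun p : Finset α × Finset α => _root_.symmDiff (insertNone p.1) (insertNone p.2))
    · rintro ⟨b, c⟩ hp
      rw [hP, mem_filter, mem_product, mem_blk, mem_blk] at hp
      obtain ⟨⟨hb, hc⟩, h3⟩ := hp
      simp only at hb hc h3 ⊢
      rw [mem_filter, hO, mem_filter]
      refine ⟨⟨hcode.symmDiff _ (insertNone_mem_D hα hB hb) _ (insertNone_mem_D hα hB hc), ?_⟩, ?_⟩
      · have h4 := FrameCode.card_symmDiff (insertNone b) (insertNone c)
        have h5 : (insertNone b ∩ insertNone c).card = 4 := by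
          rw [card_inter, if_pos none_mem_insertNone]
          have h6 : eraseNone (insertNone b) = b := by ext x; simp
          rw [h6, h3]
        rw [h5, card_insertNone', card_insertNone', hB.1 b hb, hB.1 c hc] at h4
        omega
      · rw [mem_symmDiff]; simp
    · intro S hS
      rw [mem_filter, hO, mem_filter] at hS
      obtain ⟨⟨hSD, hS8⟩, hSn⟩ := hS
      have hs8 : (eraseNone S).card = 8 := by
        have := card_eq S
        rw [if_neg hSn] at this
        omega
      have h70 : ((eraseNone S).powersetCard 4).card = 70 := by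
        rw [card_powersetCard, hs8]; decide
      rw [← h70]
      have hkey : ∀ b c : Finset α, b ∈ B → c ∈ B → (c ∩ b).card = 3 →
          _root_.symmDiff (insertNone b) (insertNone c) = S → (b ∩ eraseNone S).card = 4 ∧ c = _root_.symmDiff b (eraseNone S) := by
        intro b c hb hc h3 hbc
        have h4 : eraseNone S = _root_.symmDiff b c := by
          rw [← hbc]
          ext x
          simp [mem_symmDiff]
        constructor
        · rw [h4]
          have h5 : b ∩ _root_.symmDiff b c = b \ c := by
            ext x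
            simp only [mem_inter, mem_symmDiff, mem_sdiff]
            tauto
          rw [h5]
          have h6 := card_sdiff_add_card_inter b c
          rw [inter_comm, h3, hB.1 b hb] at h6
          omega
        · rw [h4, ← symmDiff_assoc, symmDiff_self, bot_symmDiff]
      apply card_le_card_of_injOn (fun p : Finset α × Finset α => p.1 ∩ eraseNone S)
      · rintro ⟨b, c⟩ hp
        rw [mem_coe, mem_filter, hP, mem_filter, mem_product, mem_blk, mem_blk] at hp
        obtain ⟨⟨⟨hb, hc⟩, h3⟩, hbc⟩ := hp
        rw [mem_coe, mem_powersetCard]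
        exact ⟨inter_subset_right, (hkey b c hb hc h3 hbc).1⟩
      · rintro ⟨b, c⟩ hp ⟨b', c'⟩ hp' heq
        rw [mem_coe, mem_filter, hP, mem_filter, mem_product, mem_blk, mem_blk] at hp hp'
        obtain ⟨⟨⟨hb, hc⟩, h3⟩, hbc⟩ := hp
        obtain ⟨⟨⟨hb', hc'⟩, h3'⟩, hbc'⟩ := hp'
        simp only at heq hb hc h3 hbc hb' hc' h3' hbc'
        obtain ⟨h5, h6⟩ := hkey b c hb hc h3 hbc
        obtain ⟨h5', h6'⟩ := hkey b' c' hb' hc' h3' hbc'
        obtain ⟨d, _, hu⟩ := hB.2 _ h5
        have e1 := hu b ⟨hb, inter_subset_left⟩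
        have e2 := hu b' ⟨hb', by rw [heq]; exact inter_subset_left⟩
        rw [Prod.mk.injEq]
        have e3 : b = b' := e1.trans e2.symm
        exact ⟨e3, by rw [h6, h6', e3]⟩
  omega

/-- the octads form a Steiner system -/
theorem steiner : IsSteinerSystem 5 8 {S : Finset (Option α) | S ∈ D B ∧ S.card = 8} := by
  have hι : Fintype.card (Option α) = 24 := by rw [Fintype.card_option, hα]
  have h1 := (isCode hα hB).card_eight hι
  have h2 := card_octads hα hB
  exact h1.2 (by
    apply le_antisymm h1.1
    convert h2)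

theorem mem_iff (b : Finset α) : b ∈ B ↔ insertNone b ∈ {S : Finset (Option α) | S ∈ D B ∧ S.card = 8} := by
  constructor
  · intro hb
    exact ⟨insertNone_mem_D hα hB hb, by rw [card_insertNone', hB.1 b hb]⟩
  · rintro ⟨h1, h2⟩
    rw [card_insertNone'] at h2
    obtain ⟨s, hs, hsc⟩ := exists_subset_card_eq (s := b) (n := 4) (by omega)
    obtain ⟨c, ⟨hc, hsc'⟩, _⟩ := hB.2 s hsc
    obtain ⟨d, _, hu⟩ := (steiner hα hB).2 (insertNone s) (by rw [card_insertNone', hsc])
    have e1 := hu (insertNone b) ⟨⟨h1, by rw [card_insertNone']; exact h2⟩, insertNone.monotone hs⟩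
    have e2 := hu (insertNone c) ⟨⟨insertNone_mem_D hα hB hc, by rw [card_insertNone', hB.1 c hc]⟩,
      insertNone.monotone hsc'⟩
    have : b = c := insertNone.injective (e1.trans e2.symm)
    rw [this]; exact hc

end H9.Ext23
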