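import Cfsg.Agent.Lib.H96.FrDef
import Cfsg.Agent.Lib.H73.FrStep

set_option autoImplicit false
set_option linter.unusedSectionVars false
set_option linter.unusedVariables false
set_option linter.unusedSimpArgs false

/-! FRAMES, piece P4 (helper9). -/

namespace H9.FrP4

open Matrix H96.Fr

variable {ι F : Type*} [Fintype ι] [DecidableEq ι] [Field F] {K : Subgroup ((ι → F) ≃ₗ[F] (ι → F))}

lemma e_apply (i k : ι) : (e i : ι → F) k = if k = i then 1 else 0 := Pi.single_apply i 1 k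

lemma e_self (i : ι) : (e i : ι → F) i = 1 := by rw [e_apply, if_pos rfl]

lemma e_ne {i k : ι} (h : k ≠ i) : (e i : ι → F) k = 0 := by rw [e_apply, if_neg h]

lemma dot_e (x : ι → F) (i : ι) : x ⬝ᵥ e i = x i := by simp [e]

lemma e_dot (x : ι → F) (i : ι) : e i ⬝ᵥ x = x i := by simp [e]

lemma e_inj {i j : ι} (h : (e i : ι → F) = e j) : i = j := by
  by_contra hne
  have := congrFun h i
  rw [e_self, e_ne hne] at this
  exact one_ne_zero this

lemma e_inj_neg (h2 : (2:F) ≠ 0) {i j : ι} (h : (e i : ι → F) = - e j) : False := by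
  by_cases hij : i = j
  · subst hij
    have := congrFun h i
    rw [Pi.neg_apply, e_self] at this
    apply h2; linear_combination this
  · have := congrFun h i
    rw [Pi.neg_apply, e_self, e_ne hij, neg_zero] at this
    exact one_ne_zero this

lemma inv_ap (h : (ι → F) ≃ₗ[F] (ι → F)) (x : ι → F) : h⁻¹ (h x) = x := by
  rw [← LinearEquiv.mul_apply, inv_mul_cancel]; rfl

lemma ap_inv (h : (ι → F) ≃ₗ[F] (ι → F)) (x : ι → F) : h (h⁻¹ x) = x := by
  rw [← LinearEquiv.mul_apply, mul_inv_cancel]; rfl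

lemma iso_inv {h : (ι → F) ≃ₗ[F] (ι → F)} (hi : Iso h) : Iso h⁻¹ := by
  intro x y
  have := hi (h⁻¹ x) (h⁻¹ y)
  rw [ap_inv, ap_inv] at this
  exact this.symm

lemma sg_eq {i j : ι} (hij : i ≠ j) (x : ι → F) :
    sg i j x = x - (2 * x i) • e i - (2 * x j) • e j := by
  funext k
  rw [sg_apply]
  simp only [Pi.sub_apply, Pi.smul_apply, smul_eq_mul, e_apply]
  by_cases h1 : k = i
  · subst h1
    rw [if_pos (Or.inl rfl), if_pos rfl, if_neg hij]; ring
  · by_cases h3 : k = j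
    · subst h3
      rw [if_pos (Or.inr rfl), if_pos rfl, if_neg h1]; ring
    · rw [if_neg (by tauto), if_neg h1, if_neg h3]; ring

lemma conj_sg {h : (ι → F) ≃ₗ[F] (ι → F)} (hi : Iso h) {i j : ι} (hij : i ≠ j) (x : ι → F) :
    (h * sg i j * h⁻¹ : (ι → F) ≃ₗ[F] (ι → F)) x = x - (2 * (x ⬝ᵥ h (e i))) • h (e i) - (2 * (x ⬝ᵥ h (e j))) • h (e j) := by
  have e1 : ∀ l, (h⁻¹ x) l = x ⬝ᵥ h (e l) := by
    intro l
    have := hi (h⁻¹ x) (e l)
    rw [ap_inv, dot_e] at this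
    exact this.symm
  show h (sg i j (h⁻¹ x)) = _
  rw [sg_eq hij, map_sub, map_sub, map_smul, map_smul, ap_inv, e1, e1]

/-- monomial inverse -/
lemma mon_perm (h2 : (2:F) ≠ 0) {g : (ι → F) ≃ₗ[F] (ι → F)} (hg : Mon g) :
    ∃ σ : Equiv.Perm ι, ∀ i, g (e i) = e (σ i) ∨ g (e i) = - e (σ i) := by
  choose f hf using hg
  have hinj : Function.Injective f := by
    intro a b hab
    have ha := hf a
    have hb := hf b
    rw [hab] at ha
    rcases ha with ha | ha <;> rcases hb with hb | hb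
    · exact e_inj (g.injective (ha.trans hb.symm))
    · exfalso; apply e_inj_neg h2 (i := a) (j := b)
      apply g.injective
      rw [map_neg, hb, ha, neg_neg]
    · exfalso; apply e_inj_neg h2 (i := a) (j := b)
      apply g.injective
      rw [map_neg, hb, ha]
    · exact e_inj (g.injective (ha.trans hb.symm))
  exact ⟨Equiv.ofBijective f (Finite.injective_iff_bijective.mp hinj), hf⟩

lemma mon_inv (h2 : (2:F) ≠ 0) {g : (ι → F) ≃ₗ[F] (ι → F)} (hg : Mon g) : Mon g⁻¹ := by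
  obtain ⟨σ, hσ⟩ := mon_perm h2 hg
  intro i
  refine ⟨σ.symm i, ?_⟩
  have := hσ (σ.symm i)
  rw [Equiv.apply_symm_apply] at this
  rcases this with h | h
  · left; rw [← h, inv_ap]
  · right
    have h' : e i = - g (e (σ.symm i)) := by rw [h, neg_neg]
    rw [h', map_neg, inv_ap]

lemma perm_unique (h2 : (2:F) ≠ 0) {x : ι → F} {i j : ι} (h : x = e i ∨ x = - e i) (h' : x = e j ∨ x = - e j) :
    i = j := by
  rcases h with h | h <;> rcases h' with h' | h'
  · exact e_inj (h.symm.trans h')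
  · exact (e_inj_neg h2 (h.symm.trans h')).elim
  · exact (e_inj_neg h2 (h'.symm.trans h)).elim
  · exact e_inj (neg_injective (h.symm.trans h'))

lemma ext_e {g h : (ι → F) ≃ₗ[F] (ι → F)} (H : ∀ z, g (e z) = h (e z)) : g = h := by
  apply LinearEquiv.toLinearMap_injective
  apply LinearMap.pi_ext'
  intro z
  apply LinearMap.ext_ring
  exact H z

lemma sg_e {i j : ι} (z : ι) : sg i j (e z : ι → F) = if z = i ∨ z = j then - e z else e z := by
  funext k
  rw [sg_apply]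
  by_cases hz : z = i ∨ z = j
  · rw [if_pos hz]
    by_cases hk : k = z
    · subst hk; rw [if_pos hz]; rfl
    · rw [Pi.neg_apply, e_ne hk, neg_zero, ite_self]
  · rw [if_neg hz]
    by_cases hk : k = z
    · subst hk; rw [if_neg hz]
    · rw [e_ne hk, neg_zero, ite_self]

lemma key (hc : C2 K) {k : (ι → F) ≃ₗ[F] (ι → F)} (hk : k ∈ K) {i j : ι} (hij : i ≠ j)
    {x : (ι → F) ≃ₗ[F] (ι → F)} (hx : x ∈ K) (h : x * (k * sg i j * k⁻¹) = (k * sg i j * k⁻¹) * x) :
    Mon (k⁻¹ * x * k) := by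
  refine hc _ (mul_mem (mul_mem (inv_mem hk) hx) hk) i j hij ?_
  calc k⁻¹ * x * k * sg i j = k⁻¹ * (x * (k * sg i j * k⁻¹)) * k := by group
    _ = k⁻¹ * ((k * sg i j * k⁻¹) * x) * k := by rw [h]
    _ = _ := by group

lemma eig {k : (ι → F) ≃ₗ[F] (ι → F)} {i j : ι} {y y' : ι → F}
    (h : (k * sg i j * k⁻¹ : (ι → F) ≃ₗ[F] (ι → F)) y = y') : sg i j (k⁻¹ y) = k⁻¹ y' := by
  rw [← h]
  show _ = k⁻¹ (k (sg i j (k⁻¹ y)))
  rw [inv_ap]

lemma eigp (h2 : (2:F) ≠ 0) {k : (ι → F) ≃ₗ[F] (ι → F)} {i j : ι} {y : ι → F}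
    (h : (k * sg i j * k⁻¹ : (ι → F) ≃ₗ[F] (ι → F)) y = y) {x : ι} (hx : x = i ∨ x = j) :
    (k⁻¹ y) x = 0 := by
  have := congrFun (eig h) x
  rw [sg_apply, if_pos hx] at this
  have h3 : (2:F) * (k⁻¹ y) x = 0 := by linear_combination -this
  rcases mul_eq_zero.mp h3 with h | h
  · exact absurd h h2
  · exact h

lemma eigm (h2 : (2:F) ≠ 0) {k : (ι → F) ≃ₗ[F] (ι → F)} {i j : ι} {y : ι → F}
    (h : (k * sg i j * k⁻¹ : (ι → F) ≃ₗ[F] (ι → F)) y = - y) {x : ι} (hx : x ≠ i) (hx' : x ≠ j) :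
    (k⁻¹ y) x = 0 := by
  have := congrFun (eig h) x
  rw [sg_apply, if_neg (by tauto), map_neg, Pi.neg_apply] at this
  have h3 : (2:F) * (k⁻¹ y) x = 0 := by linear_combination this
  rcases mul_eq_zero.mp h3 with h | h
  · exact absurd h h2
  · exact h

lemma typ (h2 : (2:F) ≠ 0) {s : (ι → F) ≃ₗ[F] (ι → F)} (hs : Mon s) {p q : ι → F} (hp : p ⬝ᵥ p = 1)
    (hd : ∀ l, p l = 0 ∨ q l = 0)
    (h : ∀ x, s x = x - (2 * (x ⬝ᵥ p)) • p - (2 * (x ⬝ᵥ q)) • q) :
    (∃ l, p = e l ∨ p = - e l) ∨ ∃ x y : ι, x ≠ y ∧ ∃ m δ : F, m ≠ 0 ∧ (δ = 1 ∨ δ = -1) ∧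
      p = m • (e x + δ • e y) := by
  obtain ⟨x, hx⟩ : ∃ x, p x ≠ 0 := by
    by_contra hcon
    push Not at hcon
    have : p = 0 := funext hcon
    rw [this, dotProduct_zero] at hp
    exact zero_ne_one hp
  have hq : q x = 0 := (hd x).resolve_left hx
  have h1 := h (e x)
  rw [e_dot, e_dot, hq, mul_zero, zero_smul, sub_zero] at h1
  have h3 : (2 * p x) • p = e x - s (e x) := by rw [h1]; abel
  obtain ⟨c, hc, h4⟩ : ∃ c : F, c ≠ 0 ∧ p = c • (e x - s (e x)) :=
    ⟨(2 * p x)⁻¹, inv_ne_zero (mul_ne_zero h2 hx), by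
      rw [← h3, smul_smul, inv_mul_cancel₀ (mul_ne_zero h2 hx), one_smul]⟩
  obtain ⟨y, hy⟩ := hs x
  by_cases hxy : x = y
  · subst hxy
    left
    refine ⟨x, ?_⟩
    rcases hy with hy | hy
    · exfalso
      rw [hy, sub_self, smul_zero] at h4
      rw [h4, dotProduct_zero] at hp
      exact zero_ne_one hp
    · rw [hy, sub_neg_eq_add, ← two_smul F, smul_smul] at h4
      rw [h4, smul_dotProduct, dotProduct_smul, dot_e, e_self, smul_eq_mul, smul_eq_mul, mul_one] at hp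
      have h5 : (c * 2 - 1) * (c * 2 + 1) = 0 := by linear_combination hp
      rcases mul_eq_zero.mp h5 with h6 | h6
      · left; rw [h4, sub_eq_zero.mp h6, one_smul]
      · right; rw [h4, eq_neg_of_add_eq_zero_left h6, neg_smul, one_smul]
  · right
    rcases hy with hy | hy
    · exact ⟨x, y, hxy, c, -1, hc, Or.inr rfl, by
        rw [hy] at h4; rw [h4, neg_smul, one_smul, sub_eq_add_neg]⟩
    · exact ⟨x, y, hxy, c, 1, hc, Or.inl rfl, by
        rw [hy] at h4; rw [h4, one_smul, sub_neg_eq_add]⟩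

lemma fin4 (D : Dat K) (h2 : (2:F) ≠ 0) (hr : MonLe K 4) (hN : Fintype.card ι = 5)
    {k : (ι → F) ≃ₗ[F] (ι → F)} (hk : k ∈ K) {z : ι} (h : ∃ l, k⁻¹ (e z) = e l ∨ k⁻¹ (e z) = - e l) :
    Mon k := by
  have hcard : (Finset.univ.erase z).card = 4 := by
    rw [Finset.card_erase_of_mem (Finset.mem_univ z), Finset.card_univ, hN]
  have h1 : Mon k⁻¹ := by
    refine H73.FrStep.step0 D h2 (inv_mem hk) (I := Finset.univ.erase z) (by omega) ?_ ?_
    · intro j hj
      have : j = z := by simpa using hj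
      subst this
      exact h
    · intro x hx hs
      exact hr x hx _ (by omega) hs
  have := mon_inv h2 h1
  rwa [inv_inv] at this

lemma fifth (hN : Fintype.card ι = 5) {i j x y : ι} (hij : i ≠ j) (hix : i ≠ x) (hiy : i ≠ y)
    (hjx : j ≠ x) (hjy : j ≠ y) (hxy : x ≠ y) : ∃ l : ι, (l ≠ i ∧ l ≠ j ∧ l ≠ x ∧ l ≠ y) ∧
      ∀ z, z = i ∨ z = j ∨ z = x ∨ z = y ∨ z = l := by
  have h4 : ({i, j, x, y} : Finset ι).card = 4 := by
    rw [Finset.card_insert_of_notMem, Finset.card_insert_of_notMem, Finset.card_insert_of_notMem,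
      Finset.card_singleton]
    · simp [hxy]
    · simp [hjx, hjy]
    · simp [hij, hix, hiy]
  have h1 : (({i, j, x, y} : Finset ι)ᶜ).card = 1 := by
    rw [Finset.card_compl, hN, h4]
  obtain ⟨l, hl⟩ := Finset.card_eq_one.mp h1
  have hl' : l ∉ ({i, j, x, y} : Finset ι) := by
    rw [← Finset.mem_compl, hl]; exact Finset.mem_singleton_self l
  refine ⟨l, by simpa using hl', ?_⟩
  intro z
  by_cases hz : z ∈ ({i, j, x, y} : Finset ι)
  · simp only [Finset.mem_insert, Finset.mem_singleton] at hz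
    rcases hz with h | h | h | h
    · exact Or.inl h
    · exact Or.inr (Or.inl h)
    · exact Or.inr (Or.inr (Or.inl h))
    · exact Or.inr (Or.inr (Or.inr (Or.inl h)))
  · rw [← Finset.mem_compl, hl, Finset.mem_singleton] at hz
    exact Or.inr (Or.inr (Or.inr (Or.inr hz)))

set_option maxHeartbeats 4000000 in
lemma caseB (D : Dat K) (h2 : (2:F) ≠ 0) (hr : MonLe K 4) (hc : C2 K) (hN : Fintype.card ι = 5)
    {k : (ι → F) ≃ₗ[F] (ι → F)} (hk : k ∈ K) {i j : ι} (hij : i ≠ j) {a b c d f : ι}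
    (hab : a ≠ b) (hac : a ≠ c) (had : a ≠ d) (haf : a ≠ f) (hbc : b ≠ c) (hbd : b ≠ d) (hbf : b ≠ f)
    (hcd : c ≠ d) (hcf : c ≠ f) (hdf : d ≠ f)
    (hcov : ∀ z, z = a ∨ z = b ∨ z = c ∨ z = d ∨ z = f)
    {ε : F} (hε : ε = 1 ∨ ε = -1)
    (hta : (k * sg i j * k⁻¹ : (ι → F) ≃ₗ[F] (ι → F)) (e a) = ε • e b)
    (htb : (k * sg i j * k⁻¹ : (ι → F) ≃ₗ[F] (ι → F)) (e b) = ε • e a)
    (htc : (k * sg i j * k⁻¹ : (ι → F) ≃ₗ[F] (ι → F)) (e c) = - e c)
    (htd : (k * sg i j * k⁻¹ : (ι → F) ≃ₗ[F] (ι → F)) (e d) = e d)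
    (htf : (k * sg i j * k⁻¹ : (ι → F) ≃ₗ[F] (ι → F)) (e f) = e f) : Mon k := by
  set t : (ι → F) ≃ₗ[F] (ι → F) := k * sg i j * k⁻¹ with ht
  have hεε : ε * ε = 1 := by rcases hε with h | h <;> rw [h] <;> ring
  have hki : Iso k⁻¹ := iso_inv (D.iso k hk)
  have hdot : ∀ x y, k⁻¹ x ⬝ᵥ k⁻¹ y = x ⬝ᵥ y := hki
  -- supports
  have sc : ∀ x, x ≠ i → x ≠ j → (k⁻¹ (e c)) x = 0 := fun x hx hx' => eigm h2 htc hx hx'
  have sd : ∀ x, x = i ∨ x = j → (k⁻¹ (e d)) x = 0 := fun x hx => eigp h2 htd hx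
  have sf : ∀ x, x = i ∨ x = j → (k⁻¹ (e f)) x = 0 := fun x hx => eigp h2 htf hx
  have htw : t (e a + ε • e b) = e a + ε • e b := by
    rw [map_add, map_smul, hta, htb, smul_smul, hεε, one_smul, add_comm]
  have sw : ∀ x, x = i ∨ x = j → (k⁻¹ (e a + ε • e b)) x = 0 := fun x hx => eigp h2 htw hx
  -- the conjugate of sg c d
  have mcd : Mon (k⁻¹ * sg c d * k) := by
    refine key hc hk hij (D.sg c d hcd) ?_
    rw [← ht]
    apply ext_e
    intro z
    rcases hcov z with rfl | rfl | rfl | rfl | rfl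
    · simp [LinearEquiv.mul_apply, sg_e, hta, hac, had, hbc, hbd]
    · simp [LinearEquiv.mul_apply, sg_e, htb, hac, had, hbc, hbd]
    · simp [LinearEquiv.mul_apply, sg_e, htc, hac, had, hbc, hbd]
    · simp [LinearEquiv.mul_apply, sg_e, htd, hac, had, hbc, hbd]
    · simp [LinearEquiv.mul_apply, sg_e, htf, hac, had, hbc, hbd, hcf.symm, hdf.symm]
  have mcf : Mon (k⁻¹ * sg c f * k) := by
    refine key hc hk hij (D.sg c f hcf) ?_
    rw [← ht]
    apply ext_e
    intro z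
    rcases hcov z with rfl | rfl | rfl | rfl | rfl
    · simp [LinearEquiv.mul_apply, sg_e, hta, hac, haf, hbc, hbf]
    · simp [LinearEquiv.mul_apply, sg_e, htb, hac, haf, hbc, hbf]
    · simp [LinearEquiv.mul_apply, sg_e, htc, hac, haf, hbc, hbf]
    · simp [LinearEquiv.mul_apply, sg_e, htd, hcd.symm, hdf]
    · simp [LinearEquiv.mul_apply, sg_e, htf]
  have hcj : ∀ p q : ι, p ≠ q → ∀ x, (k⁻¹ * sg p q * k : (ι → F) ≃ₗ[F] (ι → F)) x =
      x - (2 * (x ⬝ᵥ k⁻¹ (e p))) • k⁻¹ (e p) - (2 * (x ⬝ᵥ k⁻¹ (e q))) • k⁻¹ (e q) := by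
    intro p q hpq x
    have := conj_sg hki hpq x
    rwa [inv_inv] at this
  have uu : ∀ z, k⁻¹ (e z) ⬝ᵥ k⁻¹ (e z) = 1 := by
    intro z; rw [hdot, dot_e, e_self]
  have uv : ∀ z z', z ≠ z' → k⁻¹ (e z) ⬝ᵥ k⁻¹ (e z') = 0 := by
    intro z z' hz; rw [hdot, dot_e, e_ne hz.symm]
  have Td := typ h2 mcd (p := k⁻¹ (e d)) (q := k⁻¹ (e c)) (uu d) (by
    intro l
    by_cases hl : l = i ∨ l = j
    · left; exact sd l hl
    · right; push Not at hl; exact sc l hl.1 hl.2) (by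
    intro x; rw [hcj c d hcd x]; abel)
  have Tf := typ h2 mcf (p := k⁻¹ (e f)) (q := k⁻¹ (e c)) (uu f) (by
    intro l
    by_cases hl : l = i ∨ l = j
    · left; exact sf l hl
    · right; push Not at hl; exact sc l hl.1 hl.2) (by
    intro x; rw [hcj c f hcf x]; abel)
  rcases Td with Td | ⟨x, y, hxy, m, δ, hm, hδ, hd⟩
  · exact fin4 D h2 hr hN hk Td
  rcases Tf with Tf | ⟨x', y', hxy', m', δ', hm', hδ', hf⟩
  · exact fin4 D h2 hr hN hk Tf
  exfalso
  have hδδ : δ * δ = 1 := by rcases hδ with h | h <;> rw [h] <;> ring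
  have hδ0 : δ ≠ 0 := by rintro rfl; rw [zero_mul] at hδδ; exact zero_ne_one hδδ
  have hδδ' : δ' * δ' = 1 := by rcases hδ' with h | h <;> rw [h] <;> ring
  have hδ0' : δ' ≠ 0 := by rintro rfl; rw [zero_mul] at hδδ'; exact zero_ne_one hδδ'
  set P : ι → F := k⁻¹ (e d) with hP
  set Q : ι → F := k⁻¹ (e f) with hQ
  have Pz : ∀ z, P z = m * (e x z + δ * e y z) := by intro z; rw [hd]; rfl
  have Qz : ∀ z, Q z = m' * (e x' z + δ' * e y' z) := by intro z; rw [hf]; rfl
  have Px : P x = m := by rw [Pz, e_self, e_ne hxy, mul_zero, add_zero, mul_one]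
  have Py : P y = m * δ := by rw [Pz, e_self, e_ne hxy.symm, zero_add, mul_one]
  have Qx' : Q x' = m' := by rw [Qz, e_self, e_ne hxy', mul_zero, add_zero, mul_one]
  have Qy' : Q y' = m' * δ' := by rw [Qz, e_self, e_ne hxy'.symm, zero_add, mul_one]
  have hxi : ¬ (x = i ∨ x = j) := fun h => hm (by rw [← Px]; exact sd x h)
  have hyi : ¬ (y = i ∨ y = j) := fun h => mul_ne_zero hm hδ0 (by rw [← Py]; exact sd y h)
  have hxi' : ¬ (x' = i ∨ x' = j) := fun h => hm' (by rw [← Qx']; exact sf x' h)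
  have hyi' : ¬ (y' = i ∨ y' = j) := fun h => mul_ne_zero hm' hδ0' (by rw [← Qy']; exact sf y' h)
  push Not at hxi hyi hxi' hyi'
  -- the fifth element
  obtain ⟨l, hl, hlc⟩ := fifth hN hij hxi.1.symm hyi.1.symm hxi.2.symm hyi.2.symm hxy
  have Pl : P l = 0 := by rw [Pz, e_ne hl.2.2.1, e_ne hl.2.2.2, mul_zero, add_zero, mul_zero]
  have dP : ∀ v : ι → F, v ⬝ᵥ P = m * (v x + δ * v y) := by
    intro v
    rw [hd, dotProduct_smul, dotProduct_add, dotProduct_smul, dot_e, dot_e]; rfl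
  have PQ : Q x + δ * Q y = 0 := by
    have := uv f d hdf.symm
    rw [← hP, ← hQ, dP] at this
    exact (mul_eq_zero.mp this).resolve_left hm
  have Ql : Q l = 0 := by
    by_contra hne
    have hx3 : ∀ z, z ≠ x' → z ≠ y' → Q z = 0 := by
      intro z h1 h3
      rw [Qz, e_ne h1, e_ne h3, mul_zero, add_zero, mul_zero]
    -- x' and y' are in {x, y, l}
    have c1 : x' = x ∨ x' = y ∨ x' = l := by
      rcases hlc x' with h | h | h | h | h
      · exact absurd h hxi'.1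
      · exact absurd h hxi'.2
      · exact Or.inl h
      · exact Or.inr (Or.inl h)
      · exact Or.inr (Or.inr h)
    have c2 : y' = x ∨ y' = y ∨ y' = l := by
      rcases hlc y' with h | h | h | h | h
      · exact absurd h hyi'.1
      · exact absurd h hyi'.2
      · exact Or.inl h
      · exact Or.inr (Or.inl h)
      · exact Or.inr (Or.inr h)
    have hl3 : l = x' ∨ l = y' := by
      by_contra hcon
      push Not at hcon
      exact hne (hx3 l hcon.1 hcon.2)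
    have hm'' : m' * δ' ≠ 0 := mul_ne_zero hm' hδ0'
    rcases hl3 with h3 | h3
    · rcases c2 with h | h | h
      · have hy0 : Q y = 0 := hx3 y (by rw [← h3]; exact hl.2.2.2.symm) (by rw [h]; exact hxy.symm)
        rw [hy0, mul_zero, add_zero, ← h, Qy'] at PQ
        exact hm'' PQ
      · have hx0 : Q x = 0 := hx3 x (by rw [← h3]; exact hl.2.2.1.symm) (by rw [h]; exact hxy)
        rw [hx0, zero_add, ← h, Qy'] at PQ
        exact mul_ne_zero hδ0 hm'' PQ
      · exact hxy' (by rw [← h3, h])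
    · rcases c1 with h | h | h
      · have hy0 : Q y = 0 := hx3 y (by rw [h]; exact hxy.symm) (by rw [← h3]; exact hl.2.2.2.symm)
        rw [hy0, mul_zero, add_zero, ← h, Qx'] at PQ
        exact hm' PQ
      · have hx0 : Q x = 0 := hx3 x (by rw [h]; exact hxy) (by rw [← h3]; exact hl.2.2.1.symm)
        rw [hx0, zero_add, ← h, Qx'] at PQ
        exact mul_ne_zero hδ0 hm' PQ
      · exact hxy' (by rw [← h3, h])
  have Qe : Q = (Q x) • e x + (Q y) • e y := by
    funext z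
    simp only [Pi.add_apply, Pi.smul_apply, smul_eq_mul]
    rcases hlc z with h | h | h | h | h
    · rw [h, sf i (Or.inl rfl), e_ne hxi.1.symm, e_ne hyi.1.symm]; ring
    · rw [h, sf j (Or.inr rfl), e_ne hxi.2.symm, e_ne hyi.2.symm]; ring
    · rw [h, e_self, e_ne hxy]; ring
    · rw [h, e_self, e_ne hxy.symm]; ring
    · rw [h, Ql, e_ne hl.2.2.1, e_ne hl.2.2.2]; ring
  have dQ : ∀ v : ι → F, v ⬝ᵥ Q = Q x * v x + Q y * v y := by
    intro v
    conv_lhs => rw [Qe]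
    rw [dotProduct_add, dotProduct_smul, dotProduct_smul, dot_e, dot_e]; rfl
  have Qx : Q x = - (δ * Q y) := eq_neg_of_add_eq_zero_left PQ
  have mm : 2 * (m * m) = 1 := by
    have := uu d
    rw [← hP, dP, Px, Py] at this
    linear_combination this - m * m * hδδ
  have nn : 2 * (Q y * Q y) = 1 := by
    have := uu f
    rw [← hQ, dQ, Qx] at this
    linear_combination this - Q y * Q y * hδδ
  have hQy : Q y ≠ 0 := by
    intro h; rw [h, mul_zero, mul_zero] at nn; exact zero_ne_one nn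
  -- the conjugate of sg d f
  have hsg : k⁻¹ * sg d f * k = sg x y := by
    apply ext_e
    intro z
    rw [hcj d f hdf, dP, dQ, sg_e]
    have hP' : k⁻¹ (e d) = m • e x + (m * δ) • e y := by rw [← hP, hd, smul_add, smul_smul]
    have hQ' : k⁻¹ (e f) = (-(δ * Q y)) • e x + (Q y) • e y := by rw [← Qx, ← Qe]
    rcases hlc z with h | h | h | h | h
    · rw [h, if_neg (by rintro (h | h); exacts [hxi.1 h.symm, hyi.1 h.symm]), e_ne hxi.1, e_ne hyi.1]
      simp
    · rw [h, if_neg (by rintro (h | h); exacts [hxi.2 h.symm, hyi.2 h.symm]), e_ne hxi.2, e_ne hyi.2]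
      simp
    · rw [h, if_pos (Or.inl rfl), e_self, e_ne hxy.symm, hP', hQ', Qx]
      funext w
      simp only [Pi.sub_apply, Pi.smul_apply, smul_eq_mul, Pi.add_apply, Pi.neg_apply]
      linear_combination (-(e x w) - δ * e y w) * mm + (-(e x w) * (δ * δ) + δ * e y w) * nn - (e x w) * hδδ
    · rw [h, if_pos (Or.inr rfl), e_self, e_ne hxy, hP', hQ', Qx]
      funext w
      simp only [Pi.sub_apply, Pi.smul_apply, smul_eq_mul, Pi.add_apply, Pi.neg_apply]
      linear_combination (-(e x w) * δ - δ * δ * e y w) * mm + (e x w * δ - e y w) * nn - (e y w) * hδδ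
    · rw [h, if_neg (by rintro (h | h); exacts [hl.2.2.1 h, hl.2.2.2 h]), e_ne hl.2.2.1.symm, e_ne hl.2.2.2.symm]
      simp
  -- the 3-cycle
  obtain ⟨σ, hσ⟩ : ∃ σ : Equiv.Perm ι, σ = Equiv.swap a b * Equiv.swap b c := ⟨_, rfl⟩
  have hs1 : Equiv.Perm.sign σ = 1 := by
    rw [hσ, Equiv.Perm.sign_mul, Equiv.Perm.sign_swap hab, Equiv.Perm.sign_swap hbc]; rfl
  have σa : σ a = b := by
    rw [hσ, Equiv.Perm.mul_apply, Equiv.swap_apply_of_ne_of_ne hab hac, Equiv.swap_apply_left]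
  have σb : σ b = c := by
    rw [hσ, Equiv.Perm.mul_apply, Equiv.swap_apply_left, Equiv.swap_apply_of_ne_of_ne hac.symm hbc.symm]
  have σc : σ c = a := by
    rw [hσ, Equiv.Perm.mul_apply, Equiv.swap_apply_right, Equiv.swap_apply_right]
  have σd : σ d = d := by
    rw [hσ, Equiv.Perm.mul_apply, Equiv.swap_apply_of_ne_of_ne hbd.symm hcd.symm,
      Equiv.swap_apply_of_ne_of_ne had.symm hbd.symm]
  have σf : σ f = f := by
    rw [hσ, Equiv.Perm.mul_apply, Equiv.swap_apply_of_ne_of_ne hbf.symm hcf.symm,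
      Equiv.swap_apply_of_ne_of_ne haf.symm hbf.symm]
  have hcom : pm σ * sg d f = (sg d f * pm σ : (ι → F) ≃ₗ[F] (ι → F)) := by
    apply ext_e
    intro z
    rcases hcov z with rfl | rfl | rfl | rfl | rfl
    · simp [LinearEquiv.mul_apply, sg_e, pm_e, σa, had, haf, hbd, hbf]
    · simp [LinearEquiv.mul_apply, sg_e, pm_e, σb, hcd, hcf, hbd, hbf]
    · simp [LinearEquiv.mul_apply, sg_e, pm_e, σc, had, haf, hcd, hcf]
    · simp [LinearEquiv.mul_apply, sg_e, pm_e, σd]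
    · simp [LinearEquiv.mul_apply, sg_e, pm_e, σf]
  have hM : Mon (k⁻¹ * pm σ * k) := by
    refine hc _ (mul_mem (mul_mem (inv_mem hk) (D.pm σ hs1)) hk) x y hxy ?_
    rw [← hsg]
    calc k⁻¹ * pm σ * k * (k⁻¹ * sg d f * k) = k⁻¹ * (pm σ * sg d f) * k := by group
      _ = k⁻¹ * (sg d f * pm σ) * k := by rw [hcom]
      _ = _ := by group
  -- the vector w
  set w : ι → F := k⁻¹ (e a + ε • e b) with hw
  have wP : w x + δ * w y = 0 := by
    have : w ⬝ᵥ P = 0 := by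
      rw [hw, hP, hdot, add_dotProduct, smul_dotProduct, dot_e, dot_e, e_ne had.symm, e_ne hbd.symm,
        smul_zero, add_zero]
    rw [dP] at this
    exact (mul_eq_zero.mp this).resolve_left hm
  have wQ : Q x * w x + Q y * w y = 0 := by
    have : w ⬝ᵥ Q = 0 := by
      rw [hw, hQ, hdot, add_dotProduct, smul_dotProduct, dot_e, dot_e, e_ne haf.symm, e_ne hbf.symm,
        smul_zero, add_zero]
    rwa [dQ] at this
  have wy : w y = 0 := by
    rw [Qx] at wQ
    have h3 : (2 : F) * Q y * w y = 0 := by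
      linear_combination wQ + δ * Q y * wP - Q y * w y * hδδ
    rcases mul_eq_zero.mp h3 with h | h
    · exact absurd h (mul_ne_zero h2 hQy)
    · exact h
  have wx : w x = 0 := by rw [wy, mul_zero, add_zero] at wP; exact wP
  have we : w = (w l) • e l := by
    funext z
    simp only [Pi.smul_apply, smul_eq_mul]
    rcases hlc z with h | h | h | h | h
    · rw [h, sw i (Or.inl rfl), e_ne hl.1.symm, mul_zero]
    · rw [h, sw j (Or.inr rfl), e_ne hl.2.1.symm, mul_zero]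
    · rw [h, wx, e_ne hl.2.2.1.symm, mul_zero]
    · rw [h, wy, e_ne hl.2.2.2.symm, mul_zero]
    · rw [h, e_self, mul_one]
  have hε0 : ε ≠ 0 := by rintro rfl; rw [zero_mul] at hεε; exact zero_ne_one hεε
  have hw' : (k⁻¹ * pm σ * k : (ι → F) ≃ₗ[F] (ι → F)) w = k⁻¹ (e b + ε • e c) := by
    show k⁻¹ (pm σ (k w)) = _
    rw [hw, ap_inv, map_add, map_smul, pm_e, pm_e, σa, σb]
  obtain ⟨l', hl'⟩ := hM l
  have hw2 : k⁻¹ (e b + ε • e c) = (w l) • (k⁻¹ * pm σ * k : (ι → F) ≃ₗ[F] (ι → F)) (e l) := by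
    rw [← hw', ← map_smul, ← we]
  have dot1 : w ⬝ᵥ k⁻¹ (e b + ε • e c) = ε := by
    rw [hw, hdot, dotProduct_add, dotProduct_smul, dot_e, dot_e]
    simp only [Pi.add_apply, Pi.smul_apply, smul_eq_mul, e_self, e_ne hab.symm, e_ne hac.symm, e_ne hbc.symm]
    ring
  have dot2 : k⁻¹ (e b + ε • e c) ⬝ᵥ k⁻¹ (e c) = ε := by
    rw [hdot, dot_e]
    simp only [Pi.add_apply, Pi.smul_apply, smul_eq_mul, e_self, e_ne hbc.symm]
    ring
  have hll : l' = l := by
    by_contra hne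
    apply hε0
    rw [← dot1, hw2, we, smul_dotProduct, dotProduct_smul, e_dot]
    rcases hl' with h | h
    · rw [h, e_ne (Ne.symm hne), smul_zero, smul_zero]
    · rw [h, Pi.neg_apply, e_ne (Ne.symm hne), neg_zero, smul_zero, smul_zero]
  apply hε0
  rw [← dot2, hw2, smul_dotProduct]
  rcases hl' with h | h
  · rw [h, hll, e_dot, sc l hl.1 hl.2.1, smul_zero]
  · rw [h, hll, neg_dotProduct, e_dot, sc l hl.1 hl.2.1, neg_zero, smul_zero]

end H9.FrP4
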