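import Cfsg.Agent.Lib.H9.FrP4

set_option autoImplicit false
set_option linter.unusedSectionVars false
set_option linter.unusedVariables false
set_option linter.unusedSimpArgs false

/-! FRAMES, piece P4, part 2 (helper9). -/

namespace H9.FrP4

open Matrix H96.Fr

variable {ι F : Type*} [Fintype ι] [DecidableEq ι] [Field F] {K : Subgroup ((ι → F) ≃ₗ[F] (ι → F))}

lemma perm_mul {g h : (ι → F) ≃ₗ[F] (ι → F)} {σ τ : Equiv.Perm ι}
    (hg : ∀ i, g (e i) = e (σ i) ∨ g (e i) = - e (σ i)) (hh : ∀ i, h (e i) = e (τ i) ∨ h (e i) = - e (τ i)) :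
    ∀ i, (g * h : (ι → F) ≃ₗ[F] (ι → F)) (e i) = e ((σ * τ) i) ∨
      (g * h : (ι → F) ≃ₗ[F] (ι → F)) (e i) = - e ((σ * τ) i) := by
  intro i
  rw [LinearEquiv.mul_apply, Equiv.Perm.mul_apply]
  rcases hh i with h1 | h1
  · rw [h1]; exact hg _
  · rw [h1, map_neg]
    rcases hg (τ i) with h3 | h3
    · right; rw [h3]
    · left; rw [h3, neg_neg]

lemma mon_mul {g h : (ι → F) ≃ₗ[F] (ι → F)} (hg : Mon g) (hh : Mon h) : Mon (g * h) := by
  intro i
  obtain ⟨j, hj⟩ := hh i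
  obtain ⟨l, hl⟩ := hg j
  refine ⟨l, ?_⟩
  rw [LinearEquiv.mul_apply]
  rcases hj with hj | hj
  · rw [hj]; exact hl
  · rw [hj, map_neg]
    rcases hl with h3 | h3
    · right; rw [h3]
    · left; rw [h3, neg_neg]

lemma caseC (D : Dat K) (h2 : (2:F) ≠ 0) (hr : MonLe K 4) (hc : C2 K) (hN : Fintype.card ι = 5)
    {k : (ι → F) ≃ₗ[F] (ι → F)} (hk : k ∈ K) {i j : ι} (hij : i ≠ j) {a b c d f : ι}
    (hab : a ≠ b) (hac : a ≠ c) (had : a ≠ d) (haf : a ≠ f) (hbc : b ≠ c) (hbd : b ≠ d) (hbf : b ≠ f)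
    (hcd : c ≠ d) (hcf : c ≠ f) (hdf : d ≠ f)
    (hcov : ∀ z, z = a ∨ z = b ∨ z = c ∨ z = d ∨ z = f)
    {ε ε' ζ : F} (hε : ε = 1 ∨ ε = -1) (hε' : ε' = 1 ∨ ε' = -1)
    (hta : (k * sg i j * k⁻¹ : (ι → F) ≃ₗ[F] (ι → F)) (e a) = ε • e b)
    (htb : (k * sg i j * k⁻¹ : (ι → F) ≃ₗ[F] (ι → F)) (e b) = ε • e a)
    (htc : (k * sg i j * k⁻¹ : (ι → F) ≃ₗ[F] (ι → F)) (e c) = ε' • e d)
    (htd : (k * sg i j * k⁻¹ : (ι → F) ≃ₗ[F] (ι → F)) (e d) = ε' • e c)
    (htf : (k * sg i j * k⁻¹ : (ι → F) ≃ₗ[F] (ι → F)) (e f) = ζ • e f) : Mon k := by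
  set t : (ι → F) ≃ₗ[F] (ι → F) := k * sg i j * k⁻¹ with ht
  have hεε : ε * ε = 1 := by rcases hε with h | h <;> rw [h] <;> ring
  have hεε' : ε' * ε' = 1 := by rcases hε' with h | h <;> rw [h] <;> ring
  have hki : Iso k⁻¹ := iso_inv (D.iso k hk)
  have hdot : ∀ x y, k⁻¹ x ⬝ᵥ k⁻¹ y = x ⬝ᵥ y := hki
  obtain ⟨θ, hθ⟩ : ∃ θ : F, θ = ε * ε' := ⟨_, rfl⟩
  have hθ1 : θ = 1 ∨ θ = -1 := by
    rcases hε with h | h <;> rcases hε' with h' | h' <;> rw [hθ, h, h'] <;> simp
  obtain ⟨σ0, hσ0⟩ : ∃ σ : Equiv.Perm ι, σ = Equiv.swap a c * Equiv.swap b d := ⟨_, rfl⟩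
  have hs1 : Equiv.Perm.sign σ0 = 1 := by
    rw [hσ0, Equiv.Perm.sign_mul, Equiv.Perm.sign_swap hac, Equiv.Perm.sign_swap hbd]; rfl
  have σa : σ0 a = c := by
    rw [hσ0, Equiv.Perm.mul_apply, Equiv.swap_apply_of_ne_of_ne hab had, Equiv.swap_apply_left]
  have σb : σ0 b = d := by
    rw [hσ0, Equiv.Perm.mul_apply, Equiv.swap_apply_left, Equiv.swap_apply_of_ne_of_ne had.symm hcd.symm]
  have σc : σ0 c = a := by
    rw [hσ0, Equiv.Perm.mul_apply, Equiv.swap_apply_of_ne_of_ne hbc.symm hcd, Equiv.swap_apply_right]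
  have σd : σ0 d = b := by
    rw [hσ0, Equiv.Perm.mul_apply, Equiv.swap_apply_right, Equiv.swap_apply_of_ne_of_ne hab.symm hbc]
  have σf : σ0 f = f := by
    rw [hσ0, Equiv.Perm.mul_apply, Equiv.swap_apply_of_ne_of_ne hbf.symm hdf.symm,
      Equiv.swap_apply_of_ne_of_ne haf.symm hcf.symm]
  obtain ⟨α, hα, αa, αb, αc, αd, αf⟩ : ∃ α ∈ K, α (e a) = (e c : ι → F) ∧ α (e b) = θ • (e d : ι → F) ∧
      α (e c) = (e a : ι → F) ∧ α (e d) = θ • (e b : ι → F) ∧ α (e f) = (e f : ι → F) := by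
    rcases hθ1 with h | h
    · refine ⟨pm σ0, D.pm _ hs1, ?_, ?_, ?_, ?_, ?_⟩
      · rw [pm_e, σa]
      · rw [pm_e, σb, h, one_smul]
      · rw [pm_e, σc]
      · rw [pm_e, σd, h, one_smul]
      · rw [pm_e, σf]
    · refine ⟨sg b d * pm σ0, mul_mem (D.sg _ _ hbd) (D.pm _ hs1), ?_, ?_, ?_, ?_, ?_⟩
      · rw [LinearEquiv.mul_apply, pm_e, σa, sg_e, if_neg (by rintro (h | h); exacts [hbc h.symm, hcd h])]
      · rw [LinearEquiv.mul_apply, pm_e, σb, h, sg_e, if_pos (Or.inr rfl), neg_smul, one_smul]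
      · rw [LinearEquiv.mul_apply, pm_e, σc, sg_e, if_neg (by rintro (h | h); exacts [hab h, had h])]
      · rw [LinearEquiv.mul_apply, pm_e, σd, h, sg_e, if_pos (Or.inl rfl), neg_smul, one_smul]
      · rw [LinearEquiv.mul_apply, pm_e, σf, sg_e, if_neg (by rintro (h | h); exacts [hbf h.symm, hdf h.symm])]
  have hθε : θ * ε' = ε := by rw [hθ, mul_assoc, hεε', mul_one]
  have hθε' : θ * ε = ε' := by rw [hθ]; linear_combination ε' * hεε
  have mα : Mon (k⁻¹ * α * k) := by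
    refine key hc hk hij hα ?_
    rw [← ht]
    apply ext_e
    intro z
    simp only [LinearEquiv.mul_apply]
    rcases hcov z with rfl | rfl | rfl | rfl | rfl
    · rw [hta, αa, map_smul, αb, htc, smul_smul, mul_comm, hθε']
    · rw [htb, αb, map_smul, map_smul, αa, htd, smul_smul, hθε]
    · rw [htc, αc, map_smul, αd, hta, smul_smul, mul_comm, hθε]
    · rw [htd, αd, map_smul, map_smul, αc, htb, smul_smul, hθε']
    · rw [htf, αf, map_smul, αf, htf]
  have md : Mon (k⁻¹ * sg a b * k) := by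
    refine key hc hk hij (D.sg a b hab) ?_
    rw [← ht]
    apply ext_e
    intro z
    simp only [LinearEquiv.mul_apply]
    rcases hcov z with rfl | rfl | rfl | rfl | rfl
    · simp [sg_e, hta]
    · simp [sg_e, htb]
    · simp [sg_e, htc, hac.symm, hbc.symm, had.symm, hbd.symm]
    · simp [sg_e, htd, hac.symm, hbc.symm, had.symm, hbd.symm]
    · simp [sg_e, htf, haf.symm, hbf.symm]
  have hcm : α * sg a b = sg c d * α := by
    apply ext_e
    intro z
    simp only [LinearEquiv.mul_apply]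
    rcases hcov z with rfl | rfl | rfl | rfl | rfl
    · simp [sg_e, αa]
    · simp [sg_e, αb]
    · simp [sg_e, αc, hac.symm, hbc.symm, hac, had]
    · simp [sg_e, αd, had.symm, hbd.symm, hbc, hbd]
    · simp [sg_e, αf, haf.symm, hbf.symm, hcf.symm, hdf.symm]
  have hsq : sg a b * sg a b = (1 : (ι → F) ≃ₗ[F] (ι → F)) := by
    apply ext_e
    intro z
    exact sgm_sgm a b (e z)
  have hcs : sg a b * sg c d = (sg c d * sg a b : (ι → F) ≃ₗ[F] (ι → F)) := by
    apply ext_e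
    intro z
    simp only [LinearEquiv.mul_apply, sg_e]
    split_ifs <;> simp [sg_e, *]
  set D0 : (ι → F) ≃ₗ[F] (ι → F) := k⁻¹ * (sg a b * sg c d) * k with hD0
  have hrel : D0 * ((k⁻¹ * sg a b * k) * (k⁻¹ * α * k)) = (k⁻¹ * α * k) * (k⁻¹ * sg a b * k) := by
    calc D0 * ((k⁻¹ * sg a b * k) * (k⁻¹ * α * k)) = k⁻¹ * ((sg a b * sg c d) * sg a b * α) * k := by
          rw [hD0]; group
      _ = k⁻¹ * (sg c d * (sg a b * sg a b) * α) * k := by rw [hcs]; group
      _ = k⁻¹ * (α * sg a b) * k := by rw [hsq, hcm, mul_one]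
      _ = _ := by group
  have mD : Mon D0 := by
    have : D0 = ((k⁻¹ * α * k) * (k⁻¹ * sg a b * k)) * ((k⁻¹ * sg a b * k) * (k⁻¹ * α * k))⁻¹ := by
      rw [← hrel, mul_inv_cancel_right]
    rw [this]
    exact mon_mul (mon_mul mα md) (mon_inv h2 (mon_mul md mα))
  obtain ⟨π, hπ⟩ := mon_perm h2 mD
  obtain ⟨σ, hσ⟩ := mon_perm h2 mα
  obtain ⟨τ, hτ⟩ := mon_perm h2 md
  have hperm : π * (τ * σ) = σ * τ := by
    ext z
    have h1 := perm_mul hπ (perm_mul hτ hσ) z
    have h3 := perm_mul hσ hτ z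
    rw [hrel] at h1
    exact perm_unique h2 h1 h3
  have hsign : Equiv.Perm.sign π = 1 := by
    have := congrArg Equiv.Perm.sign hperm
    rw [map_mul, map_mul, map_mul, mul_comm (Equiv.Perm.sign σ)] at this
    exact mul_eq_right.mp this
  set p : ι → F := k⁻¹ (e f) with hp
  have hDx : ∀ x, D0 x = - x + (2 * (x ⬝ᵥ p)) • p := by
    intro x
    have h1 : ∀ y : ι → F, sg a b (sg c d y) = - y + (2 * y f) • e f := by
      intro y
      funext z
      simp only [sg_apply, Pi.add_apply, Pi.neg_apply, Pi.smul_apply, smul_eq_mul]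
      rcases hcov z with rfl | rfl | rfl | rfl | rfl
      · rw [if_pos (Or.inl rfl), if_neg (by rintro (h | h); exacts [hac h, had h]), e_ne haf]; ring
      · rw [if_pos (Or.inr rfl), if_neg (by rintro (h | h); exacts [hbc h, hbd h]), e_ne hbf]; ring
      · rw [if_neg (by rintro (h | h); exacts [hac h.symm, hbc h.symm]), if_pos (Or.inl rfl), e_ne hcf]; ring
      · rw [if_neg (by rintro (h | h); exacts [had h.symm, hbd h.symm]), if_pos (Or.inr rfl), e_ne hdf]; ring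
      · rw [if_neg (by rintro (h | h); exacts [haf h.symm, hbf h.symm]),
          if_neg (by rintro (h | h); exacts [hcf h.symm, hdf h.symm]), e_self]; ring
    show k⁻¹ (sg a b (sg c d (k x))) = _
    rw [h1, map_add, map_neg, map_smul, inv_ap, ← hp]
    have h3 := hdot (k x) (e f)
    rw [inv_ap, dot_e, ← hp] at h3
    rw [h3]
  have pp : p ⬝ᵥ p = 1 := by rw [hp, hdot, dot_e, e_self]
  obtain ⟨z, hz⟩ : ∃ z, p z ≠ 0 := by
    by_contra hcon
    push Not at hcon
    have : p = 0 := funext hcon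
    rw [this, dotProduct_zero] at pp
    exact zero_ne_one pp
  have hz1 := hDx (e z)
  rw [e_dot] at hz1
  have hp1 : (2 * p z) • p = D0 (e z) + e z := by rw [hz1]; abel
  obtain ⟨q, hq, hp2⟩ : ∃ q : F, q ≠ 0 ∧ p = q • (D0 (e z) + e z) :=
    ⟨(2 * p z)⁻¹, inv_ne_zero (mul_ne_zero h2 hz), by
      rw [← hp1, smul_smul, inv_mul_cancel₀ (mul_ne_zero h2 hz), one_smul]⟩
  by_cases hy : π z = z
  · apply fin4 D h2 hr hN hk (z := f)
    refine ⟨z, ?_⟩
    rw [← hp]
    have h3 := hπ z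
    rw [hy] at h3
    rcases h3 with h3 | h3
    · rw [h3, ← two_smul F, smul_smul] at hp2
      rw [hp2, smul_dotProduct, dotProduct_smul, dot_e, e_self, smul_eq_mul, smul_eq_mul, mul_one] at pp
      have h5 : (q * 2 - 1) * (q * 2 + 1) = 0 := by linear_combination pp
      rcases mul_eq_zero.mp h5 with h6 | h6
      · left; rw [hp2, sub_eq_zero.mp h6, one_smul]
      · right; rw [hp2, eq_neg_of_add_eq_zero_left h6, neg_smul, one_smul]
    · exfalso
      rw [h3, neg_add_cancel, smul_zero] at hp2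
      rw [hp2, dotProduct_zero] at pp
      exact zero_ne_one pp
  · exfalso
    have hp3 : ∀ u, u ≠ z → u ≠ π z → p u = 0 := by
      intro u hu hu'
      rw [hp2]
      simp only [Pi.smul_apply, Pi.add_apply, smul_eq_mul]
      rcases hπ z with h3 | h3
      · rw [h3, e_ne hu, e_ne hu', add_zero, mul_zero]
      · rw [h3, Pi.neg_apply, e_ne hu, e_ne hu', neg_zero, add_zero, mul_zero]
    have hfix : ∀ u, u ≠ z → u ≠ π z → π u = u := by
      intro u hu hu'
      have h3 := hDx (e u)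
      rw [e_dot, hp3 u hu hu', mul_zero, zero_smul, add_zero] at h3
      exact perm_unique h2 (hπ u) (Or.inr h3)
    have hswap : π = Equiv.swap z (π z) := by
      ext u
      by_cases h1 : u = z
      · rw [h1, Equiv.swap_apply_left]
      · by_cases h3 : u = π z
        · have h4 : Equiv.swap z (π z) u = z := by rw [h3]; exact Equiv.swap_apply_right z (π z)
          rw [h4]
          by_contra h5
          have h6 : π u ≠ π z := fun h => h1 (π.injective h)
          have h7 := hfix (π u) h5 h6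
          exact h6 ((π.injective h7).trans h3)
        · rw [Equiv.swap_apply_of_ne_of_ne h1 h3, hfix u h1 h3]
    rw [hswap, Equiv.Perm.sign_swap (Ne.symm hy)] at hsign
    exact absurd hsign (by decide)


lemma dot_two {a b : ι} (hab : a ≠ b) {v : ι → F} (h : ∀ z, z ≠ a → z ≠ b → v z = 0) (x : ι → F) :
    x ⬝ᵥ v = x a * v a + x b * v b := by
  have hv : v = (v a) • e a + (v b) • e b := by
    funext z
    simp only [Pi.add_apply, Pi.smul_apply, smul_eq_mul]
    by_cases h1 : z = a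
    · rw [h1, e_self, e_ne hab]; ring
    · by_cases h3 : z = b
      · rw [h3, e_self, e_ne hab.symm]; ring
      · rw [h z h1 h3, e_ne h1, e_ne h3]; ring
  conv_lhs => rw [hv]
  rw [dotProduct_add, dotProduct_smul, dotProduct_smul, dot_e, dot_e, smul_eq_mul, smul_eq_mul]
  ring

lemma gram {a1 b1 a2 b2 a3 b3 : F} (h12 : a1 * a2 + b1 * b2 = 0) (h13 : a1 * a3 + b1 * b3 = 0)
    (h23 : a2 * a3 + b2 * b3 = 0) (n1 : a1 * a1 + b1 * b1 ≠ 0) (n2 : a2 * a2 + b2 * b2 ≠ 0)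
    (n3 : a3 * a3 + b3 * b3 ≠ 0) : False := by
  have e3 : (a1 * b2 - a2 * b1) * a3 = 0 := by linear_combination b2 * h13 - b1 * h23
  have e4 : (a1 * b2 - a2 * b1) * b3 = 0 := by linear_combination a1 * h23 - a2 * h13
  have : (a1 * a1 + b1 * b1) * (a2 * a2 + b2 * b2) * (a3 * a3 + b3 * b3) = 0 := by
    linear_combination (a1 * a2 + b1 * b2) * (a3 * a3 + b3 * b3) * h12 +
      (a1 * b2 - a2 * b1) * a3 * e3 + (a1 * b2 - a2 * b1) * b3 * e4
  exact mul_ne_zero (mul_ne_zero n1 n2) n3 this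

/-- three pairwise orthogonal non isotropic vectors negated by `t` -/
lemma three (D : Dat K) (h2 : (2:F) ≠ 0) {k : (ι → F) ≃ₗ[F] (ι → F)} (hk : k ∈ K) {i j : ι} (hij : i ≠ j)
    {w1 w2 w3 : ι → F} (t1 : (k * sg i j * k⁻¹ : (ι → F) ≃ₗ[F] (ι → F)) w1 = - w1)
    (t2 : (k * sg i j * k⁻¹ : (ι → F) ≃ₗ[F] (ι → F)) w2 = - w2)
    (t3 : (k * sg i j * k⁻¹ : (ι → F) ≃ₗ[F] (ι → F)) w3 = - w3)
    (h12 : w1 ⬝ᵥ w2 = 0) (h13 : w1 ⬝ᵥ w3 = 0) (h23 : w2 ⬝ᵥ w3 = 0)
    (n1 : w1 ⬝ᵥ w1 ≠ 0) (n2 : w2 ⬝ᵥ w2 ≠ 0) (n3 : w3 ⬝ᵥ w3 ≠ 0) : False := by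
  have hki : Iso k⁻¹ := iso_inv (D.iso k hk)
  have d1 := dot_two hij (fun z hz hz' => eigm h2 t1 hz hz')
  have d2 := dot_two hij (fun z hz hz' => eigm h2 t2 hz hz')
  have d3 := dot_two hij (fun z hz hz' => eigm h2 t3 hz hz')
  rw [← hki, d2] at h12
  rw [← hki, d3] at h13
  rw [← hki, d3] at h23
  rw [← hki, d1] at n1
  rw [← hki, d2] at n2
  rw [← hki, d3] at n3
  exact gram h12 h13 h23 n1 n2 n3

/-- P4 -/
theorem t2_five (D : Dat K) (h2 : (2:F) ≠ 0) (hr : MonLe K 4) (hc : C2 K) (hN : Fintype.card ι = 5) :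
    T2' K := by
  intro k hk i j hij hmon hnd
  obtain ⟨π, hπ⟩ := mon_perm h2 hmon
  have hsx : ∀ x, ∃ s : F, (s = 1 ∨ s = -1) ∧
      (k * sg i j * k⁻¹ : (ι → F) ≃ₗ[F] (ι → F)) (e x) = s • e (π x) := by
    intro x
    rcases hπ x with h | h
    · exact ⟨1, Or.inl rfl, by rw [h, one_smul]⟩
    · exact ⟨-1, Or.inr rfl, by rw [h, neg_smul, one_smul]⟩
  choose s hs hts using hsx
  have htt : ∀ x : ι → F, (k * sg i j * k⁻¹ : (ι → F) ≃ₗ[F] (ι → F))
      ((k * sg i j * k⁻¹ : (ι → F) ≃ₗ[F] (ι → F)) x) = x := by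
    intro x
    show k (sg i j (k⁻¹ (k (sg i j (k⁻¹ x))))) = x
    rw [inv_ap]
    have : sg i j (sg i j (k⁻¹ x)) = k⁻¹ x := sgm_sgm i j _
    rw [this, ap_inv]
  have hs0 : ∀ x, s x * s x = 1 := by intro x; rcases hs x with h | h <;> rw [h] <;> ring
  have hsn : ∀ x, s x ≠ 0 := by
    intro x h; have := hs0 x; rw [h, zero_mul] at this; exact zero_ne_one this
  have hππ : ∀ x, π (π x) = x := by
    intro x
    have h1 := htt (e x)
    rw [hts, map_smul, hts, smul_smul] at h1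
    by_contra hne
    have h3 := congrFun h1 (π (π x))
    rw [Pi.smul_apply, e_self, e_ne hne, smul_eq_mul, mul_one] at h3
    exact mul_ne_zero (hsn _) (hsn _) h3
  have hss : ∀ x, s (π x) = s x := by
    intro x
    have h1 := htt (e x)
    rw [hts, map_smul, hts, smul_smul, hππ] at h1
    have h3 := congrFun h1 x
    rw [Pi.smul_apply, e_self, smul_eq_mul, mul_one] at h3
    linear_combination s x * h3 - s (π x) * hs0 x
  obtain ⟨a, ha⟩ : ∃ a, π a ≠ a := by
    by_contra hcon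
    push Not at hcon
    apply hnd
    intro x
    have := hπ x
    rwa [hcon] at this
  obtain ⟨b, hb⟩ : ∃ b, b = π a := ⟨_, rfl⟩
  have hab : a ≠ b := by rw [hb]; exact ha.symm
  have hπb : π b = a := by rw [hb, hππ]
  have hsb : s b = s a := by rw [hb, hss]
  have hta : (k * sg i j * k⁻¹ : (ι → F) ≃ₗ[F] (ι → F)) (e a) = s a • e b := by rw [hts, hb]
  have htb : (k * sg i j * k⁻¹ : (ι → F) ≃ₗ[F] (ι → F)) (e b) = s a • e a := by rw [hts, hπb, hsb]
  by_cases hcc : ∃ c, c ≠ a ∧ c ≠ b ∧ π c ≠ c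
  · obtain ⟨c, hca, hcb, hπc⟩ := hcc
    obtain ⟨d, hd⟩ : ∃ d, d = π c := ⟨_, rfl⟩
    have hcd : c ≠ d := by rw [hd]; exact hπc.symm
    have hπd : π d = c := by rw [hd, hππ]
    have hsd : s d = s c := by rw [hd, hss]
    have hda : d ≠ a := by
      intro h; apply hcb; rw [hb, ← h, hπd]
    have hdb : d ≠ b := by
      intro h; apply hca; rw [← hπb, ← h, hπd]
    obtain ⟨f, hf, hfc⟩ := fifth hN hab hca.symm hda.symm hcb.symm hdb.symm hcd
    have hπf : π f = f := by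
      rcases hfc (π f) with h | h | h | h | h
      · exact absurd (by rw [hb, ← h, hππ]) hf.2.1
      · exact absurd (by rw [← hπb, ← h, hππ]) hf.1
      · exact absurd (by rw [hd, ← h, hππ]) hf.2.2.2
      · exact absurd (by rw [← hπd, ← h, hππ]) hf.2.2.1
      · exact h
    exact caseC D h2 hr hc hN hk hij hab hca.symm hda.symm hf.1.symm hcb.symm hdb.symm hf.2.1.symm hcd
      hf.2.2.1.symm hf.2.2.2.symm hfc (hs a) (hs c) hta htb (by rw [hts, hd]) (by rw [hts, hπd, hsd])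
      (by rw [hts, hπf])
  · push Not at hcc
    -- the three remaining elements
    obtain ⟨c, d, f, hcd, hcf, hdf, hca, hcb, hda, hdb, hfa, hfb, hcov⟩ : ∃ c d f : ι, c ≠ d ∧ c ≠ f ∧ d ≠ f ∧
        c ≠ a ∧ c ≠ b ∧ d ≠ a ∧ d ≠ b ∧ f ≠ a ∧ f ≠ b ∧ ∀ z, z = a ∨ z = b ∨ z = c ∨ z = d ∨ z = f := by
      have h3 : (({a, b} : Finset ι)ᶜ).card = 3 := by
        rw [Finset.card_compl, hN, Finset.card_pair hab]
      obtain ⟨c, d, f, hcd, hcf, hdf, hset⟩ := Finset.card_eq_three.mp h3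
      have hm : ∀ z, z ∈ ({a, b} : Finset ι)ᶜ ↔ z = c ∨ z = d ∨ z = f := by
        intro z; rw [hset]; simp
      have hm' : ∀ z, (z ≠ a ∧ z ≠ b) ↔ z = c ∨ z = d ∨ z = f := by
        intro z; rw [← hm]; simp
      have h1 := (hm' c).mpr (Or.inl rfl)
      have h4 := (hm' d).mpr (Or.inr (Or.inl rfl))
      have h5 := (hm' f).mpr (Or.inr (Or.inr rfl))
      refine ⟨c, d, f, hcd, hcf, hdf, h1.1, h1.2, h4.1, h4.2, h5.1, h5.2, ?_⟩
      intro z
      by_cases hza : z = a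
      · exact Or.inl hza
      · by_cases hzb : z = b
        · exact Or.inr (Or.inl hzb)
        · exact Or.inr (Or.inr ((hm' z).mp ⟨hza, hzb⟩))
    have htc : (k * sg i j * k⁻¹ : (ι → F) ≃ₗ[F] (ι → F)) (e c) = s c • e c := by rw [hts, hcc c hca hcb]
    have htd : (k * sg i j * k⁻¹ : (ι → F) ≃ₗ[F] (ι → F)) (e d) = s d • e d := by rw [hts, hcc d hda hdb]
    have htf : (k * sg i j * k⁻¹ : (ι → F) ≃ₗ[F] (ι → F)) (e f) = s f • e f := by rw [hts, hcc f hfa hfb]
    have t1 : (k * sg i j * k⁻¹ : (ι → F) ≃ₗ[F] (ι → F)) (e a - s a • e b) = - (e a - s a • e b) := by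
      rw [map_sub, map_smul, hta, htb, smul_smul, hs0, one_smul, neg_sub]
    have t1' : (k * sg i j * k⁻¹ : (ι → F) ≃ₗ[F] (ι → F)) (e a + s a • e b) = e a + s a • e b := by
      rw [map_add, map_smul, hta, htb, smul_smul, hs0, one_smul, add_comm]
    have dot0 : ∀ z, z ≠ a → z ≠ b → (e a - s a • e b : ι → F) ⬝ᵥ e z = 0 := by
      intro z h1 h3
      rw [dot_e, Pi.sub_apply, Pi.smul_apply, e_ne h1, e_ne h3, smul_zero, sub_zero]
    have n1 : (e a - s a • e b : ι → F) ⬝ᵥ (e a - s a • e b) ≠ 0 := by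
      have : (e a - s a • e b : ι → F) ⬝ᵥ (e a - s a • e b) = 2 := by
        rw [dotProduct_sub, dotProduct_smul, dot_e, dot_e]
        simp only [Pi.sub_apply, Pi.smul_apply, smul_eq_mul, e_self, e_ne hab, e_ne hab.symm]
        linear_combination hs0 a
      rw [this]; exact h2
    have ne : ∀ z, (e z : ι → F) ⬝ᵥ e z ≠ 0 := by intro z; rw [dot_e, e_self]; exact one_ne_zero
    have two : ∀ x y, x ≠ y → x ≠ a → x ≠ b → y ≠ a → y ≠ b → s x = -1 → s y = -1 → False := by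
      intro x y hxy hxa hxb hya hyb h1 h3
      refine three D h2 hk hij t1 (w2 := e x) (w3 := e y) ?_ ?_ (dot0 x hxa hxb) (dot0 y hya hyb)
        (by rw [dot_e, e_ne hxy.symm]) n1 (ne x) (ne y)
      · rw [hts, hcc x hxa hxb, h1, neg_smul, one_smul]
      · rw [hts, hcc y hya hyb, h3, neg_smul, one_smul]
    have B : ∀ c d f : ι, c ≠ d → c ≠ f → d ≠ f → c ≠ a → c ≠ b → d ≠ a → d ≠ b → f ≠ a → f ≠ b →
        (∀ z, z = a ∨ z = b ∨ z = c ∨ z = d ∨ z = f) → s c = -1 → s d = 1 → s f = 1 → Mon k := by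
      intro c d f hcd hcf hdf hca hcb hda hdb hfa hfb hcov h1 h3 h4
      exact caseB D h2 hr hc hN hk hij hab hca.symm hda.symm hfa.symm hcb.symm hdb.symm hfb.symm hcd hcf hdf
        hcov (hs a) hta htb (by rw [hts, hcc c hca hcb, h1, neg_smul, one_smul])
        (by rw [hts, hcc d hda hdb, h3, one_smul]) (by rw [hts, hcc f hfa hfb, h4, one_smul])
    rcases hs c with h1 | h1 <;> rcases hs d with h3 | h3 <;> rcases hs f with h4 | h4
    · -- all positive
      exfalso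
      have hki : Iso k⁻¹ := iso_inv (D.iso k hk)
      have z0 : ∀ x, x = i ∨ x = j → ∀ y, (k * sg i j * k⁻¹ : (ι → F) ≃ₗ[F] (ι → F)) y = y →
          k (e x) ⬝ᵥ y = 0 := by
        intro x hx y hy
        rw [← hki, inv_ap, e_dot]
        exact eigp h2 hy hx
      have pc : (k * sg i j * k⁻¹ : (ι → F) ≃ₗ[F] (ι → F)) (e c) = e c := by rw [htc, h1, one_smul]
      have pd : (k * sg i j * k⁻¹ : (ι → F) ≃ₗ[F] (ι → F)) (e d) = e d := by rw [htd, h3, one_smul]
      have pf : (k * sg i j * k⁻¹ : (ι → F) ≃ₗ[F] (ι → F)) (e f) = e f := by rw [htf, h4, one_smul]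
      have zz : ∀ x, x = i ∨ x = j → ∀ z, z ≠ a → z ≠ b → (k (e x)) z = 0 := by
        intro x hx z hza hzb
        rw [← dot_e (k (e x)) z]
        rcases hcov z with h | h | h | h | h
        · exact absurd h hza
        · exact absurd h hzb
        · rw [h]; exact z0 x hx _ pc
        · rw [h]; exact z0 x hx _ pd
        · rw [h]; exact z0 x hx _ pf
      have zw : ∀ x, x = i ∨ x = j → (k (e x)) a + s a * (k (e x)) b = 0 := by
        intro x hx
        have := z0 x hx _ t1'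
        rwa [dotProduct_add, dotProduct_smul, dot_e, dot_e, smul_eq_mul] at this
      have hk' : Iso k := D.iso k hk
      have uu : ∀ x, k (e x) ⬝ᵥ k (e x) = 1 := by intro x; rw [hk', dot_e, e_self]
      have uv : k (e i) ⬝ᵥ k (e j) = 0 := by rw [hk', dot_e, e_ne hij.symm]
      rw [dot_two hab (zz j (Or.inr rfl))] at uv
      have ui := uu i
      rw [dot_two hab (zz i (Or.inl rfl))] at ui
      have uj := uu j
      rw [dot_two hab (zz j (Or.inr rfl))] at uj
      have wi := eq_neg_of_add_eq_zero_left (zw i (Or.inl rfl))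
      have wj := eq_neg_of_add_eq_zero_left (zw j (Or.inr rfl))
      rw [wi, wj] at uv
      rw [wi] at ui
      rw [wj] at uj
      have h5 : (2 : F) * (k (e i) b * k (e j) b) = 0 := by
        linear_combination uv - k (e i) b * k (e j) b * hs0 a
      rcases mul_eq_zero.mp h5 with h6 | h6
      · exact h2 h6
      rcases mul_eq_zero.mp h6 with h7 | h7
      · rw [h7] at ui; simp at ui
      · rw [h7] at uj; simp at uj
    · exact B f c d hcf.symm hdf.symm hcd hfa hfb hca hcb hda hdb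
        (fun z => by rcases hcov z with h | h | h | h | h <;> simp [h]) h4 h1 h3
    · exact B d c f hcd.symm hdf hcf hda hdb hca hcb hfa hfb
        (fun z => by rcases hcov z with h | h | h | h | h <;> simp [h]) h3 h1 h4
    · exact (two d f hdf hda hdb hfa hfb h3 h4).elim
    · exact B c d f hcd hcf hdf hca hcb hda hdb hfa hfb hcov h1 h3 h4
    · exact (two c f hcf hca hcb hfa hfb h1 h4).elim
    · exact (two c d hcd hca hcb hda hdb h1 h3).elim
    · exact (two c d hcd hca hcb hda hdb h1 h3).elim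

end H9.FrP4
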