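import Cfsg.Agent.Lib.H9.Frame
import Cfsg.Agent.Lib.H9.M22

set_option autoImplicit false

/-! Self-duality of the Golay code in terms of octads, and a version relative to two points. -/

namespace H9.GolayDual

open Cfsg Finset H8.GolayCode H8.GolayCount H8.GolayBasic

theorem check' : ∀ a < 64, ∀ b < 64, 64 * a + b = 0 ∨
    (basisL.any fun c => Nat.beq (pop ((4096 * (64 * a + b)) &&& c) % 2) 1) = true := by
  decide +kernel

theorem check (u : ℕ) (hu : u < 4096) : u = 0 ∨
    (basisL.any fun b => Nat.beq (pop ((4096 * u) &&& b) % 2) 1) = true := by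
  have := check' (u / 64) (by omega) (u % 64) (by omega)
  rwa [Nat.div_add_mod] at this

theorem supp_and (m b : ℕ) : support₂ (wd m) ∩ support₂ (wd b) = support₂ (wd (m &&& b)) := by
  ext p
  rw [mem_inter, mem_support_wd, mem_support_wd, mem_support_wd, Nat.testBit_and, Bool.and_eq_true]

theorem even_inter_symmDiff {s t u : Finset GolayPt} (hs : Even (s ∩ u).card) (ht : Even (t ∩ u).card) :
    Even (symmDiff s t ∩ u).card := by
  have h1 : symmDiff s t ∩ u = symmDiff (s ∩ u) (t ∩ u) := by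
    ext x; simp only [mem_inter, mem_symmDiff]; tauto
  rw [h1]
  have := card_symmDiff (s ∩ u) (t ∩ u)
  rw [Nat.even_iff] at hs ht ⊢
  omega

theorem supp_xor (m n : ℕ) : support₂ (wd (m ^^^ n)) = symmDiff (support₂ (wd m)) (support₂ (wd n)) := by
  ext p
  rw [mem_symmDiff, mem_support_wd, mem_support_wd, mem_support_wd, Nat.testBit_xor]
  cases m.testBit (idx p) <;> cases n.testBit (idx p) <;> simp

theorem dual' {T : Finset GolayPt} (h : ∀ s ∈ GS, Even (T ∩ s).card) : T ∈ GS := by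
  obtain ⟨n, hn, rfl⟩ : ∃ n < 2 ^ 24, support₂ (wd n) = T := by
    refine ⟨mk (ofSupp T), mk_lt _, ?_⟩
    rw [wd_mk, support_ofSupp]
  have hc : support₂ (wd (cw (n % 4096))) ∈ GS := ⟨_, wd_cw_mem _, rfl⟩
  have hm : ∀ s ∈ GS, Even (support₂ (wd (n ^^^ cw (n % 4096))) ∩ s).card := by
    intro s hs
    rw [supp_xor]
    exact even_inter_symmDiff (h s hs) (inter_even hc hs)
  have hlow : (n ^^^ cw (n % 4096)) % 4096 = 0 := by
    apply Nat.eq_of_testBit_eq
    intro i
    rw [Nat.zero_testBit, show (4096 : ℕ) = 2 ^ 12 by norm_num, Nat.testBit_mod_two_pow]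
    by_cases hi : i < 12
    · rw [Nat.testBit_xor, cw_testBit_low _ _ hi, Nat.testBit_mod_two_pow]
      simp [hi]
    · simp [hi]
  have hlt : n ^^^ cw (n % 4096) < 2 ^ 24 := Nat.xor_lt_two_pow hn (cw_lt _)
  obtain ⟨u, hu⟩ : ∃ u, n ^^^ cw (n % 4096) = 4096 * u := ⟨_, (Nat.mul_div_cancel' (Nat.dvd_of_mod_eq_zero hlow)).symm⟩
  rw [hu] at hm hlt
  rcases check u (by omega) with h0 | h0
  · rw [h0, mul_zero] at hu
    have : n = cw (n % 4096) := by
      have h1 : (n ^^^ cw (n % 4096)) ^^^ cw (n % 4096) = 0 ^^^ cw (n % 4096) := by rw [hu]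
      rw [Nat.xor_assoc, Nat.xor_self, Nat.xor_zero, Nat.zero_xor] at h1
      exact h1
    rw [this]
    exact ⟨_, wd_cw_mem _, rfl⟩
  · exfalso
    rw [List.any_eq_true] at h0
    obtain ⟨b, hb, hb1⟩ := h0
    have hb2 := Nat.eq_of_beq_eq_true hb1
    have hbm : support₂ (wd b) ∈ GS := by
      refine ⟨_, ?_, rfl⟩
      simp only [basisL, List.mem_cons, List.not_mem_nil, or_false] at hb
      rcases hb with rfl | rfl | rfl | rfl | rfl | rfl | rfl | rfl | rfl | rfl | rfl | rfl
      · exact basis_mem_0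
      · exact basis_mem_1
      · exact basis_mem_2
      · exact basis_mem_3
      · exact basis_mem_4
      · exact basis_mem_5
      · exact basis_mem_6
      · exact basis_mem_7
      · exact basis_mem_8
      · exact basis_mem_9
      · exact basis_mem_10
      · exact basis_mem_11
    have h1 := hm _ hbm
    have hlt2 : 4096 * u &&& b < 2 ^ 24 := lt_of_le_of_lt Nat.and_le_left hlt
    rw [supp_and, card_support_wd hlt2, Nat.even_iff] at h1
    omega

/-- a set meeting all octads evenly is in the code -/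
theorem dual {T : Finset GolayPt} (h : ∀ s ∈ octads, Even (T ∩ s).card) : T ∈ GS := by
  apply dual'
  intro s hs
  refine H9.Frame.gen (P := fun s => Even (T ∩ s).card) (by simp) ?_ h hs
  intro s t hs ht
  rw [inter_comm] at hs ht ⊢
  exact even_inter_symmDiff hs ht

/-- octads through five points -/
theorem exists_octad (a b c d e : GolayPt) (h : [a, b, c, d, e].Nodup) :
    ∃ O ∈ octads, a ∈ O ∧ b ∈ O ∧ c ∈ O ∧ d ∈ O ∧ e ∈ O := by
  have h5 : ({a, b, c, d, e} : Finset GolayPt).card = 5 := by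
    have : ({a, b, c, d, e} : Finset GolayPt) = [a, b, c, d, e].toFinset := by simp
    rw [this, List.toFinset_card_of_nodup h]; rfl
  obtain ⟨O, ⟨hO, hs⟩, _⟩ := octads_steiner.2 _ h5
  exact ⟨O, hO, hs (by simp), hs (by simp), hs (by simp), hs (by simp), hs (by simp)⟩

theorem symmDiff_octad {O O' : Finset GolayPt} (hO : O ∈ octads) (hO' : O' ∈ octads) (h4 : (O ∩ O').card = 4) :
    symmDiff O O' ∈ octads := by
  refine ⟨symmDiff_mem hO.1 hO'.1, ?_⟩
  have := card_symmDiff O O'
  have h1 : O.card = 8 := hO.2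
  have h2 : O'.card = 8 := hO'.2
  omega

theorem inter_four {O O' : Finset GolayPt} (hO : O ∈ octads) (hO' : O' ∈ octads) (hne : O ≠ O')
    {a b c : GolayPt} (hab : a ≠ b) (hac : a ≠ c) (hbc : b ≠ c) (h : ∀ x, x = a ∨ x = b ∨ x = c → x ∈ O ∧ x ∈ O') :
    (O ∩ O').card = 4 := by
  apply H9.Steiner24.inter_card_four H8.GolayCode.card_pt octads_steiner hO hO' hne
  have h3 : ({a, b, c} : Finset GolayPt) ⊆ O ∩ O' := by
    intro x hx
    simp only [mem_insert, mem_singleton] at hx
    exact mem_inter.mpr (h x hx)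
  have := card_le_card h3
  rw [card_insert_of_notMem (by simp [hab, hac]), card_pair hbc] at this
  omega

theorem exists_mem_not_mem {S U : Finset GolayPt} (h : U.card < S.card) : ∃ x ∈ S, x ∉ U := by
  by_contra hcon
  push Not at hcon
  exact absurd (card_le_card (show S ⊆ U from hcon)) (by omega)

section
variable {p q : GolayPt} (hpq : p ≠ q) {T : Finset GolayPt}
  (hT : ∀ O ∈ octads, p ∈ O → q ∈ O → Even (T ∩ O).card)
include hpq hT

/-- octads avoiding both points -/
theorem even_avoid {O : Finset GolayPt} (hO : O ∈ octads) (hp : p ∉ O) (hq : q ∉ O) : Even (T ∩ O).card := by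
  obtain ⟨x, hx1, hx2⟩ := H8.M24Trans.exists_enum O hO.2
  have hxm : ∀ i, x i ∈ O := fun i => (hx2 _).mpr ⟨i, rfl⟩
  have h01 : x 0 ≠ x 1 := fun h => by simpa using hx1 h
  have h02 : x 0 ≠ x 2 := fun h => by simpa using hx1 h
  have h12 : x 1 ≠ x 2 := fun h => by simpa using hx1 h
  have hxp : ∀ i, x i ≠ p := fun i h => hp (h ▸ hxm i)
  have hxq : ∀ i, x i ≠ q := fun i h => hq (h ▸ hxm i)
  obtain ⟨O1, hO1, m0, m1, m2, mp, mq⟩ := exists_octad (x 0) (x 1) (x 2) p q
    (by simp [h01, h02, h12, hxp, hxq, hpq])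
  have hne : O1 ≠ O := fun h => hp (h ▸ mp)
  have h4 := inter_four hO1 hO hne h01 h02 h12 (by
    rintro y (rfl | rfl | rfl)
    · exact ⟨m0, hxm _⟩
    · exact ⟨m1, hxm _⟩
    · exact ⟨m2, hxm _⟩)
  have h5 := symmDiff_octad hO1 hO h4
  have e1 := hT O1 hO1 mp mq
  have e2 := hT _ h5 (mem_symmDiff.mpr (Or.inl ⟨mp, hp⟩)) (mem_symmDiff.mpr (Or.inl ⟨mq, hq⟩))
  have h6 : symmDiff O1 (symmDiff O1 O) = O := by
    rw [← symmDiff_assoc, symmDiff_self, bot_symmDiff]
  rw [← h6, inter_comm]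
  rw [inter_comm] at e1 e2
  exact even_inter_symmDiff e1 e2

/-- parity is constant along octads meeting in four points -/
theorem parity_four {O O' : Finset GolayPt} (hO : O ∈ octads) (hO' : O' ∈ octads) (h4 : (O ∩ O').card = 4)
    (h1 : (p ∈ O ∧ q ∉ O) ∨ (q ∈ O ∧ p ∉ O)) (h2 : (p ∈ O' ∧ q ∉ O') ∨ (q ∈ O' ∧ p ∉ O')) :
    Even (T ∩ O).card ↔ Even (T ∩ O').card := by
  have h5 := symmDiff_octad hO hO' h4
  have h6 : Even (T ∩ symmDiff O O').card := by
    rcases h1 with h1 | h1 <;> rcases h2 with h2 | h2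
    · exact even_avoid hpq hT h5 (by rw [mem_symmDiff]; tauto) (by rw [mem_symmDiff]; tauto)
    · exact hT _ h5 (by rw [mem_symmDiff]; tauto) (by rw [mem_symmDiff]; tauto)
    · exact hT _ h5 (by rw [mem_symmDiff]; tauto) (by rw [mem_symmDiff]; tauto)
    · exact even_avoid hpq hT h5 (by rw [mem_symmDiff]; tauto) (by rw [mem_symmDiff]; tauto)
  constructor
  · intro h
    have h7 : symmDiff O (symmDiff O O') = O' := by
      rw [← symmDiff_assoc, symmDiff_self, bot_symmDiff]
    rw [← h7, inter_comm]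
    rw [inter_comm] at h h6
    exact even_inter_symmDiff h h6
  · intro h
    have h7 : symmDiff (symmDiff O O') O' = O := by
      rw [symmDiff_assoc, symmDiff_self, symmDiff_bot]
    rw [← h7, inter_comm]
    rw [inter_comm] at h h6
    exact even_inter_symmDiff h6 h

theorem parity_pp {O O' : Finset GolayPt} (hO : O ∈ octads) (hO' : O' ∈ octads)
    (h1 : p ∈ O ∧ q ∉ O) (h2 : p ∈ O' ∧ q ∉ O') : Even (T ∩ O).card ↔ Even (T ∩ O').card := by
  by_cases hOO : O = O'
  · rw [hOO]
  by_cases h4 : (O ∩ O').card = 4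
  · exact parity_four hpq hT hO hO' h4 (Or.inl h1) (Or.inl h2)
  -- meet in two points
  have hin : (O ∩ O').card ≤ 2 := by
    by_contra hcon
    exact h4 (H9.Steiner24.inter_card_four H8.GolayCode.card_pt octads_steiner hO hO' hOO (by omega))
  have hpin : p ∈ O ∩ O' := mem_inter.mpr ⟨h1.1, h2.1⟩
  have hOc : O.card = 8 := hO.2
  have hOc' : O'.card = 8 := hO'.2
  -- two points of `O \ O'`
  obtain ⟨a, haO, ha⟩ := exists_mem_not_mem (S := O) (U := O ∩ O') (by omega)
  obtain ⟨b, hbO, hb⟩ := exists_mem_not_mem (S := O) (U := insert a (O ∩ O')) (by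
    have := card_insert_le a (O ∩ O'); omega)
  obtain ⟨c, hcO, hc⟩ := exists_mem_not_mem (S := O') (U := O ∩ O') (by omega)
  have haO' : a ∉ O' := fun h => ha (mem_inter.mpr ⟨haO, h⟩)
  have hbO' : b ∉ O' := fun h => hb (mem_insert_of_mem (mem_inter.mpr ⟨hbO, h⟩))
  have hcO' : c ∉ O := fun h => hc (mem_inter.mpr ⟨h, hcO⟩)
  have hab : b ≠ a := fun h => hb (h ▸ mem_insert_self _ _)
  have hpa : p ≠ a := fun h => haO' (h ▸ h2.1)
  have hpb : p ≠ b := fun h => hbO' (h ▸ h2.1)
  have hpc : p ≠ c := fun h => hcO' (h ▸ h1.1)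
  have hac : a ≠ c := fun h => haO' (h ▸ hcO)
  have hbc : b ≠ c := fun h => hbO' (h ▸ hcO)
  have hqa : q ≠ a := fun h => h1.2 (h ▸ haO)
  have hqb : q ≠ b := fun h => h1.2 (h ▸ hbO)
  have hqc : q ≠ c := fun h => h2.2 (h ▸ hcO)
  obtain ⟨Q, hQ, qp, qa, qb, qc, qq⟩ := exists_octad p a b c q
    (by simp [hpa, hpb, hpc, hab.symm, hac, hbc, hpq, hqa.symm, hqb.symm, hqc.symm])
  have hQO' : Q ≠ O' := fun h => h2.2 (h ▸ qq)
  have hQc : (Q ∩ O').card ≤ 4 := by
    by_contra hcon
    exact hQO' (H9.Steiner24.eq_of_card_inter octads_steiner hQ hO' (by omega))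
  obtain ⟨d, hdO, hd⟩ := exists_mem_not_mem (S := O') (U := (Q ∩ O') ∪ (O ∩ O')) (by
    have := card_union_le (Q ∩ O') (O ∩ O'); omega)
  rw [mem_union, not_or] at hd
  have hdQ : d ∉ Q := fun h => hd.1 (mem_inter.mpr ⟨h, hdO⟩)
  have hdO' : d ∉ O := fun h => hd.2 (mem_inter.mpr ⟨h, hdO⟩)
  have hpd : p ≠ d := fun h => hdQ (h ▸ qp)
  have had : a ≠ d := fun h => hdQ (h ▸ qa)
  have hbd : b ≠ d := fun h => hdQ (h ▸ qb)
  have hcd : c ≠ d := fun h => hdQ (h ▸ qc)
  obtain ⟨O2, hO2, sp, sa, sb, sc, sd⟩ := exists_octad p a b c d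
    (by simp [hpa, hpb, hpc, hab.symm, hac, hbc, hpd, had, hbd, hcd])
  have hqO2 : q ∉ O2 := by
    intro h
    have : O2 = Q := by
      apply octad_unique hO2 hQ (u := {p, a, b, c, q})
      · have : ({p, a, b, c, q} : Finset GolayPt) = [p, a, b, c, q].toFinset := by simp
        rw [this, List.toFinset_card_of_nodup]
        · rfl
        · simp [hpa, hpb, hpc, hab.symm, hac, hbc, hpq, hqa.symm, hqb.symm, hqc.symm]
      · intro x hx
        simp only [mem_insert, mem_singleton] at hx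
        rcases hx with rfl | rfl | rfl | rfl | rfl <;> assumption
      · intro x hx
        simp only [mem_insert, mem_singleton] at hx
        rcases hx with rfl | rfl | rfl | rfl | rfl <;> assumption
    exact hdQ (this ▸ sd)
  have e1 := parity_four hpq hT hO hO2 (inter_four hO hO2 (fun h => hdO' (h ▸ sd)) hpa hpb hab.symm (by
    rintro y (rfl | rfl | rfl)
    · exact ⟨h1.1, sp⟩
    · exact ⟨haO, sa⟩
    · exact ⟨hbO, sb⟩)) (Or.inl h1) (Or.inl ⟨sp, hqO2⟩)
  have e2 := parity_four hpq hT hO2 hO' (inter_four hO2 hO' (fun h => haO' (h ▸ sa)) hpc hpd hcd (by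
    rintro y (rfl | rfl | rfl)
    · exact ⟨sp, h2.1⟩
    · exact ⟨sc, hcO⟩
    · exact ⟨sd, hdO⟩)) (Or.inl ⟨sp, hqO2⟩) (Or.inl h2)
  exact e1.trans e2

end

theorem parity_all {p q : GolayPt} (hpq : p ≠ q) {T : Finset GolayPt}
    (hT : ∀ O ∈ octads, p ∈ O → q ∈ O → Even (T ∩ O).card) {O O' : Finset GolayPt} (hO : O ∈ octads)
    (hO' : O' ∈ octads) (h1 : (p ∈ O ∧ q ∉ O) ∨ (q ∈ O ∧ p ∉ O)) (h2 : (p ∈ O' ∧ q ∉ O') ∨ (q ∈ O' ∧ p ∉ O')) :
    Even (T ∩ O).card ↔ Even (T ∩ O').card := by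
  have hT' : ∀ O ∈ octads, q ∈ O → p ∈ O → Even (T ∩ O).card := fun O hO h1 h2 => hT O hO h2 h1
  -- mixed case
  have hmix : ∀ O O' : Finset GolayPt, O ∈ octads → O' ∈ octads → (p ∈ O ∧ q ∉ O) → (q ∈ O' ∧ p ∉ O') →
      (Even (T ∩ O).card ↔ Even (T ∩ O').card) := by
    intro O O' hO hO' h1 h2
    have hOc : O.card = 8 := hO.2
    obtain ⟨a, haO, ha⟩ := exists_mem_not_mem (S := O) (U := {p}) (by simp [hOc])
    obtain ⟨b, hbO, hb⟩ := exists_mem_not_mem (S := O) (U := {a, p}) (by
      have := card_le_two (a := a) (b := p); omega)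
    obtain ⟨c, hcO, hc⟩ := exists_mem_not_mem (S := O) (U := {b, a, p}) (by
      have := card_le_three (a := b) (b := a) (c := p); omega)
    simp only [mem_insert, mem_singleton, not_or] at ha hb hc
    have hqa : q ≠ a := fun h => h1.2 (h ▸ haO)
    have hqb : q ≠ b := fun h => h1.2 (h ▸ hbO)
    have hqc : q ≠ c := fun h => h1.2 (h ▸ hcO)
    obtain ⟨Q, hQ, qp, qa, qb, qc, qq⟩ := exists_octad p a b c q
      (by simp [Ne.symm ha, Ne.symm hb.1, Ne.symm hb.2, Ne.symm hc.1, Ne.symm hc.2.1, Ne.symm hc.2.2, hpq, hqa.symm,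
        hqb.symm, hqc.symm])
    have hQc : Q.card = 8 := hQ.2
    obtain ⟨d, _, hd⟩ := exists_mem_not_mem (S := univ) (U := Q ∪ O) (by
      have := card_union_le Q O
      rw [card_univ, H8.GolayCode.card_pt]; omega)
    rw [mem_union, not_or] at hd
    have had : a ≠ d := fun h => hd.2 (h ▸ haO)
    have hbd : b ≠ d := fun h => hd.2 (h ▸ hbO)
    have hcd : c ≠ d := fun h => hd.2 (h ▸ hcO)
    have hqd : q ≠ d := fun h => hd.1 (h ▸ qq)
    obtain ⟨O2, hO2, sq, sa, sb, sc, sd⟩ := exists_octad q a b c d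
      (by simp [hqa, hqb, hqc, hqd, Ne.symm hb.1, Ne.symm hc.1, Ne.symm hc.2.1, had, hbd, hcd])
    have hpO2 : p ∉ O2 := by
      intro h
      have : O2 = Q := by
        apply octad_unique hO2 hQ (u := {p, a, b, c, q})
        · have : ({p, a, b, c, q} : Finset GolayPt) = [p, a, b, c, q].toFinset := by simp
          rw [this, List.toFinset_card_of_nodup]
          · rfl
          · simp [Ne.symm ha, Ne.symm hb.1, Ne.symm hb.2, Ne.symm hc.1, Ne.symm hc.2.1, Ne.symm hc.2.2, hpq,
              hqa.symm, hqb.symm, hqc.symm]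
        · intro x hx
          simp only [mem_insert, mem_singleton] at hx
          rcases hx with rfl | rfl | rfl | rfl | rfl <;> assumption
        · intro x hx
          simp only [mem_insert, mem_singleton] at hx
          rcases hx with rfl | rfl | rfl | rfl | rfl <;> assumption
      exact hd.1 (this ▸ sd)
    have e1 := parity_four hpq hT hO hO2 (inter_four hO hO2 (fun h => hd.2 (h ▸ sd)) (Ne.symm hb.1)
      (Ne.symm hc.2.1) (Ne.symm hc.1) (by
      rintro y (rfl | rfl | rfl)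
      · exact ⟨haO, sa⟩
      · exact ⟨hbO, sb⟩
      · exact ⟨hcO, sc⟩)) (Or.inl h1) (Or.inr ⟨sq, hpO2⟩)
    have e2 := parity_pp hpq.symm hT' hO2 hO' ⟨sq, hpO2⟩ h2
    exact e1.trans e2
  rcases h1 with h1 | h1 <;> rcases h2 with h2 | h2
  · exact parity_pp hpq hT hO hO' h1 h2
  · exact hmix O O' hO hO' h1 h2
  · exact (hmix O' O hO' hO h2 h1).symm
  · exact parity_pp hpq.symm hT' hO hO' h1 h2

/-- a set meeting evenly all octads through `p` and `q` is in the code up to `{p, q}` -/
theorem dual_two {p q : GolayPt} (hpq : p ≠ q) {T : Finset GolayPt}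
    (hT : ∀ O ∈ octads, p ∈ O → q ∈ O → Even (T ∩ O).card) : T ∈ GS ∨ symmDiff T {p, q} ∈ GS := by
  by_cases hall : ∀ O ∈ octads, Even (T ∩ O).card
  · exact Or.inl (dual hall)
  · right
    push Not at hall
    obtain ⟨O0, hO0, hodd⟩ := hall
    have h0 : (p ∈ O0 ∧ q ∉ O0) ∨ (q ∈ O0 ∧ p ∉ O0) := by
      by_cases h1 : p ∈ O0 <;> by_cases h2 : q ∈ O0
      · exact absurd (hT O0 hO0 h1 h2) hodd
      · exact Or.inl ⟨h1, h2⟩
      · exact Or.inr ⟨h2, h1⟩
      · exact absurd (even_avoid hpq hT hO0 h1 h2) hodd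
    apply dual
    intro O hO
    have h1 : symmDiff T {p, q} ∩ O = symmDiff (T ∩ O) ({p, q} ∩ O) := by
      ext x; simp only [mem_inter, mem_symmDiff]; tauto
    have h2 := card_symmDiff (T ∩ O) ({p, q} ∩ O)
    rw [h1, Nat.even_iff]
    by_cases hp : p ∈ O <;> by_cases hq : q ∈ O
    · have h3 : ({p, q} ∩ O : Finset GolayPt).card = 2 := by
        have : ({p, q} ∩ O : Finset GolayPt) = {p, q} := by
          ext x; simp only [mem_inter, mem_insert, mem_singleton]
          constructor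
          · tauto
          · rintro (rfl | rfl) <;> simp [hp, hq]
        rw [this, card_pair hpq]
      have h4 := hT O hO hp hq
      rw [Nat.even_iff] at h4
      omega
    · have h3 : ({p, q} ∩ O : Finset GolayPt).card = 1 := by
        have : ({p, q} ∩ O : Finset GolayPt) = {p} := by
          ext x; simp only [mem_inter, mem_insert, mem_singleton]
          constructor
          · rintro ⟨rfl | rfl, h⟩
            · rfl
            · exact absurd h hq
          · rintro rfl; simp [hp]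
        rw [this, card_singleton]
      have h4 := (parity_all hpq hT hO hO0 (Or.inl ⟨hp, hq⟩) h0).not.mpr hodd
      rw [Nat.even_iff] at h4
      omega
    · have h3 : ({p, q} ∩ O : Finset GolayPt).card = 1 := by
        have : ({p, q} ∩ O : Finset GolayPt) = {q} := by
          ext x; simp only [mem_inter, mem_insert, mem_singleton]
          constructor
          · rintro ⟨rfl | rfl, h⟩
            · exact absurd h hp
            · rfl
          · rintro rfl; simp [hq]
        rw [this, card_singleton]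
      have h4 := (parity_all hpq hT hO hO0 (Or.inr ⟨hq, hp⟩) h0).not.mpr hodd
      rw [Nat.even_iff] at h4
      omega
    · have h3 : ({p, q} ∩ O : Finset GolayPt).card = 0 := by
        rw [card_eq_zero]
        ext x; simp only [mem_inter, mem_insert, mem_singleton, notMem_empty, iff_false, not_and]
        rintro (rfl | rfl) <;> assumption
      have h4 := even_avoid hpq hT hO hp hq
      rw [Nat.even_iff] at h4
      omega

end H9.GolayDual
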