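import Cfsg.Agent.Lib.H9.GolayCover

set_option autoImplicit false

/-! The punctured Golay code. -/

namespace H9.GolayPunct

open Cfsg Finset H8.GolayCode H8.GolayCount H8.GolayBasic H9.GolayCover

/-- restriction -/
def res (w : GolayPt → ZMod 2) : ZMod 23 → ZMod 2 := fun x => w (some x)

/-- the punctured code -/
def PC : Set (ZMod 23 → ZMod 2) := {u | ∃ w ∈ golayCode, ∀ x : ZMod 23, u x = w (some x)}

theorem PC_eq : PC = res '' (golayCode : Set (GolayPt → ZMod 2)) := by
  ext u
  constructor
  · rintro ⟨w, hw, h⟩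
    exact ⟨w, hw, by funext x; exact (h x).symm⟩
  · rintro ⟨w, hw, rfl⟩
    exact ⟨w, hw, fun _ => rfl⟩

theorem norm_res (w : GolayPt → ZMod 2) : hammingNorm w = hammingNorm (res w) + (if w none = 0 then 0 else 1) := by
  unfold hammingNorm
  rw [card_filter, card_filter]
  show ∑ i : Option (ZMod 23), _ = _
  rw [Fintype.sum_option, add_comm]
  congr 1
  by_cases h : w none = 0
  · rw [if_neg (not_not.mpr h), if_pos h]
  · rw [if_pos h, if_neg h]

theorem testBit_mk (w : GolayPt → ZMod 2) : (mk w).testBit 23 = true ↔ w none ≠ 0 := by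
  have h := congrFun (wd_mk w) none
  have h2 : wd (mk w) none = if (mk w).testBit 23 then 1 else 0 := rfl
  rw [← h, h2]
  by_cases h3 : (mk w).testBit 23 = true <;> simp [h3]

theorem res_inj {w w' : GolayPt → ZMod 2} (hw : w ∈ golayCode) (hw' : w' ∈ golayCode) (h : res w = res w') : w = w' := by
  by_contra hne
  have h1 := min_weight (golayCode.sub_mem hw hw') (sub_ne_zero.mpr hne)
  have h2 := norm_res (w - w')
  have h3 : res (w - w') = 0 := by
    funext x
    show w (some x) - w' (some x) = 0
    rw [show w (some x) = w' (some x) from congrFun h x, sub_self]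
  rw [h3, hammingNorm_zero] at h2
  split_ifs at h2 <;> omega

/-- the test for weight `j` -/
def tst (j : ℕ) (n : ℕ) : Bool := Nat.beq (pop n) (j + (n.testBit 23).toNat)

theorem tst_iff (j : ℕ) (w : GolayPt → ZMod 2) : tst j (mk w) = true ↔ hammingNorm (res w) = j := by
  unfold tst
  rw [Nat.beq_eq, pop_mk, ← hammingNorm_eq_card, norm_res]
  by_cases h : w none = 0
  · have h2 : (mk w).testBit 23 = false := by
      rw [← Bool.not_eq_true, testBit_mk]; simpa using h
    rw [if_pos h, h2]; simp
  · have h2 : (mk w).testBit 23 = true := (testBit_mk w).mpr h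
    rw [if_neg h, h2]; simp

theorem ncard_PC (Q : (ZMod 23 → ZMod 2) → Prop) (P : ℕ → Bool)
    (h : ∀ w : GolayPt → ZMod 2, P (mk w) = true ↔ Q (res w)) :
    {u : ZMod 23 → ZMod 2 | u ∈ PC ∧ Q u}.ncard = cntB P basisL 0 := by
  rw [← ncard_supports P]
  have : {u : ZMod 23 → ZMod 2 | u ∈ PC ∧ Q u} =
      (fun s => res (ofSupp s)) '' {s | s ∈ supports (golayCode : Set (GolayPt → ZMod 2)) ∧ P (mk (ofSupp s)) = true} := by
    ext u
    constructor
    · rintro ⟨hu, hq⟩
      rw [PC_eq] at hu
      obtain ⟨w, hw, rfl⟩ := hu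
      refine ⟨support₂ w, ⟨⟨w, hw, rfl⟩, ?_⟩, ?_⟩
      · rw [ofSupp_support, h]; exact hq
      · show res (ofSupp (support₂ w)) = res w
        rw [ofSupp_support]
    · rintro ⟨s, ⟨hs, hP⟩, rfl⟩
      refine ⟨?_, (h _).mp hP⟩
      rw [PC_eq]
      exact ⟨_, (mem_supports_iff _ _).mp hs, rfl⟩
  rw [this, Set.ncard_image_of_injOn]
  rintro s ⟨hs, _⟩ t ⟨ht, _⟩ hst
  have := res_inj ((mem_supports_iff _ _).mp hs) ((mem_supports_iff _ _).mp ht) hst
  have h2 := congrArg support₂ this
  rwa [support_ofSupp, support_ofSupp] at h2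

theorem ncard_wt (j c : ℕ) (h : cntB (tst j) basisL 0 = c) :
    {u : ZMod 23 → ZMod 2 | u ∈ PC ∧ hammingNorm u = j}.ncard = c := by
  rw [ncard_PC (fun u => hammingNorm u = j) (tst j) (tst_iff j), h]

theorem ncard_all : PC.ncard = 4096 := by
  have h := ncard_PC (fun _ => True) (fun _ => true) (fun w => by simp)
  have h2 : cntB (fun _ => true) basisL 0 = 4096 := by decide +kernel
  rw [h2] at h
  rw [← h]
  congr 1
  ext u; simp

theorem min_PC (u : ZMod 23 → ZMod 2) (hu : u ∈ PC) (h0 : u ≠ 0) : 7 ≤ hammingNorm u := by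
  rw [PC_eq] at hu
  obtain ⟨w, hw, rfl⟩ := hu
  have h1 : w ≠ 0 := by rintro rfl; exact h0 rfl
  have h2 := min_weight hw h1
  have h3 := norm_res w
  split_ifs at h3 <;> omega

/-- extension by one coordinate -/
def extn (u : ZMod 23 → ZMod 2) (a : ZMod 2) : GolayPt → ZMod 2 := fun p => match p with
  | none => a
  | some x => u x

theorem res_extn (u : ZMod 23 → ZMod 2) (a : ZMod 2) : res (extn u a) = u := rfl

theorem exists_odd (u : ZMod 23 → ZMod 2) : ∃ a, Odd (hammingNorm (extn u a)) := by
  rcases Nat.even_or_odd (hammingNorm u) with h | h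
  · refine ⟨1, ?_⟩
    rw [norm_res, res_extn]
    show Odd (hammingNorm u + (if (1 : ZMod 2) = 0 then 0 else 1))
    rw [if_neg (by decide)]
    exact h.add_one
  · refine ⟨0, ?_⟩
    rw [norm_res, res_extn]
    show Odd (hammingNorm u + (if (0 : ZMod 2) = 0 then 0 else 1))
    rw [if_pos rfl]
    exact h

theorem hd_eq (x y : ZMod 23 → ZMod 2) : hammingDist x y = hammingNorm (x - y) := by
  unfold hammingDist hammingNorm
  congr 1
  ext i
  rw [mem_filter, mem_filter]
  show _ ∧ x i ≠ y i ↔ _ ∧ x i - y i ≠ 0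
  rw [sub_ne_zero]

theorem perfect (u : ZMod 23 → ZMod 2) : ∃! c : ZMod 23 → ZMod 2, c ∈ PC ∧ hammingDist u c ≤ 3 := by
  obtain ⟨a, ha⟩ := exists_odd u
  obtain ⟨v, hv, hm⟩ := exists_leader (extn u a)
  have h1 : hammingNorm v ≤ 3 := by
    have h2 := norm_sub (extn u a) v
    have h3 : Even (hammingNorm (extn u a - v)) := by
      rw [hammingNorm_eq_card]
      rcases weight_cases (supp_mem hm) with h | h | h | h | h <;> rw [h] <;> decide
    obtain ⟨k, hk⟩ := h3
    obtain ⟨l, hl⟩ := ha
    omega
  refine ⟨res (extn u a - v), ⟨?_, ?_⟩, ?_⟩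
  · rw [PC_eq]; exact ⟨_, hm, rfl⟩
  · rw [hd_eq]
    have h2 : u - res (extn u a - v) = res v := by
      funext x
      show u x - (u x - v (some x)) = v (some x)
      ring
    rw [h2]
    have h3 := norm_res v
    omega
  · rintro c ⟨hc, hd⟩
    rw [PC_eq] at hc
    obtain ⟨w, hw, rfl⟩ := hc
    have h4 : hammingDist (res w) (res (extn u a - v)) ≤ 6 := by
      have h5 := hammingDist_triangle (res w) u (res (extn u a - v))
      have h6 : hammingDist u (res (extn u a - v)) ≤ 3 := by
        rw [hd_eq]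
        have h2 : u - res (extn u a - v) = res v := by
          funext x
          show u x - (u x - v (some x)) = v (some x)
          ring
        rw [h2]
        have h3 := norm_res v
        omega
      rw [hammingDist_comm] at hd
      omega
    by_contra hne
    have h7 : w - (extn u a - v) ≠ 0 := by
      intro h; apply hne; rw [sub_eq_zero.mp h]
    have h8 := min_weight (golayCode.sub_mem hw hm) h7
    have h9 := norm_res (w - (extn u a - v))
    have h10 : res (w - (extn u a - v)) = res w - res (extn u a - v) := rfl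
    rw [h10, ← hd_eq] at h9
    split_ifs at h9 <;> omega

end H9.GolayPunct
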