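import Cfsg.Agent.Lib.H9.Frame

set_option autoImplicit false

/-! Uniqueness of the binary self-dual code of length 24 and minimum weight 8. -/

namespace H9.GolayUniq

open Cfsg Finset H9.Leech H9.FrameCode H8.GolayCode H8.GolayCount H8.GolayBasic

variable {ι : Type*} [Fintype ι] [DecidableEq ι]

/-- a set code with 4096 words is perfect: octads form a Steiner system -/
theorem steiner_of_card (hι : Fintype.card ι = 24) {C : Finset (Finset ι)} (h : IsCode C)
    (h4 : ∀ S ∈ C, 4 ∣ S.card) (hc : C.card = 4096) :
    IsSteinerSystem 5 8 {S : Finset ι | S ∈ C ∧ S.card = 8} := by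
  classical
  refine ⟨fun b hb => hb.2, fun s hs => ?_⟩
  -- uniqueness
  have huniq : ∀ S T : Finset ι, S ∈ C → S.card = 8 → s ⊆ S → T ∈ C → T.card = 8 → s ⊆ T → S = T := by
    intro S T hS hSc hsS hT hTc hsT
    apply h.eq_of hS hT
    have h3 := FrameCode.card_symmDiff S T
    have h4 := card_le_card (subset_inter hsS hsT)
    omega
  suffices hex : ∃ S ∈ C, S.card = 8 ∧ s ⊆ S by
    obtain ⟨S, hS, hSc, hsS⟩ := hex
    exact ⟨S, ⟨⟨hS, hSc⟩, hsS⟩, fun T hT => huniq T S hT.1.1 hT.1.2 hT.2 hS hSc hsS⟩
  obtain ⟨a, ha⟩ : s.Nonempty := by rw [← card_pos, hs]; norm_num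
  set A : Finset ι := univ.erase a with hA
  have hAc : A.card = 23 := by rw [hA, card_erase_of_mem (mem_univ a), card_univ, hι]
  set U : Finset (Finset ι) := A.powerset.filter fun s => s.card ≤ 3 with hU
  have hUc : U.card = 2048 := by
    have : U = (range 4).biUnion fun j => A.powersetCard j := by
      ext s
      simp only [hU, mem_filter, mem_powerset, mem_biUnion, mem_range, mem_powersetCard]
      constructor
      · rintro ⟨h1, h2⟩; exact ⟨s.card, by omega, h1, rfl⟩
      · rintro ⟨j, hj, h1, h2⟩; exact ⟨h1, by omega⟩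
    rw [this, card_biUnion]
    · simp only [card_powersetCard, hAc]
      decide
    · intro i _ j _ hij
      rw [Function.onFun, disjoint_left]
      intro s hs hs'
      rw [mem_powersetCard] at hs hs'
      exact hij (hs.2.symm.trans hs'.2)
  have hinj : Set.InjOn (fun p : Finset ι × Finset ι => _root_.symmDiff (p.1.erase a) p.2)
      (C ×ˢ U : Finset (Finset ι × Finset ι)) := by
    rintro ⟨S, u⟩ hS ⟨T, v⟩ hT heq
    simp only [coe_product, Set.mem_prod, mem_coe] at hS hT
    simp only at heq
    have hu := mem_filter.mp hS.2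
    have hv := mem_filter.mp hT.2
    have h1 : _root_.symmDiff (S.erase a) (T.erase a) = _root_.symmDiff u v := by
      have h3 : _root_.symmDiff (_root_.symmDiff (S.erase a) u) (_root_.symmDiff (T.erase a) v) = ⊥ := by
        rw [heq, symmDiff_self]
      rw [symmDiff_symmDiff_symmDiff_comm] at h3
      exact symmDiff_eq_bot.mp h3
    have h2 : (_root_.symmDiff u v).card ≤ 6 := by
      have := FrameCode.card_symmDiff u v; omega
    have h3 : (_root_.symmDiff S T).card ≤ (_root_.symmDiff (S.erase a) (T.erase a)).card + 1 := by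
      have : _root_.symmDiff S T ⊆ insert a (_root_.symmDiff (S.erase a) (T.erase a)) := by
        intro x hx
        rw [mem_symmDiff] at hx
        rw [mem_insert, mem_symmDiff]
        by_cases hxa : x = a
        · exact Or.inl hxa
        · right
          simp only [mem_erase, hxa, ne_eq, not_false_eq_true, true_and]
          exact hx
      exact (card_le_card this).trans (card_insert_le _ _)
    have hST : S = T := h.eq_of hS.1 hT.1 (by rw [h1] at h3; omega)
    subst hST
    rw [symmDiff_self] at h1
    have huv : u = v := symmDiff_eq_bot.mp h1.symm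
    rw [huv]
  have hmaps : ∀ p ∈ (C ×ˢ U : Finset (Finset ι × Finset ι)),
      (fun p : Finset ι × Finset ι => _root_.symmDiff (p.1.erase a) p.2) p ∈ A.powerset := by
    rintro ⟨S, u⟩ hS
    rw [mem_product] at hS
    have hu := mem_filter.mp hS.2
    rw [mem_powerset]
    intro x hx
    simp only [mem_symmDiff] at hx
    rcases hx with hx | hx
    · rw [hA, mem_erase]; exact ⟨(mem_erase.mp hx.1).1, mem_univ _⟩
    · exact mem_powerset.mp hu.1 hx.1
  have hsurj : ((C ×ˢ U : Finset (Finset ι × Finset ι)).image
      fun p : Finset ι × Finset ι => _root_.symmDiff (p.1.erase a) p.2) = A.powerset := by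
    apply eq_of_subset_of_card_le
    · intro x hx
      rw [mem_image] at hx
      obtain ⟨p, hp, rfl⟩ := hx
      exact hmaps p hp
    · rw [card_image_of_injOn hinj, card_product, hUc, hc, card_powerset, hAc]
      norm_num
  have hT : s.erase a ∈ A.powerset := by
    rw [mem_powerset]
    intro x hx
    rw [mem_erase] at hx
    rw [hA, mem_erase]; exact ⟨hx.1, mem_univ _⟩
  have hTc : (s.erase a).card = 4 := by rw [card_erase_of_mem ha, hs]
  rw [← hsurj, mem_image] at hT
  obtain ⟨⟨S, u⟩, hp, hST⟩ := hT
  rw [mem_product] at hp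
  have hu := mem_filter.mp hp.2
  simp only at hST hp hu
  have h1 := FrameCode.card_symmDiff (S.erase a) u
  rw [hST, hTc] at h1
  have h2 := card_le_card (inter_subset_left (s₁ := S.erase a) (s₂ := u))
  have h3 := card_le_card (inter_subset_right (s₁ := S.erase a) (s₂ := u))
  have h5 : S.card ≤ (S.erase a).card + 1 := by
    have := card_erase_add_one (s := S) (a := a)
    by_cases haS : a ∈ S
    · exact (this haS).ge
    · rw [erase_eq_of_notMem haS]; omega
  have hSne : S ≠ ∅ := by
    rintro rfl
    simp at h1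
    omega
  have hS8 := h.min S hp.1 hSne
  obtain ⟨k, hk⟩ := h4 S hp.1
  have hu3 : u.card ≤ 3 := hu.2
  have hSe : (S.erase a).card ≤ 7 := by omega
  have hS8' : S.card = 8 := by omega
  have haS : a ∈ S := by
    by_contra h
    rw [erase_eq_of_notMem h] at hSe
    omega
  have hu3' : u.card = 3 := by
    have : (S.erase a).card = 7 := by rw [card_erase_of_mem haS, hS8']
    omega
  have husub : u ⊆ S.erase a := by
    have h6 : (S.erase a ∩ u).card = u.card := by
      have : (S.erase a).card = 7 := by rw [card_erase_of_mem haS, hS8']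
      omega
    have h7 : S.erase a ∩ u = u := eq_of_subset_of_card_le inter_subset_right h6.ge
    rw [← h7]; exact inter_subset_left
  refine ⟨S, hp.1, hS8', ?_⟩
  intro x hx
  by_cases hxa : x = a
  · rw [hxa]; exact haS
  · have hx' : x ∈ s.erase a := mem_erase.mpr ⟨hxa, hx⟩
    rw [← hST, mem_symmDiff] at hx'
    rcases hx' with hx' | hx'
    · exact (mem_erase.mp hx'.1).2
    · exact absurd (husub hx'.1) hx'.2

/-- uniqueness of the Golay code as a set system -/
theorem exists_equiv (hι : Fintype.card ι = 24) {C : Finset (Finset ι)} (h : IsCode C)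
    (h4 : ∀ S ∈ C, 4 ∣ S.card) (hc : C.card = 4096) :
    ∃ e : GolayPt ≃ ι, ∀ S : Finset GolayPt, S ∈ GS ↔ S.image e ∈ C := by
  classical
  have hSt := steiner_of_card hι h h4 hc
  obtain ⟨σ, hσ⟩ := H9.Aut24.setSystemIso card_pt hι octads_steiner hSt
  refine ⟨σ, ?_⟩
  have himg_symm : ∀ s t : Finset GolayPt, (symmDiff s t).image σ = symmDiff (s.image σ) (t.image σ) := by
    intro s t
    ext x
    obtain ⟨y, rfl⟩ := σ.surjective x
    simp only [mem_symmDiff, mem_image, EmbeddingLike.apply_eq_iff_eq, exists_eq_right]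
  have hsub : ∀ S ∈ GS, S.image σ ∈ C := by
    intro S hS
    refine H9.Frame.gen (P := fun S => S.image σ ∈ C) ?_ ?_ ?_ hS
    · rw [image_empty]; exact h.empty
    · intro s t hs ht
      rw [himg_symm]; exact h.symmDiff _ hs _ ht
    · intro s hs
      have : s.image σ ∈ (fun b : Finset GolayPt => b.image σ) '' octads := ⟨s, hs, rfl⟩
      rw [hσ] at this
      exact this.1
  have hinj : Function.Injective (fun S : Finset GolayPt => S.image σ) := image_injective σ.injective
  have heq : (fun S : Finset GolayPt => S.image σ) '' GS = (C : Set (Finset ι)) := by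
    apply Set.eq_of_subset_of_ncard_le _ _ (Finset.finite_toSet _)
    · rintro _ ⟨S, hS, rfl⟩; exact hsub S hS
    · rw [Set.ncard_image_of_injective _ hinj, H9.Frame.GS_ncard, Set.ncard_coe_finset, hc]
  intro S
  constructor
  · exact hsub S
  · intro hS
    have : S.image σ ∈ (fun S : Finset GolayPt => S.image σ) '' GS := by rw [heq]; exact hS
    obtain ⟨T, hT, hTS⟩ := this
    rw [← hinj hTS]; exact hT

theorem golay_unique (C : Submodule (ZMod 2) (Fin 24 → ZMod 2)) (hdim : Module.finrank (ZMod 2) C = 12)
    (h4 : ∀ w ∈ C, 4 ∣ hammingNorm w) (hno4 : ∀ w ∈ C, hammingNorm w ≠ 4) :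
    ∃ e : Fin 24 ≃ GolayPt, ∀ w : GolayPt → ZMod 2, w ∈ golayCode ↔ (fun i => w (e i)) ∈ C := by
  classical
  set CC : Finset (Finset (Fin 24)) := univ.filter fun S => ofSupp S ∈ C with hCC
  have hmem : ∀ S, S ∈ CC ↔ ofSupp S ∈ C := fun S => by rw [hCC, mem_filter]; simp
  have hnorm : ∀ S : Finset (Fin 24), hammingNorm (ofSupp S) = S.card := by
    intro S; rw [hammingNorm_eq_card, support_ofSupp]
  have hadd : ∀ S T : Finset (Fin 24), ofSupp (symmDiff S T) = ofSupp S + ofSupp T := by
    intro S T
    apply support_injective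
    rw [support_add, support_ofSupp, support_ofSupp, support_ofSupp]
  have h4' : ∀ S ∈ CC, 4 ∣ S.card := by
    intro S hS
    rw [← hnorm]; exact h4 _ ((hmem S).mp hS)
  have hcode : IsCode CC := by
    refine ⟨?_, ?_, ?_⟩
    · intro S hS T hT
      rw [hmem] at hS hT ⊢
      rw [hadd]; exact C.add_mem hS hT
    · rw [hmem]
      have : ofSupp (∅ : Finset (Fin 24)) = 0 := by funext i; simp [ofSupp]
      rw [this]; exact C.zero_mem
    · intro S hS hne
      have h1 := h4' S hS
      have h2 := hno4 _ ((hmem S).mp hS)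
      rw [hnorm] at h2
      have h3 : 0 < S.card := card_pos.mpr (nonempty_iff_ne_empty.mpr hne)
      omega
  have hcard : CC.card = 4096 := by
    have h1 : Nat.card C = 4096 := by
      rw [Module.natCard_eq_pow_finrank (K := ZMod 2), hdim, Nat.card_eq_fintype_card, ZMod.card]
      norm_num
    have h2 : CC.card = Nat.card C := by
      have e : CC ≃ C :=
        { toFun := fun S => ⟨ofSupp S.1, (hmem S.1).mp S.2⟩
          invFun := fun w => ⟨support₂ w.1, (hmem _).mpr (by rw [ofSupp_support]; exact w.2)⟩
          left_inv := fun S => Subtype.ext (support_ofSupp S.1)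
          right_inv := fun w => Subtype.ext (ofSupp_support w.1) }
      rw [← Nat.card_congr e, Nat.card_eq_fintype_card, Fintype.card_coe]
    rw [h2, h1]
  obtain ⟨e, he⟩ := exists_equiv (by simp) hcode h4' hcard
  refine ⟨e.symm, fun w => ?_⟩
  have h1 : w ∈ golayCode ↔ support₂ w ∈ GS := by
    rw [mem_supports_iff, ofSupp_support]; rfl
  rw [h1, he, hmem]
  have h2 : ofSupp ((support₂ w).image e) = fun i => w (e.symm i) := by
    apply support_injective
    rw [support_ofSupp]
    ext i
    simp only [support₂, mem_image, mem_filter, mem_univ, true_and]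
    constructor
    · rintro ⟨p, hp, rfl⟩; simpa using hp
    · intro hp; exact ⟨_, hp, by simp⟩
  rw [h2]

end H9.GolayUniq
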