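import Cfsg.Agent.Lib.H9.HSRank2

set_option autoImplicit false

/-! The 11178 vectors: transitivity of the Higman–Sims group on the four classes. -/

namespace H9.HSRank

open Cfsg Finset H9.Leech H9.ModTwo H9.LatticeIso H9.LeechGood H9.Trans H9.Cross H9.CoOrder H9.Co23
open H8.GolayCode H8.GolayBasic H8.GolayCount MulAction H63.LeechFrame H63.LeechHS H63.LeechMin
open H9.McLRank (hpq tr1 tr2 tr3 perm_eq ind_eq single_eq)

theorem ind_cases (O : Finset GolayPt) (i : GolayPt) : (i ∈ O ∧ ind O i = 1) ∨ (i ∉ O ∧ ind O i = 0) := by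
  unfold ind
  by_cases h : i ∈ O
  · left; exact ⟨h, if_pos h⟩
  · right; exact ⟨h, if_neg h⟩

theorem single_cases (j i : GolayPt) (a : ℤ) : (i = j ∧ (Pi.single j a : GolayPt → ℤ) i = a) ∨
    (i ≠ j ∧ (Pi.single j a : GolayPt → ℤ) i = 0) := by
  by_cases h : i = j
  · left; subst h; exact ⟨rfl, Pi.single_eq_same _ _⟩
  · right; exact ⟨h, Pi.single_eq_of_ne h _⟩

theorem perm_GH {σ : Equiv.Perm GolayPt} (hσ : σ ∈ M24) (h1 : σ none = none) (h2 : σ (pt 0) = pt 0) :
    perm σ hσ ∈ GH := (hs_conf hpq).fx σ hσ h1 h2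

theorem octad_off {O : Finset GolayPt} (hO : O ∈ octads) (S : Finset GolayPt) (hS : S.card ≤ 7) : ∃ k ∈ O, k ∉ S := by
  have h1 : 0 < (O \ S).card := by
    have h2 := le_card_sdiff S O
    rw [hO.2] at h2
    omega
  obtain ⟨z, hz⟩ := card_pos.mp h1
  exact ⟨z, (mem_sdiff.mp hz).1, (mem_sdiff.mp hz).2⟩

/-- class `-1` -/
theorem reach_m {y : leechLattice} (hy : y ∈ SV) (hd : (y : GolayPt → ℤ) (pt 0) - (y : GolayPt → ℤ) none = -2) :
    ∃ g ∈ GH, g • y ∈ SV ∧ ((g • y : leechLattice) : GolayPt → ℤ) none = 0 := by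
  rcases sv_cases hy with ⟨j, hj, h⟩ | ⟨O, hO, hn, P, hP, hPn, hPc, h⟩ | ⟨O, hO, hn, h⟩ | ⟨c, hc, hc12, hn, h⟩ | ⟨O, hO, hn, k, hk, h⟩
  · exfalso
    have e1 := h none
    have e2 := h (pt 0)
    rw [Pi.single_eq_same, Pi.single_eq_of_ne hj.symm] at e1
    rw [Pi.single_eq_of_ne hpq.symm] at e2
    rcases single_cases j (pt 0) 4 with h4 | h4 <;> omega
  · exfalso
    have e1 := h none
    have e2 := h (pt 0)
    rcases ind_cases O none with h3 | h3 <;> rcases ind_cases P none with h4 | h4 <;>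
      rcases ind_cases O (pt 0) with h5 | h5 <;> rcases ind_cases P (pt 0) with h6 | h6 <;>
      first | exact absurd h4.1 hPn | exact absurd hn h3.1 | omega
  · refine ⟨1, GH.one_mem, by rw [one_smul]; exact hy, ?_⟩
    rw [one_smul, h]
    rcases ind_cases O none with h3 | h3
    · exact absurd h3.1 hn
    · rw [h3.2]; norm_num
  · exfalso
    have e1 := h none
    have e2 := h (pt 0)
    rw [Pi.single_eq_same] at e1
    rw [Pi.single_eq_of_ne hpq.symm] at e2
    rcases ind_cases c none with h3 | h3 <;> rcases ind_cases c (pt 0) with h4 | h4 <;>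
      first | exact absurd h3.1 hn | omega
  · have e1 := h none
    have e2 := h (pt 0)
    have hkn : none ≠ k := fun h5 => hn (h5 ▸ hk)
    rw [Pi.single_eq_of_ne hkn] at e1
    have hI : ind O none = 0 := by
      rcases ind_cases O none with h3 | h3
      · exact absurd h3.1 hn
      · exact h3.2
    have hk0 : pt 0 = k := by
      rcases single_cases k (pt 0) 4 with h4 | h4
      · exact h4.1
      · rcases ind_cases O (pt 0) with h5 | h5 <;> omega
    subst hk0
    -- a point off the octad and different from `∞`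
    obtain ⟨r, hr1, hr2⟩ : ∃ r, r ∉ O ∧ r ≠ none := by
      by_contra hcon
      push Not at hcon
      have h5 : univ ⊆ insert none O := by
        intro r _
        by_cases hr : r ∈ O
        · exact mem_insert_of_mem hr
        · rw [hcon r hr]; exact mem_insert_self _ _
      have h6 := card_le_card h5
      rw [card_univ, card_pt, card_insert_of_notMem hn, hO.2] at h6
      omega
    have hr0 : r ≠ pt 0 := fun h5 => hr1 (h5 ▸ hk)
    have e3 := h r
    rw [Pi.single_eq_of_ne hr0] at e3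
    have hIr : ind O r = 0 := by
      rcases ind_cases O r with h3 | h3
      · exact absurd h3.1 hr1
      · exact h3.2
    apply move_k hy hr2 hr0
    omega

/-- class `0` -/
theorem reach_0 {y : leechLattice} (hy : y ∈ SV) (hd : (y : GolayPt → ℤ) (pt 0) - (y : GolayPt → ℤ) none = 0) :
    ∃ g ∈ GH, g • y ∈ SV ∧ ((g • y : leechLattice) : GolayPt → ℤ) none = 0 := by
  rcases sv_cases hy with ⟨j, hj, h⟩ | ⟨O, hO, hn, P, hP, hPn, hPc, h⟩ | ⟨O, hO, hn, h⟩ | ⟨c, hc, hc12, hn, h⟩ | ⟨O, hO, hn, k, hk, h⟩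
  · exfalso
    have e1 := h none
    have e2 := h (pt 0)
    rw [Pi.single_eq_same, Pi.single_eq_of_ne hj.symm] at e1
    rw [Pi.single_eq_of_ne hpq.symm] at e2
    rcases single_cases j (pt 0) 4 with h4 | h4 <;> omega
  · have e1 := h none
    have e2 := h (pt 0)
    have hIn : ind O none = 1 := by
      rcases ind_cases O none with h3 | h3
      · exact h3.2
      · exact absurd hn h3.1
    have hPn' : ind P none = 0 := by
      rcases ind_cases P none with h3 | h3
      · exact absurd h3.1 hPn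
      · exact h3.2
    have h0 : pt 0 ∈ O ∧ pt 0 ∉ P := by
      rcases ind_cases O (pt 0) with h5 | h5 <;> rcases ind_cases P (pt 0) with h6 | h6 <;>
        first | exact ⟨h5.1, h6.1⟩ | omega
    obtain ⟨k, hk, hkS⟩ := octad_off hO (insert none (insert (pt 0) P)) (by
      refine (card_insert_le _ _).trans ?_
      have := card_insert_le (pt 0) P
      omega)
    simp only [mem_insert, not_or] at hkS
    have e3 := h k
    have hIk : ind O k = 1 := by
      rcases ind_cases O k with h3 | h3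
      · exact h3.2
      · exact absurd hk h3.1
    have hPk : ind P k = 0 := by
      rcases ind_cases P k with h3 | h3
      · exact absurd h3.1 hkS.2.2
      · exact h3.2
    apply move_k hy hkS.1 hkS.2.1
    omega
  · refine ⟨1, GH.one_mem, by rw [one_smul]; exact hy, ?_⟩
    rw [one_smul, h]
    rcases ind_cases O none with h3 | h3
    · exact absurd h3.1 hn
    · rw [h3.2]; norm_num
  · exfalso
    have e1 := h none
    have e2 := h (pt 0)
    rw [Pi.single_eq_same] at e1
    rw [Pi.single_eq_of_ne hpq.symm] at e2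
    rcases ind_cases c none with h3 | h3 <;> rcases ind_cases c (pt 0) with h4 | h4 <;>
      first | exact absurd h3.1 hn | omega
  · have e1 := h none
    have e2 := h (pt 0)
    have hkn : none ≠ k := fun h5 => hn (h5 ▸ hk)
    rw [Pi.single_eq_of_ne hkn] at e1
    have hI : ind O none = 0 := by
      rcases ind_cases O none with h3 | h3
      · exact absurd h3.1 hn
      · exact h3.2
    have hk0 : k ≠ pt 0 := by
      rintro rfl
      rw [Pi.single_eq_same] at e2
      rcases ind_cases O (pt 0) with h5 | h5 <;> omega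
    have e3 := h k
    rw [Pi.single_eq_same] at e3
    have hIk : ind O k = 1 := by
      rcases ind_cases O k with h3 | h3
      · exact h3.2
      · exact absurd hk h3.1
    apply move_k hy hkn.symm hk0
    omega

/-- class `1` -/
theorem reach_1 {y : leechLattice} (hy : y ∈ SV) (hd : (y : GolayPt → ℤ) (pt 0) - (y : GolayPt → ℤ) none = 2) :
    ∃ g ∈ GH, g • y ∈ SV ∧ ((g • y : leechLattice) : GolayPt → ℤ) none = -1 := by
  rcases sv_cases hy with ⟨j, hj, h⟩ | ⟨O, hO, hn, P, hP, hPn, hPc, h⟩ | ⟨O, hO, hn, h⟩ | ⟨c, hc, hc12, hn, h⟩ | ⟨O, hO, hn, k, hk, h⟩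
  · exfalso
    have e1 := h none
    have e2 := h (pt 0)
    rw [Pi.single_eq_same, Pi.single_eq_of_ne hj.symm] at e1
    rw [Pi.single_eq_of_ne hpq.symm] at e2
    rcases single_cases j (pt 0) 4 with h4 | h4 <;> omega
  · have e1 := h none
    have e2 := h (pt 0)
    have hIn : ind O none = 1 := by
      rcases ind_cases O none with h3 | h3
      · exact h3.2
      · exact absurd hn h3.1
    have hPn' : ind P none = 0 := by
      rcases ind_cases P none with h3 | h3
      · exact absurd h3.1 hPn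
      · exact h3.2
    have h0 : pt 0 ∉ O := by
      rcases ind_cases O (pt 0) with h5 | h5 <;> rcases ind_cases P (pt 0) with h6 | h6 <;>
        first | exact h5.1 | omega
    obtain ⟨k, hk, hkS⟩ := octad_off hO (insert none P) (by
      refine (card_insert_le _ _).trans ?_
      omega)
    simp only [mem_insert, not_or] at hkS
    have e3 := h k
    have hIk : ind O k = 1 := by
      rcases ind_cases O k with h3 | h3
      · exact h3.2
      · exact absurd hk h3.1
    have hPk : ind P k = 0 := by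
      rcases ind_cases P k with h3 | h3
      · exact absurd h3.1 hkS.2
      · exact h3.2
    apply move_k hy hkS.1 (fun h5 => h0 (h5 ▸ hk))
    omega
  · exfalso
    have e1 := h none
    have e2 := h (pt 0)
    rcases ind_cases O none with h3 | h3 <;> rcases ind_cases O (pt 0) with h4 | h4 <;>
      first | exact absurd h3.1 hn | omega
  · have e1 := h none
    have e2 := h (pt 0)
    rw [Pi.single_eq_same] at e1
    rw [Pi.single_eq_of_ne hpq.symm] at e2
    have hI : ind c none = 0 := by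
      rcases ind_cases c none with h3 | h3
      · exact absurd h3.1 hn
      · exact h3.2
    obtain ⟨k, hk, hk0⟩ : ∃ k ∈ c, k ≠ pt 0 := exists_mem_ne (by omega) _
    have hkn : k ≠ none := fun h5 => hn (h5 ▸ hk)
    have e3 := h k
    rw [Pi.single_eq_of_ne hkn] at e3
    have hIk : ind c k = 1 := by
      rcases ind_cases c k with h3 | h3
      · exact h3.2
      · exact absurd hk h3.1
    apply move_k hy hkn hk0
    omega
  · refine ⟨1, GH.one_mem, by rw [one_smul]; exact hy, ?_⟩
    have hkn : none ≠ k := fun h5 => hn (h5 ▸ hk)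
    rw [one_smul, h, Pi.single_eq_of_ne hkn]
    rcases ind_cases O none with h3 | h3
    · exact absurd h3.1 hn
    · rw [h3.2]; norm_num

/-- class `2` -/
theorem reach_2a {y : leechLattice} (hy : y ∈ SV) (hd : (y : GolayPt → ℤ) (pt 0) - (y : GolayPt → ℤ) none = 4)
    (hn3 : (y : GolayPt → ℤ) none ≠ -3) : ∃ g ∈ GH, g • y ∈ SV ∧ ((g • y : leechLattice) : GolayPt → ℤ) none = -4 := by
  rcases sv_cases hy with ⟨j, hj, h⟩ | ⟨O, hO, hn, P, hP, hPn, hPc, h⟩ | ⟨O, hO, hn, h⟩ | ⟨c, hc, hc12, hn, h⟩ | ⟨O, hO, hn, k, hk, h⟩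
  · refine ⟨1, GH.one_mem, by rw [one_smul]; exact hy, ?_⟩
    rw [one_smul, h, Pi.single_eq_same, Pi.single_eq_of_ne hj.symm]; norm_num
  · have e1 := h none
    have e2 := h (pt 0)
    have hIn : ind O none = 1 := by
      rcases ind_cases O none with h3 | h3
      · exact h3.2
      · exact absurd hn h3.1
    have hPn' : ind P none = 0 := by
      rcases ind_cases P none with h3 | h3
      · exact absurd h3.1 hPn
      · exact h3.2
    have h0 : pt 0 ∈ P := by
      rcases ind_cases O (pt 0) with h5 | h5 <;> rcases ind_cases P (pt 0) with h6 | h6 <;>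
        first | exact h6.1 | omega
    obtain ⟨k, hk, hk0⟩ : ∃ k ∈ P, k ≠ pt 0 := exists_mem_ne (by omega) _
    have hkn : k ≠ none := fun h5 => hPn (h5 ▸ hk)
    have e3 := h k
    have hIk : ind O k = 1 := by
      rcases ind_cases O k with h3 | h3
      · exact h3.2
      · exact absurd (hP hk) h3.1
    have hPk : ind P k = 1 := by
      rcases ind_cases P k with h3 | h3
      · exact h3.2
      · exact absurd hk h3.1
    apply move_k hy hkn hk0
    omega
  · exfalso
    have e1 := h none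
    have e2 := h (pt 0)
    rcases ind_cases O none with h3 | h3 <;> rcases ind_cases O (pt 0) with h4 | h4 <;>
      first | exact absurd h3.1 hn | omega
  · exfalso
    have e1 := h none
    rw [Pi.single_eq_same] at e1
    rcases ind_cases c none with h3 | h3
    · exact absurd h3.1 hn
    · omega
  · exfalso
    have e1 := h none
    have e2 := h (pt 0)
    have hkn : none ≠ k := fun h5 => hn (h5 ▸ hk)
    rw [Pi.single_eq_of_ne hkn] at e1
    rcases ind_cases O none with h3 | h3 <;> rcases ind_cases O (pt 0) with h5 | h5 <;>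
      rcases single_cases k (pt 0) 4 with h4 | h4 <;> first | exact absurd h3.1 hn | omega

theorem reach_2 {y : leechLattice} (hy : y ∈ SV) (hd : (y : GolayPt → ℤ) (pt 0) - (y : GolayPt → ℤ) none = 4) :
    ∃ g ∈ GH, g • y ∈ SV ∧ ((g • y : leechLattice) : GolayPt → ℤ) none = -4 := by
  by_cases hn3 : (y : GolayPt → ℤ) none = -3
  · -- the dodecad case
    obtain ⟨g, hg, hg1, hg2⟩ : ∃ g ∈ GH, g • y ∈ SV ∧ ((g • y : leechLattice) : GolayPt → ℤ) none = -2 := by
      rcases sv_cases hy with ⟨j, hj, h⟩ | ⟨O, hO, hn, P, hP, hPn, hPc, h⟩ | ⟨O, hO, hn, h⟩ | ⟨c, hc, hc12, hn, h⟩ | ⟨O, hO, hn, k, hk, h⟩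
      · exfalso
        have e1 := h none
        rw [Pi.single_eq_same, Pi.single_eq_of_ne hj.symm] at e1
        omega
      · exfalso
        have e1 := h none
        omega
      · exfalso
        have e1 := h none
        omega
      · have e1 := h none
        have e2 := h (pt 0)
        rw [Pi.single_eq_same] at e1
        rw [Pi.single_eq_of_ne hpq.symm] at e2
        have hI : ind c (pt 0) = 0 := by omega
        have h0 : pt 0 ∉ c := by
          rcases ind_cases c (pt 0) with h3 | h3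
          · omega
          · exact h3.1
        obtain ⟨k, hk⟩ : c.Nonempty := by rw [← card_pos]; omega
        have hkn : k ≠ none := fun h5 => hn (h5 ▸ hk)
        have hk0 : k ≠ pt 0 := fun h5 => h0 (h5 ▸ hk)
        have e3 := h k
        rw [Pi.single_eq_of_ne hkn] at e3
        have hIk : ind c k = 1 := by
          rcases ind_cases c k with h3 | h3
          · exact h3.2
          · exact absurd hk h3.1
        apply move_k hy hkn hk0
        omega
      · exfalso
        have e1 := h none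
        have hkn : none ≠ k := fun h5 => hn (h5 ▸ hk)
        rw [Pi.single_eq_of_ne hkn] at e1
        rcases ind_cases O none with h3 | h3 <;> omega
    have hd' := GH_diff hg y
    rw [hd] at hd'
    obtain ⟨g', hg', h1, h2⟩ := reach_2a hg1 hd' (by rw [hg2]; norm_num)
    exact ⟨g' * g, GH.mul_mem hg' hg, by rw [mul_smul]; exact h1, by rw [mul_smul]; exact h2⟩
  · exact reach_2a hy hd hn3

/-! ### `M₂₂` on the base classes -/

theorem base_m {y y' : leechLattice} (hy : y ∈ SV) (hy' : y' ∈ SV) (h1 : (y : GolayPt → ℤ) none = 0)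
    (h1' : (y' : GolayPt → ℤ) none = 0) (h2 : (y : GolayPt → ℤ) (pt 0) = -2) (h2' : (y' : GolayPt → ℤ) (pt 0) = -2) :
    ∃ g ∈ GH, g • y = y' := by
  have key : ∀ {y : leechLattice}, y ∈ SV → (y : GolayPt → ℤ) none = 0 → ∃ O ∈ octads, none ∉ O ∧
      ∀ i, (y : GolayPt → ℤ) i = - (2 * ind O i) := by
    intro y hy h1
    rcases sv_cases hy with ⟨j, hj, h⟩ | ⟨O, hO, hn, P, hP, hPn, hPc, h⟩ | ⟨O, hO, hn, h⟩ | ⟨c, hc, hc12, hn, h⟩ | ⟨O, hO, hn, k, hk, h⟩
    · exfalso
      have e1 := h none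
      rw [Pi.single_eq_same, Pi.single_eq_of_ne hj.symm] at e1
      omega
    · exfalso
      have e1 := h none
      rcases ind_cases O none with h3 | h3 <;> rcases ind_cases P none with h4 | h4 <;>
        first | exact absurd h4.1 hPn | exact absurd hn h3.1 | omega
    · exact ⟨O, hO, hn, h⟩
    · exfalso
      have e1 := h none
      rw [Pi.single_eq_same] at e1
      omega
    · exfalso
      have e1 := h none
      have hkn : none ≠ k := fun h5 => hn (h5 ▸ hk)
      rw [Pi.single_eq_of_ne hkn] at e1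
      omega
  obtain ⟨O, hO, hn, h⟩ := key hy h1
  obtain ⟨O', hO', hn', h'⟩ := key hy' h1'
  have h0 : pt 0 ∈ O := by
    have := h (pt 0)
    rcases ind_cases O (pt 0) with h3 | h3
    · exact h3.1
    · omega
  have h0' : pt 0 ∈ O' := by
    have := h' (pt 0)
    rcases ind_cases O' (pt 0) with h3 | h3
    · exact h3.1
    · omega
  obtain ⟨j, hj, hj0⟩ : ∃ j ∈ O, j ≠ pt 0 := exists_mem_ne (by rw [hO.2]; norm_num) _
  obtain ⟨j', hj', hj0'⟩ : ∃ j ∈ O', j ≠ pt 0 := exists_mem_ne (by rw [hO'.2]; norm_num) _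
  obtain ⟨σ, hσ, s1, s2, _, s4⟩ := tr3 (p := pt 0) (q := none) hO h0 hn hO' h0' hn' hj hj0 hj' hj0'
  refine ⟨perm σ hσ, perm_GH hσ s2 s1, ?_⟩
  apply perm_eq
  intro i
  rw [h', h, ind_eq s4]

theorem base_0 {y y' : leechLattice} (hy : y ∈ SV) (hy' : y' ∈ SV) (h1 : (y : GolayPt → ℤ) none = 0)
    (h1' : (y' : GolayPt → ℤ) none = 0) (h2 : (y : GolayPt → ℤ) (pt 0) = 0) (h2' : (y' : GolayPt → ℤ) (pt 0) = 0) :
    ∃ g ∈ GH, g • y = y' := by
  have key : ∀ {y : leechLattice}, y ∈ SV → (y : GolayPt → ℤ) none = 0 → (y : GolayPt → ℤ) (pt 0) = 0 →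
      ∃ O ∈ octads, none ∉ O ∧ pt 0 ∉ O ∧ ∀ i, (y : GolayPt → ℤ) i = - (2 * ind O i) := by
    intro y hy h1 h2
    rcases sv_cases hy with ⟨j, hj, h⟩ | ⟨O, hO, hn, P, hP, hPn, hPc, h⟩ | ⟨O, hO, hn, h⟩ | ⟨c, hc, hc12, hn, h⟩ | ⟨O, hO, hn, k, hk, h⟩
    · exfalso
      have e1 := h none
      rw [Pi.single_eq_same, Pi.single_eq_of_ne hj.symm] at e1
      omega
    · exfalso
      have e1 := h none
      rcases ind_cases O none with h3 | h3 <;> rcases ind_cases P none with h4 | h4 <;>
        first | exact absurd h4.1 hPn | exact absurd hn h3.1 | omega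
    · refine ⟨O, hO, hn, ?_, h⟩
      have := h (pt 0)
      rcases ind_cases O (pt 0) with h3 | h3
      · omega
      · exact h3.1
    · exfalso
      have e1 := h none
      rw [Pi.single_eq_same] at e1
      omega
    · exfalso
      have e1 := h none
      have hkn : none ≠ k := fun h5 => hn (h5 ▸ hk)
      rw [Pi.single_eq_of_ne hkn] at e1
      omega
  obtain ⟨O, hO, hn, h0, h⟩ := key hy h1 h2
  obtain ⟨O', hO', hn', h0', h'⟩ := key hy' h1' h2'
  obtain ⟨σ, hσ, s1, s2, s4⟩ := tr1 hO hn h0 hO' hn' h0'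
  refine ⟨perm σ hσ, perm_GH hσ s1 s2, ?_⟩
  apply perm_eq
  intro i
  rw [h', h, ind_eq s4]

theorem base_1 {y y' : leechLattice} (hy : y ∈ SV) (hy' : y' ∈ SV) (h1 : (y : GolayPt → ℤ) none = -1)
    (h1' : (y' : GolayPt → ℤ) none = -1) (h2 : (y : GolayPt → ℤ) (pt 0) = 1) (h2' : (y' : GolayPt → ℤ) (pt 0) = 1) :
    ∃ g ∈ GH, g • y = y' := by
  have key : ∀ {y : leechLattice}, y ∈ SV → (y : GolayPt → ℤ) none = -1 → (y : GolayPt → ℤ) (pt 0) = 1 →
      ∃ O ∈ octads, none ∉ O ∧ pt 0 ∈ O ∧ ∃ k ∈ O, k ≠ pt 0 ∧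
        ∀ i, (y : GolayPt → ℤ) i = 2 * ind O i - 1 - (Pi.single k 4 : GolayPt → ℤ) i := by
    intro y hy h1 h2
    rcases sv_cases hy with ⟨j, hj, h⟩ | ⟨O, hO, hn, P, hP, hPn, hPc, h⟩ | ⟨O, hO, hn, h⟩ | ⟨c, hc, hc12, hn, h⟩ | ⟨O, hO, hn, k, hk, h⟩
    · exfalso
      have e1 := h none
      rw [Pi.single_eq_same, Pi.single_eq_of_ne hj.symm] at e1
      omega
    · exfalso
      have e1 := h none
      omega
    · exfalso
      have e1 := h none
      omega
    · exfalso
      have e1 := h none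
      rw [Pi.single_eq_same] at e1
      rcases ind_cases c none with h3 | h3
      · exact hn h3.1
      · omega
    · have e2 := h (pt 0)
      rcases ind_cases O (pt 0) with h3 | h3 <;> rcases single_cases k (pt 0) 4 with h4 | h4 <;>
        first | exact ⟨O, hO, hn, h3.1, k, hk, fun h5 => h4.1 h5.symm, h⟩ | (exfalso; omega)
  obtain ⟨O, hO, hn, h0, k, hk, hk0, h⟩ := key hy h1 h2
  obtain ⟨O', hO', hn', h0', k', hk', hk0', h'⟩ := key hy' h1' h2'
  obtain ⟨σ, hσ, s1, s2, s3, s4⟩ := tr3 (p := pt 0) (q := none) hO h0 hn hO' h0' hn' hk hk0 hk' hk0'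
  refine ⟨perm σ hσ, perm_GH hσ s2 s1, ?_⟩
  apply perm_eq
  intro i
  rw [h', h, ind_eq s4, single_eq s3]

/-- an octad through three points -/
theorem octad_three (a b c : GolayPt) : ∃ O ∈ octads, a ∈ O ∧ b ∈ O ∧ c ∈ O := by
  obtain ⟨S, hS1, hS2⟩ : ∃ S : Finset GolayPt, {a, b, c} ⊆ S ∧ S.card = 5 := by
    apply exists_superset_card_eq
    · exact card_le_three.trans (by norm_num)
    · rw [card_pt]; norm_num
  obtain ⟨O, ⟨hO, hs⟩, _⟩ := octads_steiner.2 S hS2
  exact ⟨O, hO, hs (hS1 (by simp)), hs (hS1 (by simp)), hs (hS1 (by simp))⟩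

theorem base_2 {y y' : leechLattice} (hy : y ∈ SV) (hy' : y' ∈ SV) (h1 : (y : GolayPt → ℤ) none = -4)
    (h1' : (y' : GolayPt → ℤ) none = -4) (h2 : (y : GolayPt → ℤ) (pt 0) = 0) (h2' : (y' : GolayPt → ℤ) (pt 0) = 0) :
    ∃ g ∈ GH, g • y = y' := by
  have key : ∀ {y : leechLattice}, y ∈ SV → (y : GolayPt → ℤ) none = -4 → (y : GolayPt → ℤ) (pt 0) = 0 →
      ∃ j, j ≠ none ∧ j ≠ pt 0 ∧ ∀ i, (y : GolayPt → ℤ) i = (Pi.single none (-4) : GolayPt → ℤ) i + (Pi.single j 4 : GolayPt → ℤ) i := by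
    intro y hy h1 h2
    rcases sv_cases hy with ⟨j, hj, h⟩ | ⟨O, hO, hn, P, hP, hPn, hPc, h⟩ | ⟨O, hO, hn, h⟩ | ⟨c, hc, hc12, hn, h⟩ | ⟨O, hO, hn, k, hk, h⟩
    · refine ⟨j, hj, ?_, h⟩
      rintro rfl
      have e2 := h (pt 0)
      rw [Pi.single_eq_of_ne hpq.symm, Pi.single_eq_same] at e2
      omega
    · exfalso
      have e1 := h none
      rcases ind_cases O none with h3 | h3 <;> rcases ind_cases P none with h4 | h4 <;> omega
    · exfalso
      have e1 := h none
      rcases ind_cases O none with h3 | h3 <;> omega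
    · exfalso
      have e1 := h none
      rw [Pi.single_eq_same] at e1
      rcases ind_cases c none with h3 | h3 <;> omega
    · exfalso
      have e1 := h none
      have hkn : none ≠ k := fun h5 => hn (h5 ▸ hk)
      rw [Pi.single_eq_of_ne hkn] at e1
      rcases ind_cases O none with h3 | h3 <;> omega
  obtain ⟨j, hj, hj0, h⟩ := key hy h1 h2
  obtain ⟨j', hj', hj0', h'⟩ := key hy' h1' h2'
  obtain ⟨O, hO, a1, a2, a3⟩ := octad_three none (pt 0) j
  obtain ⟨O', hO', a1', a2', a3'⟩ := octad_three none (pt 0) j'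
  obtain ⟨σ, hσ, s1, s2, s3, _⟩ := tr2 hpq hO a1 a2 hO' a1' a2' a3 hj hj0 a3' hj' hj0'
  refine ⟨perm σ hσ, perm_GH hσ s1 s2, ?_⟩
  apply perm_eq
  intro i
  rw [h', h, single_eq s1, single_eq s3]

/-- combination -/
theorem combine {y y' : leechLattice} {d a : ℤ}
    (hd : (y : GolayPt → ℤ) (pt 0) - (y : GolayPt → ℤ) none = d) (hd' : (y' : GolayPt → ℤ) (pt 0) - (y' : GolayPt → ℤ) none = d)
    (hr : ∃ g ∈ GH, g • y ∈ SV ∧ ((g • y : leechLattice) : GolayPt → ℤ) none = a)
    (hr' : ∃ g ∈ GH, g • y' ∈ SV ∧ ((g • y' : leechLattice) : GolayPt → ℤ) none = a)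
    (hb : ∀ z z' : leechLattice, z ∈ SV → z' ∈ SV → (z : GolayPt → ℤ) none = a → (z' : GolayPt → ℤ) none = a →
      (z : GolayPt → ℤ) (pt 0) = a + d → (z' : GolayPt → ℤ) (pt 0) = a + d → ∃ g ∈ GH, g • z = z') :
    ∃ g ∈ GH, g • y = y' := by
  obtain ⟨g, hg, g1, g2⟩ := hr
  obtain ⟨g', hg', g1', g2'⟩ := hr'
  have e := GH_diff hg y
  have e' := GH_diff hg' y'
  obtain ⟨k, hk, hk2⟩ := hb _ _ g1 g1' g2 g2' (by linarith) (by linarith)
  refine ⟨g'⁻¹ * k * g, GH.mul_mem (GH.mul_mem (GH.inv_mem hg') hk) hg, ?_⟩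
  rw [mul_smul, mul_smul, hk2, inv_smul_smul]

theorem class_trans {y y' : leechLattice} (hy : y ∈ SV) (hy' : y' ∈ SV) {d : ℤ} (hdc : d = -2 ∨ d = 0 ∨ d = 2 ∨ d = 4)
    (hd : (y : GolayPt → ℤ) (pt 0) - (y : GolayPt → ℤ) none = d)
    (hd' : (y' : GolayPt → ℤ) (pt 0) - (y' : GolayPt → ℤ) none = d) : ∃ g ∈ GH, g • y = y' := by
  rcases hdc with rfl | rfl | rfl | rfl
  · exact combine hd hd' (reach_m hy hd) (reach_m hy' hd') (fun z z' a b c d e f => base_m a b c d (by linarith) (by linarith))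
  · exact combine hd hd' (reach_0 hy hd) (reach_0 hy' hd') (fun z z' a b c d e f => base_0 a b c d (by linarith) (by linarith))
  · exact combine hd hd' (reach_1 hy hd) (reach_1 hy' hd') (fun z z' a b c d e f => base_1 a b c d (by linarith) (by linarith))
  · exact combine hd hd' (reach_2 hy hd) (reach_2 hy' hd') (fun z z' a b c d e f => base_2 a b c d (by linarith) (by linarith))

/-- the values of the difference -/
theorem diff_cases {y : leechLattice} (hy : y ∈ SV) :
    (∃ d : ℤ, (d = -2 ∨ d = 0 ∨ d = 2 ∨ d = 4) ∧ (y : GolayPt → ℤ) (pt 0) - (y : GolayPt → ℤ) none = d) ∨ y = -u44 hpq := by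
  rcases sv_cases hy with ⟨j, hj, h⟩ | ⟨O, hO, hn, P, hP, hPn, hPc, h⟩ | ⟨O, hO, hn, h⟩ | ⟨c, hc, hc12, hn, h⟩ | ⟨O, hO, hn, k, hk, h⟩
  · have e1 := h none
    have e2 := h (pt 0)
    rw [Pi.single_eq_same, Pi.single_eq_of_ne hj.symm] at e1
    rw [Pi.single_eq_of_ne hpq.symm] at e2
    rcases single_cases j (pt 0) 4 with h4 | h4
    · right
      obtain ⟨rfl, _⟩ := h4
      apply Subtype.ext
      funext i
      rw [h]
      show _ = -((u44 hpq : GolayPt → ℤ) i)
      rw [coe_u44]
      by_cases i1 : i = none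
      · subst i1; rw [Pi.single_eq_same, Pi.single_eq_of_ne hpq, if_pos rfl]; norm_num
      · rw [Pi.single_eq_of_ne i1, if_neg i1]
        by_cases i2 : i = pt 0
        · subst i2; rw [Pi.single_eq_same, if_pos rfl]; norm_num
        · rw [Pi.single_eq_of_ne i2, if_neg i2]; norm_num
    · left
      exact ⟨4, by norm_num, by omega⟩
  · left
    have e1 := h none
    have e2 := h (pt 0)
    refine ⟨_, ?_, rfl⟩
    have h7 : pt 0 ∈ P → pt 0 ∈ O := fun h => hP h
    rcases ind_cases O none with h3 | h3 <;> rcases ind_cases P none with h4 | h4 <;>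
      rcases ind_cases O (pt 0) with h5 | h5 <;> rcases ind_cases P (pt 0) with h6 | h6 <;>
      first | exact absurd h4.1 hPn | exact absurd hn h3.1 | exact absurd (h7 h6.1) h5.1 | omega
  · left
    have e1 := h none
    have e2 := h (pt 0)
    refine ⟨_, ?_, rfl⟩
    rcases ind_cases O none with h3 | h3 <;> rcases ind_cases O (pt 0) with h5 | h5 <;>
      first | exact absurd h3.1 hn | omega
  · left
    have e1 := h none
    have e2 := h (pt 0)
    rw [Pi.single_eq_same] at e1
    rw [Pi.single_eq_of_ne hpq.symm] at e2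
    refine ⟨_, ?_, rfl⟩
    rcases ind_cases c none with h3 | h3 <;> rcases ind_cases c (pt 0) with h5 | h5 <;>
      first | exact absurd h3.1 hn | omega
  · left
    have e1 := h none
    have e2 := h (pt 0)
    have hkn : none ≠ k := fun h5 => hn (h5 ▸ hk)
    rw [Pi.single_eq_of_ne hkn] at e1
    refine ⟨_, ?_, rfl⟩
    rcases ind_cases O none with h3 | h3 <;> rcases ind_cases O (pt 0) with h5 | h5 <;>
      rcases single_cases k (pt 0) 4 with h4 | h4 <;>
      first | exact absurd h3.1 hn | (exfalso; exact h5.1 (h4.1 ▸ hk)) | omega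

end H9.HSRank
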