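import Cfsg.Agent.Lib.H9.HSRank3

set_option autoImplicit false

/-! The 11178 vectors: sizes of the four classes. -/

namespace H9.HSRank

open Cfsg Finset H9.Leech H9.ModTwo H9.LatticeIso H9.LeechGood H9.Trans H9.Cross H9.CoOrder H9.Co23
open H8.GolayCode H8.GolayBasic H8.GolayCount MulAction H63.LeechFrame H63.LeechHS H63.LeechMin
open H9.McLRank (hpq tr1 tr2 tr3 perm_eq ind_eq single_eq)

/-- vectors with given coordinates at the two points -/
def fib (a b : ℤ) : Set leechLattice := {y | y ∈ SV ∧ (y : GolayPt → ℤ) none = a ∧ (y : GolayPt → ℤ) (pt 0) = b}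

theorem ncard_fib {a b : ℤ} {T : Type} (f : T → leechLattice) (hf : Function.Injective f) (h1 : ∀ t, f t ∈ fib a b)
    (h2 : ∀ y ∈ fib a b, ∃ t, f t = y) : (fib a b).ncard = Nat.card T := by
  have : fib a b = Set.range f := by
    ext y
    constructor
    · intro hy; exact h2 y hy
    · rintro ⟨t, rfl⟩; exact h1 t
  rw [this, ← Nat.card_coe_set_eq, Nat.card_range_of_injective hf]

/-- vector `-2` on an octad -/
def g1 {O : Finset GolayPt} (hO : O ∈ octads) : leechLattice := ⟨_, H63.LeechMcL.neg_two_ind_mem hO.1⟩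
theorem coe_g1 {O : Finset GolayPt} (hO : O ∈ octads) (i : GolayPt) : (g1 hO : GolayPt → ℤ) i = -(2 * ind O i) := rfl

theorem g1_SV {O : Finset GolayPt} (hO : O ∈ octads) (h : none ∉ O) : g1 hO ∈ SV := by
  rw [mem_SV]
  refine ⟨H63.LeechMcL.neg_two_ind_norm hO.2, ?_⟩
  have h1 : ∑ i, (g1 hO : GolayPt → ℤ) i = -16 := H63.LeechMcL.sum_neg_two hO.2
  rw [h1, coe_g1]
  unfold ind
  rw [if_neg h]; norm_num

theorem g1_inj {O O' : Finset GolayPt} {hO : O ∈ octads} {hO' : O' ∈ octads} (h : g1 hO = g1 hO') : O = O' := by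
  ext i
  have h1 := congrFun (congrArg Subtype.val h) i
  have h2 : (g1 hO : GolayPt → ℤ) i = (g1 hO' : GolayPt → ℤ) i := h1
  rw [coe_g1, coe_g1] at h2
  rcases ind_cases O i with h3 | h3 <;> rcases ind_cases O' i with h4 | h4 <;> simp only [h3.1, h4.1] <;> omega

/-- vector of the second shape -/
def g2 {O : Finset GolayPt} (hO : O ∈ octads) (k : GolayPt) : leechLattice := ⟨_, H63.LeechMcL.type3_mem hO.1 k⟩
theorem coe_g2 {O : Finset GolayPt} (hO : O ∈ octads) (k i : GolayPt) :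
    (g2 hO k : GolayPt → ℤ) i = 2 * ind O i - 1 - (Pi.single k 4 : GolayPt → ℤ) i := rfl

theorem g2_SV {O : Finset GolayPt} (hO : O ∈ octads) (h : none ∉ O) {k : GolayPt} (hk : k ∈ O) : g2 hO k ∈ SV := by
  rw [mem_SV]
  refine ⟨H63.LeechMcL.type3_norm hk, ?_⟩
  have h1 : ∑ i, (g2 hO k : GolayPt → ℤ) i = -12 := H63.LeechMcL.sum_type3 hO.2 k
  rw [h1, coe_g2, Pi.single_eq_of_ne (show none ≠ k from fun h2 => h (h2 ▸ hk))]
  unfold ind
  rw [if_neg h]; norm_num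

theorem g2_inj {O O' : Finset GolayPt} {hO : O ∈ octads} {hO' : O' ∈ octads} {k k' : GolayPt} (hk : k ∈ O) (hk' : k' ∈ O')
    (h : g2 hO k = g2 hO' k') : O = O' ∧ k = k' := by
  have h2 : ∀ i, (g2 hO k : GolayPt → ℤ) i = (g2 hO' k' : GolayPt → ℤ) i := fun i => congrFun (congrArg Subtype.val h) i
  have hkk : k = k' := by
    have h3 := h2 k
    rw [coe_g2, coe_g2, Pi.single_eq_same] at h3
    rcases single_cases k' k 4 with h4 | h4
    · exact h4.1
    · rcases ind_cases O k with h5 | h5 <;> rcases ind_cases O' k with h6 | h6 <;> omega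
  subst hkk
  refine ⟨?_, rfl⟩
  ext i
  have h3 := h2 i
  rw [coe_g2, coe_g2] at h3
  rcases ind_cases O i with h5 | h5 <;> rcases ind_cases O' i with h6 | h6 <;> simp only [h5.1, h6.1] <;> omega

/-- vector of the third shape -/
theorem g3_mem {O P : Finset GolayPt} (hO : O ∈ octads) (hP : P.card = 2) :
    (fun i => 4 * ind P i - 2 * ind O i) ∈ leechLattice := by
  obtain ⟨a, b, hab, rfl⟩ := card_eq_two.mp hP
  have h := leechLattice.sub_mem (four_mem hab (a := 1) (b := 1) (by norm_num)) (two_ind_mem hO.1)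
  convert h using 1
  funext i
  rw [Pi.sub_apply, Pi.add_apply, Pi.single_apply, Pi.single_apply]
  unfold ind
  simp only [mem_insert, mem_singleton]
  by_cases h1 : i = a
  · subst h1
    rw [if_pos (Or.inl rfl), if_pos rfl, if_neg hab]; ring
  · by_cases h2 : i = b
    · subst h2
      rw [if_pos (Or.inr rfl), if_neg h1, if_pos rfl]; ring
    · rw [if_neg (by tauto), if_neg h1, if_neg h2]; ring

def g3 {O P : Finset GolayPt} (hO : O ∈ octads) (hP : P.card = 2) : leechLattice := ⟨_, g3_mem hO hP⟩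
theorem coe_g3 {O P : Finset GolayPt} (hO : O ∈ octads) (hP : P.card = 2) (i : GolayPt) :
    (g3 hO hP : GolayPt → ℤ) i = 4 * ind P i - 2 * ind O i := rfl

theorem g3_SV {O P : Finset GolayPt} (hO : O ∈ octads) (hP : P.card = 2) (h : none ∈ O) (hPO : P ⊆ O) (hn : none ∉ P) :
    g3 hO hP ∈ SV := by
  rw [mem_SV]
  constructor
  · unfold sqNorm
    have h1 : ∀ i, (g3 hO hP : GolayPt → ℤ) i ^ 2 = 4 * ind O i := by
      intro i
      rw [coe_g3]
      rcases ind_cases O i with h5 | h5 <;> rcases ind_cases P i with h6 | h6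
      · rw [h5.2, h6.2]; norm_num
      · rw [h5.2, h6.2]; norm_num
      · exact absurd (hPO h6.1) h5.1
      · rw [h5.2, h6.2]; norm_num
    rw [sum_congr rfl fun i _ => h1 i, ← mul_sum, sum_ind, hO.2]; norm_num
  · have h1 : ∑ i, (g3 hO hP : GolayPt → ℤ) i = -8 := by
      rw [sum_congr rfl fun i _ => coe_g3 hO hP i, sum_sub_distrib, ← mul_sum, ← mul_sum, sum_ind, sum_ind, hO.2, hP]; norm_num
    rw [h1, coe_g3]
    unfold ind
    rw [if_neg hn, if_pos h]; norm_num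

theorem g3_inj {O O' P P' : Finset GolayPt} {hO : O ∈ octads} {hO' : O' ∈ octads} {hP : P.card = 2} {hP' : P'.card = 2}
    (h : g3 hO hP = g3 hO' hP') (hPO : P ⊆ O) (hPO' : P' ⊆ O') : O = O' ∧ P = P' := by
  have h2 : ∀ i, (g3 hO hP : GolayPt → ℤ) i = (g3 hO' hP' : GolayPt → ℤ) i := fun i => congrFun (congrArg Subtype.val h) i
  constructor <;> ext i <;> have h3 := h2 i <;> rw [coe_g3, coe_g3] at h3 <;>
    have a1 := @hPO i <;> have a2 := @hPO' i <;>
    rcases ind_cases O i with h5 | h5 <;> rcases ind_cases O' i with h6 | h6 <;>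
    rcases ind_cases P i with h7 | h7 <;> rcases ind_cases P' i with h8 | h8 <;>
    simp only [h5.1, h6.1, h7.1, h8.1, true_implies, imp_false, not_true_eq_false] at a1 a2 ⊢ <;> omega

/-- vector of the fourth shape -/
theorem g4_mem {c : Finset GolayPt} (hc : c ∈ GS) :
    (fun i => 1 - 2 * ind c i - (Pi.single none 4 : GolayPt → ℤ) i) ∈ leechLattice := by
  have h := leechLattice.sub_mem (one_sub_mem none) (two_ind_mem hc)
  convert h using 1
  funext i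
  rw [Pi.sub_apply]; ring

def g4 {c : Finset GolayPt} (hc : c ∈ GS) : leechLattice := ⟨_, g4_mem hc⟩
theorem coe_g4 {c : Finset GolayPt} (hc : c ∈ GS) (i : GolayPt) :
    (g4 hc : GolayPt → ℤ) i = 1 - 2 * ind c i - (Pi.single none 4 : GolayPt → ℤ) i := rfl

theorem g4_SV {c : Finset GolayPt} (hc : c ∈ GS) (h12 : c.card = 12) (h : none ∉ c) : g4 hc ∈ SV := by
  rw [mem_SV]
  constructor
  · unfold sqNorm
    have h1 : ∀ i, (g4 hc : GolayPt → ℤ) i ^ 2 = 1 + (Pi.single none 8 : GolayPt → ℤ) i := by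
      intro i
      rw [coe_g4]
      by_cases hi : i = none
      · subst hi
        rw [Pi.single_eq_same, Pi.single_eq_same]
        unfold ind
        rw [if_neg h]; norm_num
      · rw [Pi.single_eq_of_ne hi, Pi.single_eq_of_ne hi]
        rcases ind_cases c i with h5 | h5 <;> rw [h5.2] <;> norm_num
    rw [sum_congr rfl fun i _ => h1 i, sum_add_distrib, H9.Leech.sum_const]
    simp [Pi.single_apply]
  · have h1 : ∑ i, (g4 hc : GolayPt → ℤ) i = -4 := by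
      rw [sum_congr rfl fun i _ => coe_g4 hc i, sum_sub_distrib, sum_sub_distrib, ← mul_sum, sum_ind, h12,
        H9.Leech.sum_const]
      simp [Pi.single_apply]
    rw [h1, coe_g4, Pi.single_eq_same]
    unfold ind
    rw [if_neg h]; norm_num

theorem g4_inj {c c' : Finset GolayPt} {hc : c ∈ GS} {hc' : c' ∈ GS} (h : g4 hc = g4 hc') : c = c' := by
  ext i
  have h1 := congrFun (congrArg Subtype.val h) i
  have h2 : (g4 hc : GolayPt → ℤ) i = (g4 hc' : GolayPt → ℤ) i := h1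
  rw [coe_g4, coe_g4] at h2
  rcases ind_cases c i with h3 | h3 <;> rcases ind_cases c' i with h4 | h4 <;> simp only [h3.1, h4.1] <;> omega

/-! ### the fibres -/

theorem ind_mem {O : Finset GolayPt} {i : GolayPt} (h : i ∈ O) : ind O i = 1 := if_pos h
theorem ind_not {O : Finset GolayPt} {i : GolayPt} (h : i ∉ O) : ind O i = 0 := if_neg h

/-- a case split usable for every fibre: shapes and the value at `∞` -/
theorem sv_shape {y : leechLattice} (hy : y ∈ SV) :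
    ((y : GolayPt → ℤ) none = -4 ∧ ∃ j, j ≠ none ∧ ∀ i, (y : GolayPt → ℤ) i = (Pi.single none (-4) : GolayPt → ℤ) i + (Pi.single j 4 : GolayPt → ℤ) i) ∨
      ((y : GolayPt → ℤ) none = -2 ∧ ∃ O, ∃ hO : O ∈ octads, none ∈ O ∧ ∃ P : Finset GolayPt, P ⊆ O ∧ none ∉ P ∧ ∃ hP : P.card = 2, g3 hO hP = y) ∨
      ((y : GolayPt → ℤ) none = 0 ∧ ∃ O, ∃ hO : O ∈ octads, none ∉ O ∧ g1 hO = y) ∨
      ((y : GolayPt → ℤ) none = -3 ∧ ∃ c, ∃ hc : c ∈ GS, c.card = 12 ∧ none ∉ c ∧ g4 hc = y) ∨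
      ((y : GolayPt → ℤ) none = -1 ∧ ∃ O, ∃ hO : O ∈ octads, none ∉ O ∧ ∃ k ∈ O, g2 hO k = y) := by
  rcases sv_cases hy with ⟨j, hj, h⟩ | ⟨O, hO, hn, P, hP, hPn, hPc, h⟩ | ⟨O, hO, hn, h⟩ | ⟨c, hc, hc12, hn, h⟩ | ⟨O, hO, hn, k, hk, h⟩
  · left
    refine ⟨?_, j, hj, h⟩
    rw [h, Pi.single_eq_same, Pi.single_eq_of_ne hj.symm]; norm_num
  · right; left
    refine ⟨?_, O, hO, hn, P, hP, hPn, hPc, ?_⟩
    · rw [h, ind_not hPn, ind_mem hn]; norm_num
    · apply Subtype.ext; funext i; rw [coe_g3]; exact (h i).symm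
  · right; right; left
    refine ⟨?_, O, hO, hn, ?_⟩
    · rw [h, ind_not hn]; norm_num
    · apply Subtype.ext; funext i; rw [coe_g1]; exact (h i).symm
  · right; right; right; left
    refine ⟨?_, c, hc, hc12, hn, ?_⟩
    · rw [h, ind_not hn, Pi.single_eq_same]; norm_num
    · apply Subtype.ext; funext i; rw [coe_g4]; exact (h i).symm
  · right; right; right; right
    refine ⟨?_, O, hO, hn, k, hk, ?_⟩
    · rw [h, ind_not hn, Pi.single_eq_of_ne (show none ≠ k from fun h2 => hn (h2 ▸ hk))]; norm_num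
    · apply Subtype.ext; funext i; rw [coe_g2]; exact (h i).symm

theorem fib_0m2 : (fib 0 (-2)).ncard = 176 := by
  rw [ncard_fib (T := {O : Finset GolayPt // O ∈ octads ∧ pt 0 ∈ O ∧ none ∉ O}) (fun O => g1 O.2.1)
    (fun a b h => Subtype.ext (g1_inj h)), card_oct10 hpq.symm]
  · intro O
    exact ⟨g1_SV O.2.1 O.2.2.2, by rw [coe_g1, ind_not O.2.2.2]; norm_num, by rw [coe_g1, ind_mem O.2.2.1]; norm_num⟩
  · rintro y ⟨hy, h1, h2⟩
    rcases sv_shape hy with ⟨a, _⟩ | ⟨a, _⟩ | ⟨a, O, hO, hn, rfl⟩ | ⟨a, _⟩ | ⟨a, _⟩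
    · omega
    · omega
    · rw [coe_g1] at h2
      rcases ind_cases O (pt 0) with h3 | h3
      · exact ⟨⟨O, hO, h3.1, hn⟩, rfl⟩
      · omega
    · omega
    · omega

theorem fib_00 : (fib 0 0).ncard = 330 := by
  rw [ncard_fib (T := {O : Finset GolayPt // O ∈ octads ∧ none ∉ O ∧ pt 0 ∉ O}) (fun O => g1 O.2.1)
    (fun a b h => Subtype.ext (g1_inj h)), card_oct0 hpq]
  · intro O
    exact ⟨g1_SV O.2.1 O.2.2.1, by rw [coe_g1, ind_not O.2.2.1]; norm_num, by rw [coe_g1, ind_not O.2.2.2]; norm_num⟩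
  · rintro y ⟨hy, h1, h2⟩
    rcases sv_shape hy with ⟨a, _⟩ | ⟨a, _⟩ | ⟨a, O, hO, hn, rfl⟩ | ⟨a, _⟩ | ⟨a, _⟩
    · omega
    · omega
    · rw [coe_g1] at h2
      rcases ind_cases O (pt 0) with h3 | h3
      · omega
      · exact ⟨⟨O, hO, hn, h3.1⟩, rfl⟩
    · omega
    · omega

theorem fib_m1m3 : (fib (-1) (-3)).ncard = 176 := by
  rw [ncard_fib (T := {O : Finset GolayPt // O ∈ octads ∧ pt 0 ∈ O ∧ none ∉ O}) (fun O => g2 O.2.1 (pt 0))
    (fun a b h => Subtype.ext (g2_inj a.2.2.1 b.2.2.1 h).1), card_oct10 hpq.symm]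
  · intro O
    exact ⟨g2_SV O.2.1 O.2.2.2 O.2.2.1, by rw [coe_g2, ind_not O.2.2.2, Pi.single_eq_of_ne hpq]; norm_num,
      by rw [coe_g2, ind_mem O.2.2.1, Pi.single_eq_same]; norm_num⟩
  · rintro y ⟨hy, h1, h2⟩
    rcases sv_shape hy with ⟨a, _⟩ | ⟨a, _⟩ | ⟨a, _⟩ | ⟨a, _⟩ | ⟨a, O, hO, hn, k, hk, rfl⟩
    · omega
    · omega
    · omega
    · omega
    · rw [coe_g2] at h2
      rcases single_cases k (pt 0) 4 with h4 | h4
      · obtain ⟨rfl, _⟩ := h4
        exact ⟨⟨O, hO, hk, hn⟩, rfl⟩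
      · rcases ind_cases O (pt 0) with h3 | h3 <;> omega

theorem card_S3 : Nat.card ((O : {O : Finset GolayPt // O ∈ octads ∧ none ∉ O ∧ pt 0 ∉ O}) × {k : GolayPt // k ∈ O.1}) = 2640 := by
  classical
  rw [Nat.card_sigma, sum_congr rfl (g := fun _ => 8)]
  · rw [Finset.sum_const, card_univ, ← Nat.card_eq_fintype_card, card_oct0 hpq]; rfl
  · intro O _
    rw [Nat.card_eq_fintype_card, Fintype.card_coe, O.2.1.2]

theorem fib_m1m1 : (fib (-1) (-1)).ncard = 2640 := by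
  rw [ncard_fib (T := (O : {O : Finset GolayPt // O ∈ octads ∧ none ∉ O ∧ pt 0 ∉ O}) × {k : GolayPt // k ∈ O.1})
    (fun x => g2 x.1.2.1 x.2.1), card_S3]
  · rintro ⟨⟨O, hO, h1, h2⟩, k, hk⟩ ⟨⟨O', hO', h1', h2'⟩, k', hk'⟩ h
    obtain ⟨rfl, rfl⟩ := g2_inj hk hk' h
    rfl
  · rintro ⟨⟨O, hO, h1, h2⟩, k, hk⟩
    exact ⟨g2_SV hO h1 hk, by rw [coe_g2, ind_not h1, Pi.single_eq_of_ne (show none ≠ k from fun h3 => h1 (h3 ▸ hk))]; norm_num,
      by rw [coe_g2, ind_not h2, Pi.single_eq_of_ne (show pt 0 ≠ k from fun h3 => h2 (h3 ▸ hk))]; norm_num⟩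
  · rintro y ⟨hy, h1, h2⟩
    rcases sv_shape hy with ⟨a, _⟩ | ⟨a, _⟩ | ⟨a, _⟩ | ⟨a, _⟩ | ⟨a, O, hO, hn, k, hk, rfl⟩
    · omega
    · omega
    · omega
    · omega
    · rw [coe_g2] at h2
      have h5 : pt 0 ∉ O := by
        rcases single_cases k (pt 0) 4 with h4 | h4 <;> rcases ind_cases O (pt 0) with h3 | h3 <;>
          first | exact h3.1 | omega
      exact ⟨⟨⟨O, hO, hn, h5⟩, k, hk⟩, rfl⟩

theorem card_S1 : Nat.card ((O : {O : Finset GolayPt // O ∈ octads ∧ none ∈ O ∧ pt 0 ∈ O}) ×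
    {P : Finset GolayPt // P ∈ powersetCard 2 ((O.1.erase none).erase (pt 0))}) = 1155 := by
  classical
  rw [Nat.card_sigma, sum_congr rfl (g := fun _ => 15)]
  · rw [Finset.sum_const, card_univ, ← Nat.card_eq_fintype_card, card_oct2 hpq]; rfl
  · intro O _
    rw [Nat.card_eq_fintype_card, Fintype.card_coe, card_powersetCard, card_erase_of_mem, card_erase_of_mem O.2.2.1,
      O.2.1.2]
    · rfl
    · exact mem_erase.mpr ⟨hpq.symm, O.2.2.2⟩

theorem fib_m2m2 : (fib (-2) (-2)).ncard = 1155 := by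
  have hsub : ∀ {O P : Finset GolayPt}, P ∈ powersetCard 2 ((O.erase none).erase (pt 0)) →
      P ⊆ O ∧ none ∉ P ∧ pt 0 ∉ P ∧ P.card = 2 := by
    intro O P hP
    rw [mem_powersetCard] at hP
    refine ⟨fun i hi => mem_of_mem_erase (mem_of_mem_erase (hP.1 hi)), fun h => ?_, fun h => ?_, hP.2⟩
    · have := mem_of_mem_erase (hP.1 h)
      exact absurd rfl (ne_of_mem_erase this)
    · exact absurd rfl (ne_of_mem_erase (hP.1 h))
  rw [ncard_fib (T := (O : {O : Finset GolayPt // O ∈ octads ∧ none ∈ O ∧ pt 0 ∈ O}) ×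
    {P : Finset GolayPt // P ∈ powersetCard 2 ((O.1.erase none).erase (pt 0))})
    (fun x => g3 x.1.2.1 (hsub x.2.2).2.2.2), card_S1]
  · rintro ⟨⟨O, hO, h1, h2⟩, P, hP⟩ ⟨⟨O', hO', h1', h2'⟩, P', hP'⟩ h
    obtain ⟨rfl, rfl⟩ := g3_inj h (hsub hP).1 (hsub hP').1
    rfl
  · rintro ⟨⟨O, hO, h1, h2⟩, P, hP⟩
    obtain ⟨p1, p2, p3, p4⟩ := hsub hP
    exact ⟨g3_SV hO p4 h1 p1 p2, by rw [coe_g3, ind_not p2, ind_mem h1]; norm_num,
      by rw [coe_g3, ind_not p3, ind_mem h2]; norm_num⟩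
  · rintro y ⟨hy, h1, h2⟩
    rcases sv_shape hy with ⟨a, _⟩ | ⟨a, O, hO, hn, P, hPO, hnP, hP, rfl⟩ | ⟨a, _⟩ | ⟨a, _⟩ | ⟨a, _⟩
    · omega
    · rw [coe_g3] at h2
      have h5 : pt 0 ∈ O ∧ pt 0 ∉ P := by
        rcases ind_cases P (pt 0) with h4 | h4 <;> rcases ind_cases O (pt 0) with h3 | h3 <;>
          first | exact ⟨h3.1, h4.1⟩ | omega
      refine ⟨⟨⟨O, hO, hn, h5.1⟩, P, ?_⟩, rfl⟩
      rw [mem_powersetCard]
      refine ⟨fun i hi => mem_erase.mpr ⟨fun h => h5.2 (h ▸ hi), mem_erase.mpr ⟨fun h => hnP (h ▸ hi), hPO hi⟩⟩, hP⟩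
    · omega
    · omega
    · omega

theorem fib_m22 : (fib (-2) 2).ncard = 462 := by
  have hc : ∀ a : GolayPt, a ≠ pt 0 → ({pt 0, a} : Finset GolayPt).card = 2 := fun a ha => card_pair ha.symm
  rw [ncard_fib (T := (O : {O : Finset GolayPt // O ∈ octads ∧ none ∈ O ∧ pt 0 ∈ O}) ×
    {j : GolayPt // j ∈ O.1 ∧ j ≠ none ∧ j ≠ pt 0})
    (fun x => g3 x.1.2.1 (hc x.2.1 x.2.2.2.2)), H63.LeechMcL.card_T2 hpq]
  · rintro ⟨⟨O, hO, h1, h2⟩, a, ha1, ha2, ha3⟩ ⟨⟨O', hO', h1', h2'⟩, a', ha1', ha2', ha3'⟩ h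
    obtain ⟨rfl, h3⟩ := g3_inj h (insert_subset h2 (singleton_subset_iff.mpr ha1))
      (insert_subset h2' (singleton_subset_iff.mpr ha1'))
    have h4 : a ∈ ({pt 0, a'} : Finset GolayPt) := by rw [← h3]; simp
    rw [mem_insert, mem_singleton] at h4
    rcases h4 with h4 | h4
    · exact absurd h4 ha3
    · subst h4; rfl
  · rintro ⟨⟨O, hO, h1, h2⟩, a, ha1, ha2, ha3⟩
    have hn : none ∉ ({pt 0, a} : Finset GolayPt) := by
      rw [mem_insert, mem_singleton, not_or]; exact ⟨hpq, ha2.symm⟩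
    exact ⟨g3_SV hO _ h1 (insert_subset h2 (singleton_subset_iff.mpr ha1)) hn,
      by rw [coe_g3, ind_not hn, ind_mem h1]; norm_num,
      by rw [coe_g3, ind_mem (mem_insert_self _ _), ind_mem h2]; norm_num⟩
  · rintro y ⟨hy, h1, h2⟩
    rcases sv_shape hy with ⟨a, _⟩ | ⟨a, O, hO, hn, P, hPO, hnP, hP, rfl⟩ | ⟨a, _⟩ | ⟨a, _⟩ | ⟨a, _⟩
    · omega
    · rw [coe_g3] at h2
      have h5 : pt 0 ∈ O ∧ pt 0 ∈ P := by
        rcases ind_cases P (pt 0) with h4 | h4 <;> rcases ind_cases O (pt 0) with h3 | h3 <;>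
          first | exact ⟨h3.1, h4.1⟩ | omega
      obtain ⟨b, hb⟩ : ∃ b, P.erase (pt 0) = {b} := card_eq_one.mp (by rw [card_erase_of_mem h5.2, hP])
      have hbP : b ∈ P.erase (pt 0) := by rw [hb]; exact mem_singleton_self b
      rw [mem_erase] at hbP
      have hPeq : P = {pt 0, b} := by rw [← hb, insert_erase h5.2]
      subst hPeq
      exact ⟨⟨⟨O, hO, hn, h5.1⟩, b, hPO hbP.2, fun h => hnP (h ▸ hbP.2), hbP.1⟩, rfl⟩
    · omega
    · omega
    · omega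

def g0 {k : GolayPt} (hk : k ≠ none) : leechLattice :=
  ⟨_, four_mem (p := none) (q := k) hk.symm (a := -1) (b := 1) (by norm_num)⟩

theorem coe_g0 {k : GolayPt} (hk : k ≠ none) (i : GolayPt) : (g0 hk : GolayPt → ℤ) i =
    (Pi.single none (-4) : GolayPt → ℤ) i + (Pi.single k 4 : GolayPt → ℤ) i := by
  show (Pi.single none (4 * -1) + Pi.single k (4 * 1) : GolayPt → ℤ) i = _
  norm_num

theorem fib_m40 : (fib (-4) 0).ncard = 22 := by
  rw [ncard_fib (T := {k : GolayPt // k ≠ none ∧ k ≠ pt 0}) (fun k => g0 k.2.1)]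
  · exact H9.M24Stab.card_ne_ne hpq
  · rintro ⟨k, hk1, hk2⟩ ⟨k', hk1', hk2'⟩ h
    have h1 := congrFun (congrArg Subtype.val h) k
    have h2 : (g0 hk1 : GolayPt → ℤ) k = (g0 hk1' : GolayPt → ℤ) k := h1
    rw [coe_g0, coe_g0, Pi.single_eq_same] at h2
    apply Subtype.ext
    show k = k'
    rcases single_cases k' k 4 with h4 | h4
    · exact h4.1
    · omega
  · rintro ⟨k, hk1, hk2⟩
    refine ⟨?_, ?_, ?_⟩
    · rw [mem_SV]
      constructor
      · show sqNorm (Pi.single none (4 * -1) + Pi.single k (4 * 1) : GolayPt → ℤ) = 32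
        rw [norm_four hk1.symm]; norm_num
      · have e1 : ∑ i, (g0 hk1 : GolayPt → ℤ) i = 4 * -1 + 4 * 1 := sum_single_add none k (4 * -1) (4 * 1)
        rw [e1]
        show _ + 4 * (g0 hk1 : GolayPt → ℤ) none = _
        rw [coe_g0, Pi.single_eq_same, Pi.single_eq_of_ne hk1.symm]; norm_num
    · show (g0 hk1 : GolayPt → ℤ) none = -4
      rw [coe_g0, Pi.single_eq_same, Pi.single_eq_of_ne hk1.symm]; norm_num
    · show (g0 hk1 : GolayPt → ℤ) (pt 0) = 0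
      rw [coe_g0, Pi.single_eq_of_ne hpq.symm, Pi.single_eq_of_ne hk2.symm]; norm_num
  · rintro y ⟨hy, h1, h2⟩
    rcases sv_shape hy with ⟨a, j, hj, h⟩ | ⟨a, _⟩ | ⟨a, _⟩ | ⟨a, _⟩ | ⟨a, _⟩
    · have hj0 : j ≠ pt 0 := by
        rintro rfl
        rw [h, Pi.single_eq_of_ne hpq.symm, Pi.single_eq_same] at h2
        omega
      refine ⟨⟨j, hj, hj0⟩, ?_⟩
      apply Subtype.ext; funext i
      show (g0 hj : GolayPt → ℤ) i = _
      rw [coe_g0, h]
    · omega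
    · omega
    · omega
    · omega

def tst616 (n : ℕ) : Bool := Nat.beq (pop n) 12 && (!n.testBit 23 && !n.testBit 0)

theorem card_S4 : Nat.card {c : Finset GolayPt // c ∈ GS ∧ c.card = 12 ∧ none ∉ c ∧ pt 0 ∉ c} = 616 := by
  have h1 := ncard_supports tst616
  have h2 : cntB tst616 basisL 0 = 616 := by decide +kernel
  rw [h2] at h1
  rw [← h1, ← Nat.card_coe_set_eq]
  apply Nat.card_congr
  apply Equiv.subtypeEquivRight
  intro c
  rw [Set.mem_setOf_eq]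
  have h3 : tst616 (mk (ofSupp c)) = true ↔ c.card = 12 ∧ none ∉ c ∧ pt 0 ∉ c := by
    unfold tst616
    rw [Bool.and_eq_true, Bool.and_eq_true, Nat.beq_eq, pop_mk, support_ofSupp, Bool.not_eq_true', Bool.not_eq_true',
      ← Bool.not_eq_true, ← Bool.not_eq_true]
    have h4 : ∀ p, (mk (ofSupp c)).testBit (idx p) = true ↔ p ∈ c := by
      intro p
      rw [← mem_support_wd, wd_mk, support_ofSupp]
    have h5 := h4 none
    have h6 := h4 (pt 0)
    have e1 : idx (none : GolayPt) = 23 := rfl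
    have e2 : idx (pt 0) = 0 := idx_pt 0 (by norm_num)
    rw [e1] at h5
    rw [e2] at h6
    rw [h5, h6]
  rw [h3]

theorem fib_m31 : (fib (-3) 1).ncard = 616 := by
  rw [ncard_fib (T := {c : Finset GolayPt // c ∈ GS ∧ c.card = 12 ∧ none ∉ c ∧ pt 0 ∉ c}) (fun c => g4 c.2.1)
    (fun a b h => Subtype.ext (g4_inj h)), card_S4]
  · intro c
    exact ⟨g4_SV c.2.1 c.2.2.1 c.2.2.2.1, by rw [coe_g4, ind_not c.2.2.2.1, Pi.single_eq_same]; norm_num,
      by rw [coe_g4, ind_not c.2.2.2.2, Pi.single_eq_of_ne hpq.symm]; norm_num⟩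
  · rintro y ⟨hy, h1, h2⟩
    rcases sv_shape hy with ⟨a, _⟩ | ⟨a, _⟩ | ⟨a, _⟩ | ⟨a, c, hc, h12, hn, rfl⟩ | ⟨a, _⟩
    · omega
    · omega
    · omega
    · rw [coe_g4, Pi.single_eq_of_ne hpq.symm] at h2
      rcases ind_cases c (pt 0) with h3 | h3
      · omega
      · exact ⟨⟨c, hc, h12, hn, h3.1⟩, rfl⟩
    · omega

end H9.HSRank
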