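import Cfsg.Agent.Lib.H9.HSRank4

set_option autoImplicit false

/-! The third Conway group on 11178 points: rank five. -/

namespace H9.HSRank

open Cfsg Finset H9.Leech H9.ModTwo H9.LatticeIso H9.LeechGood H9.Trans H9.Cross H9.CoOrder H9.Co23
open H8.GolayCode H8.GolayBasic H8.GolayCount MulAction H63.LeechFrame H63.LeechHS H63.LeechMin
open H9.McLRank (hpq orbit_conj mem_stab_conj)

/-- the coordinates at the two points -/
theorem vals {y : leechLattice} (hy : y ∈ SV) :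
    ((y : GolayPt → ℤ) none = -4 ∧ ((y : GolayPt → ℤ) (pt 0) = 0 ∨ (y : GolayPt → ℤ) (pt 0) = 4)) ∨
    ((y : GolayPt → ℤ) none = -2 ∧ ((y : GolayPt → ℤ) (pt 0) = -2 ∨ (y : GolayPt → ℤ) (pt 0) = 0 ∨ (y : GolayPt → ℤ) (pt 0) = 2)) ∨
    ((y : GolayPt → ℤ) none = 0 ∧ ((y : GolayPt → ℤ) (pt 0) = 0 ∨ (y : GolayPt → ℤ) (pt 0) = -2)) ∨
    ((y : GolayPt → ℤ) none = -3 ∧ ((y : GolayPt → ℤ) (pt 0) = 1 ∨ (y : GolayPt → ℤ) (pt 0) = -1)) ∨
    ((y : GolayPt → ℤ) none = -1 ∧ ((y : GolayPt → ℤ) (pt 0) = -3 ∨ (y : GolayPt → ℤ) (pt 0) = 1 ∨ (y : GolayPt → ℤ) (pt 0) = -1)) := by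
  rcases sv_shape hy with ⟨a, j, hj, h⟩ | ⟨a, O, hO, hn, P, hPO, hnP, hP, rfl⟩ | ⟨a, O, hO, hn, rfl⟩ |
    ⟨a, c, hc, h12, hn, rfl⟩ | ⟨a, O, hO, hn, k, hk, rfl⟩
  · have e := h (pt 0)
    rw [Pi.single_eq_of_ne hpq.symm] at e
    rcases single_cases j (pt 0) 4 with h4 | h4 <;> omega
  · have e := coe_g3 hO hP (pt 0)
    have h7 : pt 0 ∈ P → pt 0 ∈ O := fun h => hPO h
    rcases ind_cases P (pt 0) with h4 | h4 <;> rcases ind_cases O (pt 0) with h3 | h3 <;>
      first | exact absurd (h7 h4.1) h3.1 | omega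
  · have e := coe_g1 hO (pt 0)
    rcases ind_cases O (pt 0) with h3 | h3 <;> omega
  · have e := coe_g4 hc (pt 0)
    rw [Pi.single_eq_of_ne hpq.symm] at e
    rcases ind_cases c (pt 0) with h3 | h3 <;> omega
  · have e := coe_g2 hO k (pt 0)
    rcases ind_cases O (pt 0) with h3 | h3
    · rcases single_cases k (pt 0) 4 with h4 | h4 <;> omega
    · have hkp : k ≠ pt 0 := fun h => h3.1 (h ▸ hk)
      rw [Pi.single_eq_of_ne (Ne.symm hkp)] at e
      omega

/-- the classes -/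
def YY (d : ℤ) : Set leechLattice := {y | y ∈ SV ∧ (y : GolayPt → ℤ) (pt 0) - (y : GolayPt → ℤ) none = d}

theorem finite_SV : SV.Finite := by
  apply Set.finite_of_ncard_ne_zero
  rw [ncard_SS (form_v5 none)]; norm_num

theorem finite_YY (d : ℤ) : (YY d).Finite := finite_SV.subset (fun _ h => h.1)
theorem finite_fib (a b : ℤ) : (fib a b).Finite := finite_SV.subset (fun _ h => h.1)

theorem fib_disj {a b a' b' : ℤ} (h : a ≠ a') : Disjoint (fib a b) (fib a' b') := by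
  rw [Set.disjoint_left]
  rintro y ⟨_, h1, _⟩ ⟨_, h2, _⟩
  exact h (h1.symm.trans h2)

theorem YY_m2 : (YY (-2)).ncard = 352 := by
  have : YY (-2) = fib 0 (-2) ∪ fib (-1) (-3) := by
    ext y
    constructor
    · rintro ⟨hy, hd⟩
      rcases vals hy with ⟨a, b⟩ | ⟨a, b⟩ | ⟨a, b⟩ | ⟨a, b⟩ | ⟨a, b⟩
      · exfalso; omega
      · exfalso; omega
      · left; exact ⟨hy, a, by omega⟩
      · exfalso; omega
      · right; exact ⟨hy, a, by omega⟩
    · rintro (⟨hy, h1, h2⟩ | ⟨hy, h1, h2⟩) <;> exact ⟨hy, by omega⟩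
  rw [this, Set.ncard_union_eq (fib_disj (by norm_num)) (finite_fib _ _) (finite_fib _ _), fib_0m2, fib_m1m3]

theorem YY_0 : (YY 0).ncard = 4125 := by
  have : YY 0 = (fib (-2) (-2) ∪ fib 0 0) ∪ fib (-1) (-1) := by
    ext y
    constructor
    · rintro ⟨hy, hd⟩
      rcases vals hy with ⟨a, b⟩ | ⟨a, b⟩ | ⟨a, b⟩ | ⟨a, b⟩ | ⟨a, b⟩
      · exfalso; omega
      · left; left; exact ⟨hy, a, by omega⟩
      · left; right; exact ⟨hy, a, by omega⟩
      · exfalso; omega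
      · right; exact ⟨hy, a, by omega⟩
    · rintro ((⟨hy, h1, h2⟩ | ⟨hy, h1, h2⟩) | ⟨hy, h1, h2⟩) <;> exact ⟨hy, by omega⟩
  rw [this, Set.ncard_union_eq (Disjoint.union_left (fib_disj (by norm_num)) (fib_disj (by norm_num)))
    ((finite_fib _ _).union (finite_fib _ _)) (finite_fib _ _),
    Set.ncard_union_eq (fib_disj (by norm_num)) (finite_fib _ _) (finite_fib _ _), fib_m2m2, fib_00, fib_m1m1]

theorem YY_4 : (YY 4).ncard = 1100 := by
  have : YY 4 = (fib (-4) 0 ∪ fib (-2) 2) ∪ fib (-3) 1 := by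
    ext y
    constructor
    · rintro ⟨hy, hd⟩
      rcases vals hy with ⟨a, b⟩ | ⟨a, b⟩ | ⟨a, b⟩ | ⟨a, b⟩ | ⟨a, b⟩
      · left; left; exact ⟨hy, a, by omega⟩
      · left; right; exact ⟨hy, a, by omega⟩
      · exfalso; omega
      · right; exact ⟨hy, a, by omega⟩
      · exfalso; omega
    · rintro ((⟨hy, h1, h2⟩ | ⟨hy, h1, h2⟩) | ⟨hy, h1, h2⟩) <;> exact ⟨hy, by omega⟩
  rw [this, Set.ncard_union_eq (Disjoint.union_left (fib_disj (by norm_num)) (fib_disj (by norm_num)))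
    ((finite_fib _ _).union (finite_fib _ _)) (finite_fib _ _),
    Set.ncard_union_eq (fib_disj (by norm_num)) (finite_fib _ _) (finite_fib _ _), fib_m40, fib_m22, fib_m31]

theorem neg_u44_coord : ((-u44 hpq : leechLattice) : GolayPt → ℤ) none = -4 ∧
    ((-u44 hpq : leechLattice) : GolayPt → ℤ) (pt 0) = 4 := by
  constructor
  · show -((u44 hpq : GolayPt → ℤ) none) = -4
    rw [coe_u44, if_pos rfl]
  · show -((u44 hpq : GolayPt → ℤ) (pt 0)) = 4
    rw [coe_u44, if_neg hpq.symm, if_pos rfl]; norm_num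

theorem neg_u44_SV : -u44 hpq ∈ SV := by
  rw [mem_SS, form_neg_left, form_neg_right, form_neg_right, neg_neg, form_u44, form_v5_u44]
  exact ⟨rfl, rfl⟩

theorem SV_eq : SV = {-u44 hpq} ∪ YY (-2) ∪ YY 4 ∪ YY 0 ∪ YY 2 := by
  ext y
  constructor
  · intro hy
    rcases diff_cases hy with ⟨d, hd, h⟩ | rfl
    · rcases hd with rfl | rfl | rfl | rfl
      · left; left; left; right; exact ⟨hy, h⟩
      · left; right; exact ⟨hy, h⟩
      · right; exact ⟨hy, h⟩
      · left; left; right; exact ⟨hy, h⟩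
    · left; left; left; left; rfl
  · rintro ((((rfl | h) | h) | h) | h)
    · exact neg_u44_SV
    all_goals exact h.1

theorem YY_disj {d d' : ℤ} (h : d ≠ d') : Disjoint (YY d) (YY d') := by
  rw [Set.disjoint_left]
  rintro y ⟨_, h1⟩ ⟨_, h2⟩
  exact h (h1.symm.trans h2)

theorem single_disj {d : ℤ} (h : d ≠ 8) : Disjoint {-u44 hpq} (YY d) := by
  rw [Set.disjoint_left]
  rintro y rfl ⟨_, h2⟩
  rw [neg_u44_coord.1, neg_u44_coord.2] at h2
  omega

theorem YY_2 : (YY 2).ncard = 5600 := by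
  have h1 : SV.ncard = 11178 := ncard_SS (form_v5 none)
  rw [SV_eq, Set.ncard_union_eq
      (Disjoint.union_left (Disjoint.union_left (Disjoint.union_left (single_disj (by norm_num)) (YY_disj (by norm_num)))
        (YY_disj (by norm_num))) (YY_disj (by norm_num)))
      ((((Set.finite_singleton _).union (finite_YY _)).union (finite_YY _)).union (finite_YY _)) (finite_YY _),
    Set.ncard_union_eq
      (Disjoint.union_left (Disjoint.union_left (single_disj (by norm_num)) (YY_disj (by norm_num))) (YY_disj (by norm_num)))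
      (((Set.finite_singleton _).union (finite_YY _)).union (finite_YY _)) (finite_YY _),
    Set.ncard_union_eq (Disjoint.union_left (single_disj (by norm_num)) (YY_disj (by norm_num)))
      ((Set.finite_singleton _).union (finite_YY _)) (finite_YY _),
    Set.ncard_union_eq (single_disj (by norm_num)) (Set.finite_singleton _) (finite_YY _), Set.ncard_singleton,
    YY_m2, YY_4, YY_0] at h1
  omega

theorem orbit_YY {d : ℤ} (hd : d = -2 ∨ d = 0 ∨ d = 2 ∨ d = 4) {y : leechLattice} (hy : y ∈ YY d) :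
    orbit GH y = YY d := by
  ext z
  constructor
  · rintro ⟨⟨g, hg⟩, rfl⟩
    refine ⟨GH_SV hg hy.1, ?_⟩
    show ((g • y : leechLattice) : GolayPt → ℤ) (pt 0) - ((g • y : leechLattice) : GolayPt → ℤ) none = d
    rw [GH_diff hg]; exact hy.2
  · intro hz
    obtain ⟨g, hg, h⟩ := class_trans hy.1 hz.1 hd hy.2 hz.2
    exact ⟨⟨g, hg⟩, h⟩

theorem YY_nonempty {d : ℤ} {n : ℕ} (h : (YY d).ncard = n) (hn : n ≠ 0) : ∃ y, y ∈ YY d := by
  by_contra hcon
  push Not at hcon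
  have : YY d = ∅ := Set.eq_empty_iff_forall_notMem.mpr hcon
  rw [this, Set.ncard_empty] at h
  exact hn h.symm

/-- **rank five** -/
theorem rank_five {u x : leechLattice} (hu : form u u = 6) (hx : x ∈ SS u) :
    ∃ y₁ ∈ SS u, ∃ y₂ ∈ SS u, ∃ y₃ ∈ SS u, ∃ y₄ ∈ SS u,
      (orbit ↥(stabilizer Co0 u ⊓ stabilizer Co0 x) y₁).ncard = 352 ∧
      (orbit ↥(stabilizer Co0 u ⊓ stabilizer Co0 x) y₂).ncard = 1100 ∧
      (orbit ↥(stabilizer Co0 u ⊓ stabilizer Co0 x) y₃).ncard = 4125 ∧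
      (orbit ↥(stabilizer Co0 u ⊓ stabilizer Co0 x) y₄).ncard = 5600 ∧
      SS u = {x} ∪ orbit ↥(stabilizer Co0 u ⊓ stabilizer Co0 x) y₁ ∪ orbit ↥(stabilizer Co0 u ⊓ stabilizer Co0 x) y₂ ∪
        orbit ↥(stabilizer Co0 u ⊓ stabilizer Co0 x) y₃ ∪ orbit ↥(stabilizer Co0 u ⊓ stabilizer Co0 x) y₄ := by
  have hx2 := mem_SS.mp hx
  obtain ⟨g, g1, g2⟩ := pair_trans (v := u) (u := -x) (v' := v5 none) (u' := u44 hpq) hu
    (by rw [form_neg_left, form_neg_right, neg_neg, hx2.1]) (by rw [form_neg_right, hx2.2]; norm_num)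
    (form_v5 none) (form_u44 hpq) (form_v5_u44 hpq)
  have g3 : g • x = -u44 hpq := by rw [← g2, co0_neg, neg_neg]
  set K := stabilizer Co0 u ⊓ stabilizer Co0 x with hKdef
  have hK : ∀ k, k ∈ K ↔ g * k * g⁻¹ ∈ GH := by
    intro k
    have h1 : k • x = x ↔ (g * k * g⁻¹) • u44 hpq = u44 hpq := by
      rw [mem_stab_conj g3, co0_neg, neg_inj]
    rw [hKdef, Subgroup.mem_inf, mem_stabilizer_iff, mem_stabilizer_iff, mem_stab_conj g1, h1]
    exact Iff.rfl
  have hSS : ∀ y : leechLattice, y ∈ SS u ↔ g • y ∈ SV := by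
    intro y
    rw [mem_SS, mem_SS, co0_form, ← g1, co0_form]
  have horb : ∀ z y : leechLattice, y ∈ orbit K (g⁻¹ • z) ↔ g • y ∈ orbit GH z := by
    intro z y
    constructor
    · rintro ⟨⟨k, hk⟩, rfl⟩
      refine ⟨⟨g * k * g⁻¹, (hK k).mp hk⟩, ?_⟩
      show (g * k * g⁻¹) • z = g • k • g⁻¹ • z
      rw [mul_smul, mul_smul]
    · rintro ⟨⟨k, hk⟩, h⟩
      have h' : k • z = g • y := h
      refine ⟨⟨g⁻¹ * k * g, ?_⟩, ?_⟩
      · rw [hK]; have : g * (g⁻¹ * k * g) * g⁻¹ = k := by group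
        rw [this]; exact hk
      · show (g⁻¹ * k * g) • g⁻¹ • z = y
        rw [mul_smul, mul_smul, smul_inv_smul, h', inv_smul_smul]
  obtain ⟨z1, hz1⟩ := YY_nonempty YY_m2 (by norm_num)
  obtain ⟨z2, hz2⟩ := YY_nonempty YY_4 (by norm_num)
  obtain ⟨z3, hz3⟩ := YY_nonempty YY_0 (by norm_num)
  obtain ⟨z4, hz4⟩ := YY_nonempty YY_2 (by norm_num)
  have hmem : ∀ {z : leechLattice}, z ∈ SV → g⁻¹ • z ∈ SS u := by
    intro z hz
    rw [hSS, smul_inv_smul]; exact hz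
  have o1 := orbit_YY (by norm_num) hz1
  have o2 := orbit_YY (by norm_num) hz2
  have o3 := orbit_YY (by norm_num) hz3
  have o4 := orbit_YY (by norm_num) hz4
  refine ⟨g⁻¹ • z1, hmem hz1.1, g⁻¹ • z2, hmem hz2.1, g⁻¹ • z3, hmem hz3.1, g⁻¹ • z4, hmem hz4.1, ?_, ?_, ?_, ?_, ?_⟩
  · rw [orbit_conj hK, smul_inv_smul, o1, YY_m2]
  · rw [orbit_conj hK, smul_inv_smul, o2, YY_4]
  · rw [orbit_conj hK, smul_inv_smul, o3, YY_0]
  · rw [orbit_conj hK, smul_inv_smul, o4, YY_2]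
  · ext y
    rw [hSS, SV_eq, Set.mem_union, Set.mem_union, Set.mem_union, Set.mem_union, Set.mem_union, Set.mem_union,
      Set.mem_union, Set.mem_union, horb, horb, horb, horb, o1, o2, o3, o4, Set.mem_singleton_iff,
      Set.mem_singleton_iff, ← g3, (MulAction.injective g).eq_iff]

end H9.HSRank
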