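import Cfsg.Agent.Lib.H8.GolayBasic

set_option autoImplicit false

/-! Hexads of a dodecad. -/

namespace H9.Hexads

open Cfsg Finset H8.GolayCode H8.GolayCount H8.GolayBasic

theorem inter_dodecad {d o : Finset GolayPt} (hd : d ∈ dodecads) (ho : o ∈ octads) :
    (o ∩ d).card = 2 ∨ (o ∩ d).card = 4 ∨ (o ∩ d).card = 6 := by
  have h1 := card_symmDiff o d
  have h2 := weight_cases (symmDiff_mem ho.1 hd.1)
  have h3 : o.card = 8 := ho.2
  have h4 : d.card = 12 := hd.2
  have h5 : (o ∩ d).card ≤ 8 := by rw [← h3]; exact card_le_card inter_subset_left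
  omega

/-- S0385 -/
theorem hexads_steiner {d : Finset GolayPt} (hd : d ∈ dodecads) :
    IsSteinerSystem 5 6 {h : Finset {p : GolayPt // p ∈ d} |
      ∃ o ∈ octads, (o ∩ d).card = 6 ∧ h = Finset.subtype (fun p => p ∈ d) o} := by
  constructor
  · rintro h ⟨o, ho, h6, rfl⟩
    rw [card_subtype, filter_mem_eq_inter, h6]
  · intro s hs
    have hsc : (s.map (Function.Embedding.subtype _)).card = 5 := by rw [card_map, hs]
    obtain ⟨o, ⟨ho, hso⟩, hu⟩ := octads_steiner.2 _ hsc
    have hsd : s.map (Function.Embedding.subtype _) ⊆ o ∩ d := by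
      apply subset_inter hso
      intro x hx
      rw [mem_map] at hx
      obtain ⟨y, _, rfl⟩ := hx
      exact y.2
    have h6 : (o ∩ d).card = 6 := by
      have h1 := card_le_card hsd
      rw [hsc] at h1
      rcases inter_dodecad hd ho with h | h | h <;> omega
    refine ⟨_, ⟨⟨o, ho, h6, rfl⟩, ?_⟩, ?_⟩
    · intro x hx
      rw [mem_subtype]
      exact hso (by rw [mem_map]; exact ⟨x, hx, rfl⟩)
    · rintro h ⟨⟨o', ho', _, rfl⟩, hsub⟩
      have : o' = o := by
        apply hu
        refine ⟨ho', ?_⟩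
        intro x hx
        rw [mem_map] at hx
        obtain ⟨y, hy, rfl⟩ := hx
        exact mem_subtype.mp (hsub hy)
      rw [this]

theorem compl_dodecad {d : Finset GolayPt} (hd : d ∈ dodecads) : dᶜ ∈ dodecads := by
  refine ⟨compl_mem hd.1, ?_⟩
  rw [card_compl, card_pt, hd.2]

/-- number of octads meeting a dodecad in six points -/
theorem card_six {d : Finset GolayPt} (hd : d ∈ dodecads) :
    {o : Finset GolayPt | o ∈ octads ∧ (o ∩ d).card = 6}.ncard = 132 := by
  classical
  let O : Finset (Finset GolayPt) := univ.filter fun o => o ∈ octads ∧ (o ∩ d).card = 6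
  have hO : {o : Finset GolayPt | o ∈ octads ∧ (o ∩ d).card = 6} = (O : Set (Finset GolayPt)) := by
    ext o; simp [O]
  rw [hO, Set.ncard_coe_finset]
  have h1 : ∑ o ∈ O, ((o ∩ d).powersetCard 5).card = 6 * O.card := by
    rw [Finset.sum_const_nat (m := 6), mul_comm]
    intro o ho
    have : (o ∩ d).card = 6 := by simp only [O, mem_filter] at ho; exact ho.2.2
    rw [card_powersetCard, this]; rfl
  have h2 : ∑ o ∈ O, ((o ∩ d).powersetCard 5).card = (d.powersetCard 5).card := by
    rw [← card_biUnion]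
    · congr 1
      ext s
      simp only [mem_biUnion, mem_powersetCard, O, mem_filter, mem_univ, true_and]
      constructor
      · rintro ⟨o, _, hs, h5⟩
        exact ⟨hs.trans inter_subset_right, h5⟩
      · rintro ⟨hs, h5⟩
        obtain ⟨o, ⟨ho, hso⟩, _⟩ := octads_steiner.2 s h5
        have h6 : (o ∩ d).card = 6 := by
          have h1 := card_le_card (subset_inter hso hs)
          rw [h5] at h1
          rcases inter_dodecad hd ho with h | h | h <;> omega
        exact ⟨o, ⟨ho, h6⟩, subset_inter hso hs, h5⟩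
    · intro o ho o' ho' hne
      rw [mem_coe] at ho ho'
      simp only [O, mem_filter, mem_univ, true_and] at ho ho'
      rw [Function.onFun, disjoint_left]
      intro s hs hs'
      rw [mem_powersetCard] at hs hs'
      apply hne
      exact octad_unique ho.1 ho'.1 (le_of_eq hs.2.symm) (hs.1.trans inter_subset_left)
        (hs'.1.trans inter_subset_left)
  rw [h1, card_powersetCard, hd.2] at h2
  have : Nat.choose 12 5 = 792 := by decide
  omega

theorem card_two {d : Finset GolayPt} (hd : d ∈ dodecads) :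
    {o : Finset GolayPt | o ∈ octads ∧ (o ∩ d).card = 2}.ncard = 132 := by
  rw [← card_six (compl_dodecad hd)]
  congr 1
  ext o
  simp only [Set.mem_setOf_eq]
  constructor
  · rintro ⟨ho, h⟩
    refine ⟨ho, ?_⟩
    have h1 : o ∩ dᶜ = o \ d := by ext x; simp
    rw [h1]
    have := card_sdiff_add_card_inter o d
    have h8 : o.card = 8 := ho.2
    omega
  · rintro ⟨ho, h⟩
    refine ⟨ho, ?_⟩
    have h1 : o ∩ dᶜ = o \ d := by ext x; simp
    rw [h1] at h
    have := card_sdiff_add_card_inter o d
    have h8 : o.card = 8 := ho.2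
    omega

theorem card_four {d : Finset GolayPt} (hd : d ∈ dodecads) :
    {o : Finset GolayPt | o ∈ octads ∧ (o ∩ d).card = 4}.ncard = 495 := by
  have h2 := card_two hd
  have h6 := card_six hd
  have h : octads = ({o : Finset GolayPt | o ∈ octads ∧ (o ∩ d).card = 2} ∪
    {o : Finset GolayPt | o ∈ octads ∧ (o ∩ d).card = 6}) ∪
    {o : Finset GolayPt | o ∈ octads ∧ (o ∩ d).card = 4} := by
    ext o
    simp only [Set.mem_union, Set.mem_setOf_eq]
    constructor
    · intro ho
      rcases inter_dodecad hd ho with h | h | h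
      · exact Or.inl (Or.inl ⟨ho, h⟩)
      · exact Or.inr ⟨ho, h⟩
      · exact Or.inl (Or.inr ⟨ho, h⟩)
    · rintro ((h | h) | h) <;> exact h.1
  have h759 := octads_ncard
  have e1 := Set.ncard_union_eq (s := {o : Finset GolayPt | o ∈ octads ∧ (o ∩ d).card = 2})
    (t := {o : Finset GolayPt | o ∈ octads ∧ (o ∩ d).card = 6})
    (by rw [Set.disjoint_left]; rintro o ⟨_, h1⟩ ⟨_, h2⟩; omega) (Set.toFinite _) (Set.toFinite _)
  have e2 := Set.ncard_union_eq (s := {o : Finset GolayPt | o ∈ octads ∧ (o ∩ d).card = 2} ∪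
    {o : Finset GolayPt | o ∈ octads ∧ (o ∩ d).card = 6})
    (t := {o : Finset GolayPt | o ∈ octads ∧ (o ∩ d).card = 4})
    (by rw [Set.disjoint_left]; rintro o (⟨_, h1⟩ | ⟨_, h1⟩) ⟨_, h2⟩ <;> omega)
    (Set.toFinite _) (Set.toFinite _)
  rw [← h, h759, e1, h2, h6] at e2
  omega

end H9.Hexads
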