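import Cfsg.Agent.Lib.H9.Ext23

set_option autoImplicit false

/-! Uniqueness and automorphism group of S(4,7,23). -/

namespace H9.Iso23

open Cfsg Finset H9.Steiner H9.Steiner24 H9.SteinerMore H9.FrameCode H9.Ext23 H9.Aut24 MulAction

variable {α β : Type*} [Fintype α] [DecidableEq α] [Fintype β] [DecidableEq β]
  {B : Set (Finset α)} {B' : Set (Finset β)}

/-- the extended system -/
def O (B : Set (Finset α)) : Set (Finset (Option α)) := {S | S ∈ D B ∧ S.card = 8}

/-- restricting a bijection fixing `none` -/
theorem exists_restrict (e : Option α ≃ Option β) (he : e none = none) :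
    ∃ f : α ≃ β, ∀ x, e (some x) = some (f x) := by
  refine ⟨e.removeNone, fun x => ?_⟩
  have hx : ∃ y, e (some x) = some y := by
    rw [← Option.ne_none_iff_exists']
    intro h
    rw [← he] at h
    exact absurd (e.injective h) (by simp)
  exact (Equiv.removeNone_some e hx).symm

theorem image_insertNone {e : Option α ≃ Option β} (he : e none = none) {f : α ≃ β}
    (hf : ∀ x, e (some x) = some (f x)) (b : Finset α) : (insertNone b).image e = insertNone (b.image f) := by
  ext x
  rw [mem_image]
  cases x with
  | none =>
    constructor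
    · intro _; exact none_mem_insertNone
    · intro _; exact ⟨none, none_mem_insertNone, he⟩
  | some y =>
    rw [some_mem_insertNone, mem_image]
    constructor
    · rintro ⟨a, ha, hay⟩
      cases a with
      | none => rw [he] at hay; exact absurd hay (by simp)
      | some a =>
        rw [some_mem_insertNone] at ha
        rw [hf, Option.some.injEq] at hay
        exact ⟨a, ha, hay⟩
    · rintro ⟨a, ha, rfl⟩
      exact ⟨some a, some_mem_insertNone.mpr ha, hf a⟩

theorem setSystemIso (hα : Fintype.card α = 23) (hβ : Fintype.card β = 23)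
    (hB : IsSteinerSystem 4 7 B) (hB' : IsSteinerSystem 4 7 B') : SetSystemIso B B' := by
  classical
  have hSt := steiner hα hB
  have hSt' := steiner hβ hB'
  have hα' : Fintype.card (Option α) = 24 := by rw [Fintype.card_option, hα]
  have hβ' : Fintype.card (Option β) = 24 := by rw [Fintype.card_option, hβ]
  obtain ⟨e, he⟩ := H9.Aut24.setSystemIso hα' hβ' hSt hSt'
  -- an automorphism moving `e none` to `none`
  have h5 := aut_five_transitive hβ' hSt'
  have h1 : IsPretransitive (setSystemAut {S : Finset (Option β) | S ∈ D B' ∧ S.card = 8}) (Option β) := by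
    have h2 : IsMultiplyPretransitive (setSystemAut {S : Finset (Option β) | S ∈ D B' ∧ S.card = 8}) (Option β) 2 :=
      isMultiplyPretransitive_of_le (n := 5) (by norm_num) (by simp [hβ])
    exact isPretransitive_of_is_two_pretransitive
  obtain ⟨⟨g, hg⟩, hgn⟩ := h1.exists_smul_eq (e none) none
  have hgn' : g (e none) = none := hgn
  obtain ⟨f, hf⟩ := exists_restrict (e.trans g) (by simpa using hgn')
  refine ⟨f, ?_⟩
  rw [mem_aut] at hg
  have key : ∀ b : Finset α, b ∈ B ↔ b.image f ∈ B' := by
    intro b
    rw [mem_iff hα hB, mem_iff hβ hB', ← image_insertNone (e := e.trans g) (by simpa using hgn') hf]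
    have h2 : (insertNone b).image (e.trans g) = ((insertNone b).image e).map g.toEmbedding := by
      rw [map_eq_image, image_image]; rfl
    rw [h2, ← hg]
    have h3 : ∀ S : Finset (Option α), S ∈ {S : Finset (Option α) | S ∈ D B ∧ S.card = 8} ↔
        S.image e ∈ {S : Finset (Option β) | S ∈ D B' ∧ S.card = 8} := by
      intro S
      rw [← he]
      constructor
      · intro h; exact ⟨S, h, rfl⟩
      · rintro ⟨T, hT, hTS⟩
        rw [← image_injective e.injective hTS]; exact hT
    exact h3 _
  ext c
  simp only [Set.mem_image]
  constructor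
  · rintro ⟨b, hb, rfl⟩
    exact (key b).mp hb
  · intro hc
    refine ⟨c.image f.symm, ?_, ?_⟩
    · rw [key, image_image]
      simpa using hc
    · rw [image_image]; simp

/-! ### automorphisms -/

section aut
variable (hα : Fintype.card α = 23) (hB : IsSteinerSystem 4 7 B)
include hα hB

/-- extension of an automorphism -/
theorem ext_mem {g : Equiv.Perm α} (hg : g ∈ setSystemAut B) :
    Equiv.optionCongr g ∈ setSystemAut {S : Finset (Option α) | S ∈ D B ∧ S.card = 8} := by
  classical
  rw [mem_aut] at hg ⊢
  have hmap : ∀ b : Finset α, (insertNone b).map (Equiv.optionCongr g).toEmbedding = insertNone (b.map g.toEmbedding) := by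
    intro b
    rw [map_eq_image, map_eq_image]
    exact image_insertNone (e := Equiv.optionCongr g) rfl (fun _ => rfl) b
  intro S
  have h1 : S ∈ D B ↔ S.map (Equiv.optionCongr g).toEmbedding ∈ D B := by
    rw [mem_D, mem_D]
    have h2 : ∀ b : Finset α, (S.map (Equiv.optionCongr g).toEmbedding ∩ insertNone (b.map g.toEmbedding)).card =
        (S ∩ insertNone b).card := by
      intro b
      rw [← hmap, ← map_inter, card_map]
    constructor
    · intro h b hb
      have h3 : b = (b.map g.symm.toEmbedding).map g.toEmbedding := by
        rw [map_map]; 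
        have : g.symm.toEmbedding.trans g.toEmbedding = Function.Embedding.refl _ := by ext x; simp
        rw [this, map_refl]
      have h4 : b.map g.symm.toEmbedding ∈ B := by rw [hg, ← h3]; exact hb
      rw [h3, h2]
      exact h _ h4
    · intro h b hb
      rw [← h2]
      exact h _ ((hg b).mp hb)
  rw [Set.mem_setOf_eq, Set.mem_setOf_eq, card_map, ← h1]

/-- restriction of an automorphism fixing `none` -/
theorem res_mem {g : Equiv.Perm (Option α)} (hg : g ∈ setSystemAut {S : Finset (Option α) | S ∈ D B ∧ S.card = 8})
    (hn : g none = none) {f : Equiv.Perm α} (hf : ∀ x, g (some x) = some (f x)) : f ∈ setSystemAut B := by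
  rw [mem_aut] at hg ⊢
  intro b
  rw [mem_iff hα hB, mem_iff hα hB (b.map f.toEmbedding), hg, map_eq_image, map_eq_image]
  have := image_insertNone (e := g) hn hf b
  have h2 : (insertNone b).image (g.toEmbedding) = insertNone (b.image (f.toEmbedding)) := this
  rw [h2]

theorem four_transitive : IsMultiplyPretransitive (setSystemAut B) α 4 := by
  have hSt := steiner hα hB
  have hα' : Fintype.card (Option α) = 24 := by rw [Fintype.card_option, hα]
  have h5 := aut_five_transitive hα' hSt
  constructor
  intro x y
  have hcons : ∀ x : Fin 4 ↪ α, Function.Injective (Fin.cons none (fun i => some (x i)) : Fin 5 → Option α) := by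
    intro x
    rw [Fin.cons_injective_iff]
    refine ⟨by rintro ⟨i, hi⟩; simp at hi, fun i j hij => ?_⟩
    exact x.injective (Option.some_inj.mp hij)
  obtain ⟨⟨g, hg⟩, hgx⟩ := H9.Sharp.exists_emb_of_injective (G := setSystemAut {S : Finset (Option α) | S ∈ D B ∧ S.card = 8})
    (⟨_, hcons x⟩ : Fin 5 ↪ Option α) ⟨_, hcons y⟩
  have h0 : g none = none := hgx 0
  have hi : ∀ i : Fin 4, g (some (x i)) = some (y i) := fun i => hgx i.succ
  obtain ⟨f, hf⟩ := exists_restrict g h0
  refine ⟨⟨f, res_mem hα hB hg h0 hf⟩, ?_⟩
  ext i
  show f (x i) = y i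
  have := hi i
  rw [hf, Option.some_inj] at this
  exact this

theorem card_aut23 : Nat.card (setSystemAut B) = 10200960 := by
  have hSt := steiner hα hB
  have hα' : Fintype.card (Option α) = 24 := by rw [Fintype.card_option, hα]
  have hcard := card_aut hα' hSt
  have h5 := aut_five_transitive hα' hSt
  have h1 : IsPretransitive (setSystemAut {S : Finset (Option α) | S ∈ D B ∧ S.card = 8}) (Option α) := by
    have h2 : IsMultiplyPretransitive (setSystemAut {S : Finset (Option α) | S ∈ D B ∧ S.card = 8}) (Option α) 2 :=
      isMultiplyPretransitive_of_le (n := 5) (by norm_num) (by simp [hα])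
    exact isPretransitive_of_is_two_pretransitive
  set G := setSystemAut {S : Finset (Option α) | S ∈ D B ∧ S.card = 8} with hG
  have h3 : Nat.card (stabilizer G (none : Option α)) = 10200960 := by
    have h4 := (stabilizer G (none : Option α)).card_mul_index
    have h6 : Nat.card (Option α) = 24 := by rw [Nat.card_eq_fintype_card, hα']
    rw [index_stabilizer_of_transitive, hcard, h6] at h4
    omega
  rw [← h3]
  apply Nat.card_congr
  refine Equiv.ofBijective (fun g : setSystemAut B => (⟨⟨Equiv.optionCongr g.1, ext_mem hα hB g.2⟩, rfl⟩ :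
    stabilizer G (none : Option α))) ⟨?_, ?_⟩
  · intro g h hgh
    have h4 : Equiv.optionCongr g.1 = Equiv.optionCongr h.1 := congrArg (fun z => z.1.1) hgh
    apply Subtype.ext
    ext x
    have := Equiv.congr_fun h4 (some x)
    exact Option.some_inj.mp this
  · rintro ⟨⟨g, hg⟩, hn⟩
    have hn' : g none = none := hn
    obtain ⟨f, hf⟩ := exists_restrict g hn'
    refine ⟨⟨f, res_mem hα hB hg hn' hf⟩, ?_⟩
    apply Subtype.ext
    apply Subtype.ext
    apply Equiv.ext
    intro x
    cases x with
    | none => exact hn'.symm
    | some x => exact (hf x).symm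

theorem isM23 : IsM23 (setSystemAut B) := by
  have hc := card_aut23 hα hB
  have h4 := four_transitive hα hB
  refine ⟨?_, hc⟩
  have h3 : IsMultiplyPretransitive (setSystemAut B) α 3 :=
    isMultiplyPretransitive_of_le (n := 4) (by norm_num) (by simp [hα])
  apply H9.Sharp.simple_10200960 (Δ := (Set.univ : Set α)) _
    (H9.Sharp.threeTransOn_univ h3 (by simp [hα])).twoTransOn _ hc
  · rw [Nat.card_coe_set_eq, Set.ncard_univ, Nat.card_eq_fintype_card, hα]
  · intro g hg
    apply Subtype.ext; ext x; exact hg x (Set.mem_univ x)

end aut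

end H9.Iso23
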