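import Cfsg.Agent.Lib.H9.Cross

set_option autoImplicit false

/-! The index of the Leech lattice in `ℤ^24`. -/

namespace H9.LeechIndex

open Cfsg Finset H9.Leech H9.LeechGood H9.Trans H9.Cross H8.GolayCode H8.GolayBasic H8.GolayCount

/-- reduction modulo 8 -/
def red8 : (GolayPt → ℤ) →+ (GolayPt → ZMod 8) where
  toFun x := fun i => (x i : ZMod 8)
  map_zero' := by funext i; simp
  map_add' := by intro x y; funext i; simp

theorem red8_eq_iff (x y : GolayPt → ℤ) : red8 x = red8 y ↔ ∀ i, (8 : ℤ) ∣ x i - y i := by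
  constructor
  · intro h i
    have h1 : ((x i : ℤ) : ZMod 8) = ((y i : ℤ) : ZMod 8) := congrFun h i
    rw [← sub_eq_zero, ← Int.cast_sub, ZMod.intCast_zmod_eq_zero_iff_dvd] at h1
    exact h1
  · intro h
    funext i
    show ((x i : ℤ) : ZMod 8) = ((y i : ℤ) : ZMod 8)
    rw [← sub_eq_zero, ← Int.cast_sub, ZMod.intCast_zmod_eq_zero_iff_dvd]
    exact h i

theorem red8_surj : Function.Surjective red8 := by
  intro y
  refine ⟨fun i => ((y i).val : ℤ), ?_⟩
  funext i
  show (((y i).val : ℤ) : ZMod 8) = y i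
  rw [Int.cast_natCast, ZMod.natCast_zmod_val]

theorem ker_le : red8.ker ≤ leechLattice := by
  intro x hx
  rw [AddMonoidHom.mem_ker] at hx
  have h1 : ∀ i, ∃ t, x i = 8 * t := by
    intro i
    have h2 : ((x i : ℤ) : ZMod 8) = 0 := congrFun hx i
    rw [ZMod.intCast_zmod_eq_zero_iff_dvd] at h2
    exact h2
  choose t ht using h1
  have h2 := eight_mem t
  convert h2 using 1
  funext i
  rw [ht]; simp

/-- even-sum words -/
def ev : AddSubgroup (GolayPt → ZMod 2) := (∑ i : GolayPt, (Pi.evalAddMonoidHom (fun _ => ZMod 2) i)).ker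

theorem mem_ev (z : GolayPt → ZMod 2) : z ∈ ev ↔ ∑ i, z i = 0 := by
  unfold ev
  rw [AddMonoidHom.mem_ker, AddMonoidHom.finset_sum_apply]
  rfl

theorem card_ev : Nat.card ev = 2 ^ 23 := by
  have h1 := ev.card_mul_index
  have h2 : ev.index = 2 := by
    unfold ev
    rw [AddSubgroup.index_ker]
    have h3 : (∑ i : GolayPt, (Pi.evalAddMonoidHom (fun _ => ZMod 2) i)).range = ⊤ := by
      rw [AddMonoidHom.range_eq_top]
      intro a
      refine ⟨Pi.single none a, ?_⟩
      rw [AddMonoidHom.finset_sum_apply]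
      show ∑ i, (Pi.single none a : GolayPt → ZMod 2) i = a
      simp
    rw [h3, AddSubgroup.card_top]
    simp
  have h3 : Nat.card (GolayPt → ZMod 2) = 2 ^ 24 := by
    rw [Nat.card_eq_fintype_card, Fintype.card_fun, card_pt, ZMod.card]
  rw [h2, h3] at h1
  omega

/-- parametrisation of the image modulo 8 -/
def par (x : Fin 2 × GS × ev) : GolayPt → ℤ := fun i =>
  (x.1 : ℤ) * (1 - (Pi.single none 4 : GolayPt → ℤ) i) + 2 * ind x.2.1.1 i + 4 * ((x.2.2.1 i).val : ℤ)

theorem even_lift {z : GolayPt → ZMod 2} (hz : ∑ i, z i = 0) : (2 : ℤ) ∣ ∑ i, ((z i).val : ℤ) := by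
  rw [← Nat.cast_sum]
  have h1 : ((∑ i, (z i).val : ℕ) : ZMod 2) = 0 := by
    rw [Nat.cast_sum, ← hz]
    exact sum_congr rfl fun i _ => ZMod.natCast_zmod_val (z i)
  rw [ZMod.natCast_eq_zero_iff] at h1
  exact_mod_cast h1

theorem par_mem (x : Fin 2 × GS × ev) : par x ∈ leechLattice := by
  obtain ⟨e, ⟨c, hc⟩, ⟨z, hz⟩⟩ := x
  rw [mem_ev] at hz
  have h1 : (fun i => 2 * ind c i + 4 * ((z i).val : ℤ)) ∈ leechLattice := by
    obtain ⟨k, hk⟩ := even_lift hz
    refine Rep.mem_leech (m := 0) (c := c) (y := fun i => ((z i).val : ℤ)) ⟨hc, fun i => by ring, ⟨k, by rw [hk]; ring⟩⟩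
  have h2 := leechLattice.add_mem (leechLattice.zsmul_mem (one_sub_mem none) (e : ℤ)) h1
  convert h2 using 1
  funext i
  simp only [par, Pi.add_apply, Pi.smul_apply, smul_eq_mul]
  ring

theorem val2 (a : ZMod 2) : a.val = 0 ∨ a.val = 1 := by
  revert a; decide

theorem par_bij : Function.Bijective (fun x : Fin 2 × GS × ev =>
    (⟨red8 (par x), ⟨par x, par_mem x, rfl⟩⟩ : leechLattice.map red8)) := by
  constructor
  · rintro ⟨e, ⟨c, hc⟩, ⟨z, hz⟩⟩ ⟨e', ⟨c', hc'⟩, ⟨z', hz'⟩⟩ h
    have h1 := (red8_eq_iff _ _).mp (congrArg Subtype.val h)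
    simp only [par] at h1
    have hind : ∀ (c : Finset GolayPt) i, ind c i = 0 ∨ ind c i = 1 := by
      intro c i; unfold ind; split_ifs <;> simp
    have he : e = e' := by
      have h2 := h1 (some 0)
      rw [Pi.single_eq_of_ne (by simp)] at h2
      have h3 : ((e : ℕ) : ℤ) = ((e' : ℕ) : ℤ) := by
        have := e.2; have := e'.2
        omega
      exact Fin.ext (by exact_mod_cast h3)
    subst he
    have h4 : ∀ i, ind c i = ind c' i ∧ (z i).val = (z' i).val := by
      intro i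
      have h2 := h1 i
      have h3 := hind c i
      have h5 := hind c' i
      have h6 := val2 (z i)
      have h7 := val2 (z' i)
      omega
    have hcc : c = c' := by
      ext i
      have h2 := (h4 i).1
      unfold ind at h2
      by_cases ha : i ∈ c <;> by_cases hb : i ∈ c' <;> simp [ha, hb] at h2 ⊢
    have hzz : z = z' := by
      funext i
      exact ZMod.val_injective 2 (h4 i).2
    subst hcc; subst hzz; rfl
  · rintro ⟨_, ⟨x, hx, rfl⟩⟩
    have hsum : ∀ y : GolayPt → ℤ, (2 : ℤ) ∣ ∑ i, y i → (fun i => (y i : ZMod 2)) ∈ ev := by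
      intro y hy
      rw [mem_ev, ← Int.cast_sum, ZMod.intCast_zmod_eq_zero_iff_dvd]
      exact hy
    have hval : ∀ a : ℤ, (2 : ℤ) ∣ (((a : ZMod 2).val : ℕ) : ℤ) - a := by
      intro a
      have h1 : (((((a : ZMod 2).val : ℕ) : ℤ) - a : ℤ) : ZMod 2) = 0 := by
        rw [Int.cast_sub, Int.cast_natCast, ZMod.natCast_zmod_val, sub_self]
      exact (ZMod.intCast_zmod_eq_zero_iff_dvd _ 2).mp h1
    rcases exists_rep hx with ⟨c, y, h⟩ | ⟨c, y, h⟩
    · obtain ⟨k, hk⟩ := h.par
      refine ⟨⟨0, ⟨c, h.mem⟩, ⟨_, hsum y ⟨k, by rw [hk]; ring⟩⟩⟩, Subtype.ext ?_⟩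
      apply (red8_eq_iff _ _).mpr
      intro i
      have h2 := hval (y i)
      show (8 : ℤ) ∣ ((0 : Fin 2) : ℕ) * (1 - (Pi.single none 4 : GolayPt → ℤ) i) + 2 * ind c i +
        4 * (((y i : ZMod 2).val : ℕ) : ℤ) - x i
      rw [h.eq]
      simp only [Fin.val_zero]
      push_cast
      omega
    · obtain ⟨k, hk⟩ := h.par
      refine ⟨⟨1, ⟨c, h.mem⟩, ⟨_, hsum (fun i => y i + (Pi.single none 1 : GolayPt → ℤ) i) ⟨k + 1, by
        rw [sum_add_distrib, hk]; simp; ring⟩⟩⟩, Subtype.ext ?_⟩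
      apply (red8_eq_iff _ _).mpr
      intro i
      have h2 := hval (y i + (Pi.single none 1 : GolayPt → ℤ) i)
      show (8 : ℤ) ∣ ((1 : Fin 2) : ℕ) * (1 - (Pi.single none 4 : GolayPt → ℤ) i) + 2 * ind c i +
        4 * ((((y i + (Pi.single none 1 : GolayPt → ℤ) i : ℤ) : ZMod 2).val : ℕ) : ℤ) - x i
      rw [h.eq]
      have h3 : (Pi.single none 4 : GolayPt → ℤ) i = 4 * (Pi.single none 1 : GolayPt → ℤ) i := by
        simp only [Pi.single_apply]; split_ifs <;> norm_num
      rw [h3]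
      simp only [Fin.val_one]
      push_cast at h2 ⊢
      omega

theorem index : leechLattice.index = 2 ^ 36 := by
  have h1 : (leechLattice.map red8).index = leechLattice.index :=
    AddSubgroup.index_map_eq _ red8_surj ker_le
  have h2 := (leechLattice.map red8).card_mul_index
  have h3 : Nat.card (GolayPt → ZMod 8) = 8 ^ 24 := by
    rw [Nat.card_eq_fintype_card, Fintype.card_fun, card_pt, ZMod.card]
  have h4 : Nat.card (leechLattice.map red8) = 2 * (4096 * 2 ^ 23) := by
    rw [← Nat.card_congr (Equiv.ofBijective _ par_bij), Nat.card_prod, Nat.card_prod, card_ev, GS_card]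
    simp
  rw [h3, h4, h1] at h2
  omega

end H9.LeechIndex
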