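import Cfsg.Agent.Lib.H9.M24Stab
import Cfsg.Agent.Lib.H8.M24Mem
import Cfsg.Agent.Lib.H6.SmallIsoB

set_option autoImplicit false
set_option linter.unusedSimpArgs false
set_option linter.unusedVariables false

/-! The three-point stabiliser in `M24` is `PSL(3,4)`. -/

namespace H9.M21

open Cfsg Matrix Matrix.SpecialLinearGroup H8.GolayCode H8.GolayCount H8.M24Mem MulAction
open scoped Pointwise

/-- the field of order four -/
abbrev K4 := QuadraticAlgebra (ZMod 2) 1 1

instance : Fact (∀ r : ZMod 2, r ^ 2 ≠ 1 + 1 * r) := ⟨by decide⟩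

/-- a generator -/
def w : K4 := ⟨0, 1⟩

/-- representative vectors of the 21 points (zero for the three extra points) -/
def rep (x : GolayPt) : Fin 3 → K4 :=
  ([![1, 0, 0], ![0, 1, 0], ![0, 0, 1], ![1, w, 0], ![1, 1, 1], ![1, w, w], ![1, w, 1], ![1, 1, w], ![1, (1 + w), 1], ![0, 1, (1 + w)], ![1, 1, (1 + w)], ![1, 0, 1], ![1, (1 + w), 0], ![1, w, (1 + w)], ![1, 0, w], ![1, 1, 0], ![1, (1 + w), w], ![0, 1, 1], ![0, 1, w], ![1, (1 + w), (1 + w)], ![1, 0, (1 + w)]] :
    List (Fin 3 → K4)).getD (idx x) 0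

/-- the transvection applied to a vector -/
def tvec (i j : Fin 3) (c : K4) (v : Fin 3 → K4) : Fin 3 → K4 :=
  fun k => if k = i then v k + c * v j else v k

/-- tables -/
def tc1 (i j : Fin 3) : ℕ := match i.1, j.1 with
  | 0, 1 => 0xbdab429c860b9035a54d94271609e0
  | 0, 2 => 0xbdaae2a08a7d0ec140d26a6711ac20
  | 1, 0 => 0xbdaaa6ca2501e63251267220b6082f
  | 1, 2 => 0xbdab3a24477954c23646821cb1c420
  | 2, 0 => 0xbdaae84a33250a801d2c50daf3082b
  | 2, 1 => 0xbdab462428238d359e505346f28a20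
  | _, _ => 0
def tc2 (i j : Fin 3) : ℕ := match i.1, j.1 with
  | 0, 1 => 0xbdab48a2691b8e159a126a88578980
  | 0, 2 => 0xbdaa28b6667ae4c72547440851d020
  | 1, 0 => 0xbdaad54a276168f34d2482dc800823
  | 1, 2 => 0xbdaaa6c64e7c26c350442ace81a420
  | 2, 0 => 0xbdaab44a2c380d0a11337b46a2882e
  | 2, 1 => 0xbdab4805333b8685922c794ca68a40
  | _, _ => 0

theorem ok_inv1 : ∀ i j : Fin 3, i ≠ j → ∀ k : Fin 24, tab (tc1 i j) (tab (tc1 i j) k) = k ∧ tab (tc1 i j) k < 24 := by
  decide +kernel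
theorem ok_inv2 : ∀ i j : Fin 3, i ≠ j → ∀ k : Fin 24, tab (tc2 i j) (tab (tc2 i j) k) = k ∧ tab (tc2 i j) k < 24 := by
  decide +kernel
theorem ok_code1 : ∀ i j : Fin 3, i ≠ j → ∀ b ∈ basisL, cw (actN (tab (tc1 i j)) b % 4096) = actN (tab (tc1 i j)) b := by
  decide +kernel
theorem ok_code2 : ∀ i j : Fin 3, i ≠ j → ∀ b ∈ basisL, cw (actN (tab (tc2 i j)) b % 4096) = actN (tab (tc2 i j)) b := by
  decide +kernel
theorem ok_act1 : ∀ i j : Fin 3, i ≠ j → ∀ k : Fin 24, 
    tvec i j 1 (rep (pt k)) = (1 : K4) • rep (pt (tab (tc1 i j) k)) ∨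
    tvec i j 1 (rep (pt k)) = w • rep (pt (tab (tc1 i j) k)) ∨ tvec i j 1 (rep (pt k)) = (1 + w) • rep (pt (tab (tc1 i j) k)) := by
  decide +kernel
theorem ok_act2 : ∀ i j : Fin 3, i ≠ j → ∀ k : Fin 24, 
    tvec i j w (rep (pt k)) = (1 : K4) • rep (pt (tab (tc2 i j) k)) ∨
    tvec i j w (rep (pt k)) = w • rep (pt (tab (tc2 i j) k)) ∨ tvec i j w (rep (pt k)) = (1 + w) • rep (pt (tab (tc2 i j) k)) := by
  decide +kernel
theorem ok_fix1 : ∀ i j : Fin 3, i ≠ j → ∀ k : Fin 24, 21 ≤ k.1 → tab (tc1 i j) k = k := by decide +kernel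
theorem ok_fix2 : ∀ i j : Fin 3, i ≠ j → ∀ k : Fin 24, 21 ≤ k.1 → tab (tc2 i j) k = k := by decide +kernel
theorem rep_sep : ∀ x y : Fin 24, x.1 < 21 → y.1 < 21 → (rep (pt x) = (1 : K4) • rep (pt y) ∨ rep (pt x) = w • rep (pt y) ∨
    rep (pt x) = (1 + w) • rep (pt y)) → x = y := by decide +kernel
theorem rep_ne : ∀ x : Fin 24, x.1 < 21 → rep (pt x) ≠ 0 := by decide +kernel

theorem K4_eq (c : K4) : c = 0 ∨ c = 1 ∨ c = w ∨ c = 1 + w := by
  have : ∀ x y : ZMod 2, (⟨x, y⟩ : K4) = 0 ∨ (⟨x, y⟩ : K4) = 1 ∨ (⟨x, y⟩ : K4) = w ∨ (⟨x, y⟩ : K4) = 1 + w := by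
    decide +kernel
  rcases c with ⟨x, y⟩
  exact this x y

instance : Fintype K4 := Fintype.ofEquiv _ (QuadraticAlgebra.equivProd (1 : ZMod 2) 1).symm

theorem card_K4 : Fintype.card K4 = 4 := by
  rw [Fintype.card_congr (QuadraticAlgebra.equivProd (1 : ZMod 2) 1)]
  rfl

theorem w_ne : w ≠ 0 := by decide +kernel
theorem w1_ne : (1 + w : K4) ≠ 0 := by decide +kernel

theorem transvection_mulVec {i j : Fin 3} (h : i ≠ j) (c : K4) (v : Fin 3 → K4) :
    (transvection h c : SpecialLinearGroup (Fin 3) K4).1 *ᵥ v = tvec i j c v := by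
  show (Matrix.transvection i j c) *ᵥ v = _
  rw [Matrix.transvection, Matrix.add_mulVec, Matrix.one_mulVec]
  refine funext fun k => ?_
  rw [Pi.add_apply, tvec]
  by_cases hk : k = i
  · subst hk
    simp [Matrix.mulVec, dotProduct, Matrix.single]
  · rw [if_neg hk]
    have hk' : i ≠ k := fun h => hk h.symm
    simp [Matrix.mulVec, dotProduct, Matrix.single, hk']

/-- the permutation `σ` describes the action of `g` -/
def Good (g : SpecialLinearGroup (Fin 3) K4) (σ : Equiv.Perm GolayPt) : Prop :=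
  σ ∈ M24 ∧ (∀ x, rep x = 0 → σ x = x) ∧ ∀ x, ∃ c : K4, c ≠ 0 ∧ g.1 *ᵥ rep x = c • rep (σ x)

theorem rep_zero_iff (x : GolayPt) : rep x = 0 ↔ 21 ≤ idx x := by
  constructor
  · intro h
    by_contra hcon
    have := rep_ne ⟨idx x, idx_lt x⟩ (by simpa using hcon)
    rw [pt_idx] at this
    exact this h
  · intro h
    rw [rep, List.getD_eq_default]
    simpa using h

theorem rep_inj {x y : GolayPt} (hx : rep x ≠ 0) {c d : K4} (hc : c ≠ 0) (hd : d ≠ 0)
    (h : c • rep x = d • rep y) : x = y := by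
  have hy : rep y ≠ 0 := by
    intro hy
    rw [hy, smul_zero] at h
    rcases smul_eq_zero.mp h with h | h
    · exact hc h
    · exact hx h
  have h1 : rep x = (c⁻¹ * d) • rep y := by
    rw [mul_smul, ← h, smul_smul, inv_mul_cancel₀ hc, one_smul]
  have hcd : c⁻¹ * d ≠ 0 := mul_ne_zero (inv_ne_zero hc) hd
  have hx' : idx x < 21 := by
    by_contra hcon; push Not at hcon; exact hx ((rep_zero_iff x).mpr hcon)
  have hy' : idx y < 21 := by
    by_contra hcon; push Not at hcon; exact hy ((rep_zero_iff y).mpr hcon)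
  have h2 := rep_sep ⟨idx x, idx_lt x⟩ ⟨idx y, idx_lt y⟩ hx' hy' (by
    show rep (pt (idx x)) = _ • rep (pt (idx y)) ∨ rep (pt (idx x)) = _ • rep (pt (idx y)) ∨
      rep (pt (idx x)) = _ • rep (pt (idx y))
    rw [pt_idx, pt_idx]
    rcases K4_eq (c⁻¹ * d) with h | h | h | h
    · exact absurd h hcd
    · left; rw [h1, h]
    · right; left; rw [h1, h]
    · right; right; rw [h1, h])
  apply idx_injective
  exact congrArg Fin.val h2

theorem Good.unique {g : SpecialLinearGroup (Fin 3) K4} {σ τ : Equiv.Perm GolayPt} (h1 : Good g σ)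
    (h2 : Good g τ) : σ = τ := by
  ext1 x
  by_cases hx : rep x = 0
  · rw [h1.2.1 x hx, h2.2.1 x hx]
  · obtain ⟨c, hc, hc'⟩ := h1.2.2 x
    obtain ⟨d, hd, hd'⟩ := h2.2.2 x
    apply rep_inj _ hc hd (hc'.symm.trans hd')
    intro h0
    rw [h0, smul_zero] at hc'
    apply hx
    have h3 : (g⁻¹).1 *ᵥ (g.1 *ᵥ rep x) = rep x := by
      rw [Matrix.mulVec_mulVec]
      have : (g⁻¹).1 * g.1 = 1 := by
        have := congrArg Subtype.val (inv_mul_cancel g)
        exact this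
      rw [this, Matrix.one_mulVec]
    rw [hc', Matrix.mulVec_zero] at h3
    exact h3.symm

theorem Good.mul {g h : SpecialLinearGroup (Fin 3) K4} {σ τ : Equiv.Perm GolayPt} (h1 : Good g σ)
    (h2 : Good h τ) : Good (g * h) (σ * τ) := by
  refine ⟨mul_mem h1.1 h2.1, fun x hx => ?_, fun x => ?_⟩
  · rw [Equiv.Perm.mul_apply, h2.2.1 x hx, h1.2.1 x hx]
  · obtain ⟨c, hc, hc'⟩ := h2.2.2 x
    obtain ⟨d, hd, hd'⟩ := h1.2.2 (τ x)
    refine ⟨c * d, mul_ne_zero hc hd, ?_⟩
    have : (g * h).1 = g.1 * h.1 := rfl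
    rw [this, ← Matrix.mulVec_mulVec, hc', Matrix.mulVec_smul, hd', smul_smul]
    rfl

/-- permutation from an involutive table -/
def permOf (T : ℕ → ℕ) (h : ∀ k : Fin 24, T (T k) = k ∧ T k < 24) : Equiv.Perm GolayPt where
  toFun p := pt (T (idx p))
  invFun p := pt (T (idx p))
  left_inv p := by
    have := h ⟨idx p, idx_lt p⟩
    show pt (T (idx (pt (T (idx p))))) = p
    rw [idx_pt _ this.2, this.1, pt_idx]
  right_inv p := by
    have := h ⟨idx p, idx_lt p⟩
    show pt (T (idx (pt (T (idx p))))) = p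
    rw [idx_pt _ this.2, this.1, pt_idx]

theorem idx_permOf {T : ℕ → ℕ} (h : ∀ k : Fin 24, T (T k) = k ∧ T k < 24) (p : GolayPt) :
    idx (permOf T h p) = T (idx p) := idx_pt _ (h ⟨idx p, idx_lt p⟩).2

theorem good_of_table {i j : Fin 3} (hij : i ≠ j) (c : K4) (T : ℕ → ℕ)
    (h : ∀ k : Fin 24, T (T k) = k ∧ T k < 24) (hcode : ∀ b ∈ basisL, cw (actN T b % 4096) = actN T b)
    (hact : ∀ k : Fin 24, tvec i j c (rep (pt k)) = (1 : K4) • rep (pt (T k)) ∨
      tvec i j c (rep (pt k)) = w • rep (pt (T k)) ∨ tvec i j c (rep (pt k)) = (1 + w) • rep (pt (T k)))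
    (hfix : ∀ k : Fin 24, 21 ≤ k.1 → T k = k) : Good (transvection hij c) (permOf T h) := by
  refine ⟨mem_M24_of_table T (idx_permOf h) hcode, fun x hx => ?_, fun x => ?_⟩
  · rw [rep_zero_iff] at hx
    apply idx_injective
    rw [idx_permOf]
    exact hfix ⟨idx x, idx_lt x⟩ hx
  · rw [transvection_mulVec]
    have := hact ⟨idx x, idx_lt x⟩
    simp only [pt_idx] at this
    rcases this with h | h | h
    · exact ⟨1, one_ne_zero, h⟩
    · exact ⟨w, w_ne, h⟩
    · exact ⟨1 + w, w1_ne, h⟩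

theorem good_one : Good 1 1 := by
  refine ⟨one_mem _, fun x _ => rfl, fun x => ⟨1, one_ne_zero, ?_⟩⟩
  show (1 : Matrix (Fin 3) (Fin 3) K4) *ᵥ rep x = _
  rw [Matrix.one_mulVec, one_smul]; rfl

theorem exists_good (g : SpecialLinearGroup (Fin 3) K4) : ∃ σ, Good g σ := by
  refine H6.SLGen.transvection_induction (fun g => ∃ σ, Good g σ) ?_ ?_ g
  · intro i j hij c
    have h1 := good_of_table hij 1 _ (ok_inv1 i j hij) (ok_code1 i j hij) (ok_act1 i j hij) (ok_fix1 i j hij)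
    have h2 := good_of_table hij w _ (ok_inv2 i j hij) (ok_code2 i j hij) (ok_act2 i j hij) (ok_fix2 i j hij)
    rcases K4_eq c with rfl | rfl | rfl | rfl
    · have h0 : (transvection hij (0 : K4) : SpecialLinearGroup (Fin 3) K4) = 1 := by
        apply Subtype.ext
        show Matrix.transvection i j (0 : K4) = 1
        simp
      exact ⟨1, by rw [h0]; exact good_one⟩
    · exact ⟨_, h1⟩
    · exact ⟨_, h2⟩
    · exact ⟨_, by rw [SpecialLinearGroup.transvection_add]; exact h1.mul h2⟩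
  · rintro A B ⟨σ, h1⟩ ⟨τ, h2⟩
    exact ⟨σ * τ, h1.mul h2⟩

/-- the homomorphism -/
noncomputable def hom : SpecialLinearGroup (Fin 3) K4 →* M24 where
  toFun g := ⟨(exists_good g).choose, (exists_good g).choose_spec.1⟩
  map_one' := Subtype.ext ((exists_good 1).choose_spec.unique good_one)
  map_mul' g h := Subtype.ext ((exists_good (g * h)).choose_spec.unique
    ((exists_good g).choose_spec.mul (exists_good h).choose_spec))

theorem hom_good (g : SpecialLinearGroup (Fin 3) K4) : Good g (hom g).1 := (exists_good g).choose_spec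

theorem hom_fix (g : SpecialLinearGroup (Fin 3) K4) {x : GolayPt} (hx : 21 ≤ idx x) : hom g • x = x :=
  (hom_good g).2.1 x ((rep_zero_iff x).mpr hx)

abbrev St (p q r : GolayPt) : Subgroup M24 := stabilizer M24 p ⊓ stabilizer M24 q ⊓ stabilizer M24 r

noncomputable def hom' : SpecialLinearGroup (Fin 3) K4 →* ↥(St (pt 21) (pt 22) (pt 23)) :=
  hom.codRestrict _ (fun g => by
    refine ⟨⟨?_, ?_⟩, ?_⟩
    · exact hom_fix g (by rw [idx_pt 21 (by norm_num)])
    · exact hom_fix g (by rw [idx_pt 22 (by norm_num)]; norm_num)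
    · exact hom_fix g (by rw [idx_pt 23 (by norm_num)]; norm_num))

theorem not_good : ¬ (tvec 0 1 1 (rep (pt 1)) = (1 : K4) • rep (pt 1) ∨ tvec 0 1 1 (rep (pt 1)) = w • rep (pt 1) ∨
    tvec 0 1 1 (rep (pt 1)) = (1 + w) • rep (pt 1)) := by decide +kernel

theorem rep_pt1_ne : tvec 0 1 1 (rep (pt 1)) ≠ 0 := by decide +kernel

theorem exists_inj : ∃ φ : Matrix.ProjectiveSpecialLinearGroup (Fin 3) K4 →* ↥(St (pt 21) (pt 22) (pt 23)),
    Function.Injective φ := by
  have : IsSimpleGroup (Matrix.ProjectiveSpecialLinearGroup (Fin 3) K4) := H6.SLGen.psl_isSimpleGroup (by simp)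
  refine H6.Frame.psl_lift (n := 3) (F := K4) hom' (fun z hz => ?_) ⟨transvection (zero_ne_one) 1, ?_⟩
  · obtain ⟨r, h1, hr⟩ := mem_center_iff.1 hz
    have hr0 : r ≠ 0 := by
      rintro rfl
      simp at h1
    have hg : Good z 1 := by
      refine ⟨one_mem _, fun x _ => rfl, fun x => ⟨r, hr0, ?_⟩⟩
      rw [← hr]
      refine funext fun k => ?_
      simp [Matrix.mulVec_diagonal]
    apply Subtype.ext
    apply Subtype.ext
    exact (hom_good z).unique hg
  · intro h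
    have h1 := hom_good (transvection zero_ne_one 1 : SpecialLinearGroup (Fin 3) K4)
    have h2 : (hom (transvection zero_ne_one 1 : SpecialLinearGroup (Fin 3) K4)).1 = 1 :=
      congrArg (fun z : ↥(St (pt 21) (pt 22) (pt 23)) => z.1.1) h
    rw [h2] at h1
    obtain ⟨c, hc, hc'⟩ := h1.2.2 (pt 1)
    rw [transvection_mulVec] at hc'
    apply not_good
    rcases K4_eq c with rfl | rfl | rfl | rfl
    · exact absurd rfl hc
    · left; exact hc'
    · right; left; exact hc'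
    · right; right; exact hc'

theorem card_psl34 : Nat.card (Matrix.ProjectiveSpecialLinearGroup (Fin 3) K4) = 20160 := by
  have h := H6.SLCard.card_psl (F := K4) (n := 3) (by norm_num)
  rw [Fin.prod_univ_three, card_K4, show Nat.gcd 3 (4 - 1) = 3 from rfl] at h
  norm_num at h
  simp only [Nat.card_eq_fintype_card] at h ⊢
  omega

theorem std_iso : Nonempty (Matrix.ProjectiveSpecialLinearGroup (Fin 3) K4 ≃* ↥(St (pt 21) (pt 22) (pt 23))) := by
  obtain ⟨φ, hφ⟩ := exists_inj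
  have h1 : pt 21 ≠ pt 22 := by decide +kernel
  have h2 : pt 21 ≠ pt 23 := by decide +kernel
  have h3 : pt 22 ≠ pt 23 := by decide +kernel
  have hbij : Function.Bijective φ := by
    rw [Nat.bijective_iff_injective_and_card]
    exact ⟨hφ, by rw [card_psl34, H9.M24Stab.card_three h1 h2 h3]⟩
  exact ⟨MulEquiv.ofBijective φ hbij⟩

theorem conj_iso {p q r p' q' r' : GolayPt} (g : M24) (h1 : g • p = p') (h2 : g • q = q') (h3 : g • r = r') :
    Nonempty (↥(St p q r) ≃* ↥(St p' q' r')) := by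
  have h : (St p q r).map (MulAut.conj g).toMonoidHom = St p' q' r' := by
    ext x
    rw [Subgroup.mem_map]
    constructor
    · rintro ⟨y, ⟨⟨hy1, hy2⟩, hy3⟩, rfl⟩
      refine ⟨⟨?_, ?_⟩, ?_⟩
      · show (g * y * g⁻¹) • p' = p'
        rw [← h1, mul_smul, inv_smul_smul, mul_smul, show y • p = p from hy1]
      · show (g * y * g⁻¹) • q' = q'
        rw [← h2, mul_smul, inv_smul_smul, mul_smul, show y • q = q from hy2]
      · show (g * y * g⁻¹) • r' = r'
        rw [← h3, mul_smul, inv_smul_smul, mul_smul, show y • r = r from hy3]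
    · rintro ⟨⟨hx1, hx2⟩, hx3⟩
      refine ⟨g⁻¹ * x * g, ⟨⟨?_, ?_⟩, ?_⟩, ?_⟩
      · show (g⁻¹ * x * g) • p = p
        rw [mul_smul, h1, mul_smul, show x • p' = p' from hx1, ← h1, inv_smul_smul]
      · show (g⁻¹ * x * g) • q = q
        rw [mul_smul, h2, mul_smul, show x • q' = q' from hx2, ← h2, inv_smul_smul]
      · show (g⁻¹ * x * g) • r = r
        rw [mul_smul, h3, mul_smul, show x • r' = r' from hx3, ← h3, inv_smul_smul]
      · show g * (g⁻¹ * x * g) * g⁻¹ = x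
        group
  exact ⟨((St p q r).equivMapOfInjective _ (MulAut.conj g).injective).trans (MulEquiv.subgroupCongr h)⟩

theorem main {p q r : GolayPt} (hpq : p ≠ q) (hpr : p ≠ r) (hqr : q ≠ r) (F : Type*) [Field F] [Fintype F]
    (hF : Fintype.card F = 4) : Nonempty (↥(stabilizer M24 p ⊓ stabilizer M24 q ⊓ stabilizer M24 r) ≃*
      Matrix.ProjectiveSpecialLinearGroup (Fin 3) F) := by
  have e : K4 ≃+* F := FiniteField.ringEquivOfCardEq (by rw [hF, card_K4])
  obtain ⟨φ⟩ := std_iso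
  obtain ⟨g, h1, h2, h3⟩ := H9.M24Stab.three (a := p) (b := q) (c := r) (a' := pt 21) (b' := pt 22) (c' := pt 23)
    (by simp [hpq, hpr, hqr]) (by decide +kernel)
  obtain ⟨ψ⟩ := conj_iso g h1 h2 h3
  exact ⟨(ψ.trans φ.symm).trans (H6.Frame.pslCongr e)⟩

end H9.M21
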