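import Cfsg.Agent.Lib.H9.Co3P2
import Cfsg.Agent.Lib.H9.Co3P3
import Cfsg.Agent.Lib.H9.Co3P5
import Cfsg.Agent.Lib.H9.MultD

set_option autoImplicit false

/-! The Schur multiplier of `Co₃` is trivial. -/

namespace H9.MultCo3

open Cfsg H9.CoMat H9.CoOrder H9.Trans MulAction H9.Mult

universe v

/-- the stabiliser -/
abbrev G3 : Subgroup Co0 := stabilizer Co0 Spor.leechV

theorem card_G3 : Nat.card G3 = 495766656000 := H9.CoMat.P2.card_G3

theorem noStem (p : ℕ) (hp : p.Prime) : NoStem.{0, v} G3 p := by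
  by_cases h2 : p = 2
  · subst h2; exact H9.CoMat.P2.noStem2
  by_cases h3 : p = 3
  · subst h3; exact H9.CoMat.P3.noStem3
  by_cases h5 : p = 5
  · subst h5; exact H9.CoMat.P5.noStem5
  apply noStem_of_sq hp
  rw [card_G3]
  intro hd
  have h1 : p ^ 2 ∣ 2 ^ 10 * (3 ^ 7 * (5 ^ 3 * (7 * (11 * 23)))) := by
    refine dvd_trans hd ?_
    norm_num
  have hc : ∀ q : ℕ, q.Prime → p ≠ q → Nat.Coprime p q := fun q hq h => (Nat.coprime_primes hp hq).mpr h
  have h4 : p ^ 2 ∣ 7 * (11 * 23) := by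
    have c2 : Nat.Coprime (p ^ 2) (2 ^ 10) := Nat.Coprime.pow _ _ (hc 2 (by norm_num) h2)
    have c3 : Nat.Coprime (p ^ 2) (3 ^ 7) := Nat.Coprime.pow _ _ (hc 3 (by norm_num) h3)
    have c5 : Nat.Coprime (p ^ 2) (5 ^ 3) := Nat.Coprime.pow _ _ (hc 5 (by norm_num) h5)
    exact c5.dvd_of_dvd_mul_left (c3.dvd_of_dvd_mul_left (c2.dvd_of_dvd_mul_left h1))
  have h5' : p ^ 2 ≤ 7 * (11 * 23) := Nat.le_of_dvd (by norm_num) h4
  have h6 : p < 43 := by nlinarith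
  have h7 : ∀ q < 43, 1 < q → ¬ q ^ 2 ∣ 7 * (11 * 23) := by decide
  exact h7 p h6 hp.one_lt h4

/-- the stabiliser as a subgroup of the permutations -/
def toCo3 : G3 ≃* Spor.Co3 where
  toFun g := ⟨g.1.1, g.1.2, g.2⟩
  invFun g := ⟨⟨g.1, g.2.1⟩, g.2.2⟩
  left_inv _ := rfl
  right_inv _ := rfl
  map_mul' _ _ := rfl

theorem mult : Cfsg.HasCyclicSchurMultiplier Spor.Co3 1 := by
  have : Finite Spor.Co3 := Finite.of_equiv _ toCo3.toEquiv
  exact hasCyclic_one fun p hp => (noStem p hp).congr toCo3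

end H9.MultCo3
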