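import Cfsg.Agent.Lib.H9.LeechCount
import Cfsg.Agent.Lib.H9.Trans
import Cfsg.Agent.Lib.H9.Frame

set_option autoImplicit false

/-! Shape census of the lattice vectors of norm 48. -/

namespace H9.Shapes48

open Cfsg Finset H9.Leech H9.LeechCount H9.Trans H8.GolayCode H8.GolayBasic H8.GolayCount

def X : Set (GolayPt → ℤ) := {x | x ∈ leechLattice ∧ sqNorm x = 48}
def A : Set (GolayPt → ℤ) := {x | x ∈ leechLattice ∧ sqNorm x = 48 ∧ ∀ i, x i = 0 ∨ x i = 2 ∨ x i = -2}
def B : Set (GolayPt → ℤ) := {x | x ∈ leechLattice ∧ sqNorm x = 48 ∧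
  ∃ i j k, i ≠ j ∧ j ≠ k ∧ i ≠ k ∧ |x i| = 3 ∧ |x j| = 3 ∧ |x k| = 3}
def C : Set (GolayPt → ℤ) := {x | x ∈ leechLattice ∧ sqNorm x = 48 ∧ ∃ i, |x i| = 4}
def D : Set (GolayPt → ℤ) := {x | x ∈ leechLattice ∧ sqNorm x = 48 ∧ ∃ i, |x i| = 5}

theorem X_finite : X.Finite := by
  apply Set.finite_of_ncard_ne_zero
  have : X.ncard = 16773120 := count48
  rw [this]; norm_num

theorem A_sub : A ⊆ X := fun _ h => ⟨h.1, h.2.1⟩
theorem B_sub : B ⊆ X := fun _ h => ⟨h.1, h.2.1⟩
theorem C_sub : C ⊆ X := fun _ h => ⟨h.1, h.2.1⟩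
theorem D_sub : D ⊆ X := fun _ h => ⟨h.1, h.2.1⟩

/-- even representation -/
theorem even_rep {x : GolayPt → ℤ} (hx : x ∈ leechLattice) (hev : ∀ i, (2 : ℤ) ∣ x i) :
    ∃ c ∈ GS, ∃ y, Rep x 0 c y := by
  rcases exists_rep hx with ⟨c, y, h⟩ | ⟨c, y, h⟩
  · exact ⟨c, h.mem, y, h⟩
  · exfalso
    have h1 := hev none
    rw [h.eq] at h1
    omega

theorem sum_E (w : ℕ) (n : ℕ) (hE : ∀ c ∈ GF, c.card = w → (E c 12).card = n) :
    ((GF.filter fun c => c.card = w).biUnion fun c => E c 12).card ≤ (GF.filter fun c => c.card = w).card * n := by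
  apply card_biUnion_le_card_mul
  intro c hc
  rw [mem_filter] at hc
  exact (hE c hc.1 hc.2).le

theorem A_le : A.ncard ≤ 5275648 := by
  classical
  have hsub : A ⊆ ((GF.filter fun c => c.card = 12).biUnion fun c => E c 12 : Finset (GolayPt → ℤ)) := by
    rintro x ⟨hx, hn, hA⟩
    obtain ⟨c, hc, y, h⟩ := even_rep hx (fun i => by rcases hA i with h | h | h <;> rw [h] <;> norm_num)
    rw [coe_biUnion, Set.mem_iUnion₂]
    have hmem : ∀ i, x i ^ 2 = 4 * ind c i := by
      intro i
      have h1 := h.eq i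
      unfold ind at h1 ⊢
      split_ifs at h1 ⊢ with hi
      · rcases hA i with h2 | h2 | h2
        · omega
        · rw [h2]; norm_num
        · rw [h2]; norm_num
      · rcases hA i with h2 | h2 | h2
        · rw [h2]; norm_num
        · omega
        · omega
    have hcard : c.card = 12 := by
      have h1 : sqNorm x = 4 * c.card := by
        unfold sqNorm
        rw [sum_congr rfl fun i _ => hmem i, ← mul_sum, sum_ind]
      rw [hn] at h1
      omega
    refine ⟨c, mem_coe.mpr (mem_filter.mpr ⟨mem_GF.mpr hc, hcard⟩), ?_⟩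
    rw [mem_coe, mem_E hc (by norm_num)]
    exact ⟨⟨y, h⟩, by rw [hn]; norm_num⟩
  have h1 := Set.ncard_le_ncard hsub (Finset.finite_toSet _)
  rw [Set.ncard_coe_finset] at h1
  have h2 := sum_E 12 2048 (fun c hc hw => by
    rw [card_E (mem_GF.mp hc), hw]; decide +kernel)
  rw [card_w, show cntB (fun n => Nat.beq (pop n) 12) basisL 0 = 2576 by decide +kernel] at h2
  omega

theorem C_le : C.ncard ≤ 3108864 := by
  classical
  have hsub : C ⊆ ((GF.filter fun c => c.card = 8).biUnion fun c => E c 12 : Finset (GolayPt → ℤ)) := by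
    rintro x ⟨hx, hn, k, hk⟩
    have hk2 : x k = 4 ∨ x k = -4 := by
      rcases abs_cases (x k) with h | h <;> omega
    have hev : ∀ i, (2 : ℤ) ∣ x i := by
      rcases parity hx with h | h
      · exact h
      · exfalso; apply h k; rcases hk2 with h | h <;> rw [h] <;> norm_num
    obtain ⟨c, hc, y, h⟩ := even_rep hx hev
    rw [coe_biUnion, Set.mem_iUnion₂]
    have hkc : k ∉ c := by
      intro hkc
      have h1 := h.eq k
      unfold ind at h1
      rw [if_pos hkc] at h1
      omega
    have hge : ∀ i, 4 * ind c i ≤ x i ^ 2 := by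
      intro i
      have h1 := h.eq i
      unfold ind at h1 ⊢
      split_ifs at h1 ⊢ with hi
      · have h7 : x i ≤ -2 ∨ 2 ≤ x i := by omega
        rcases h7 with h7 | h7 <;> nlinarith
      · nlinarith [sq_nonneg (x i)]
    have h1 : 16 + 4 * (c.card : ℤ) ≤ sqNorm x := by
      have h2 : ∑ i, (4 * ind c i) + 16 ≤ ∑ i, x i ^ 2 := by
        have h3 := add_sum_erase univ (fun i => x i ^ 2) (mem_univ k)
        have h4 := add_sum_erase univ (fun i => 4 * ind c i) (mem_univ k)
        have h5 : 4 * ind c k = 0 := by unfold ind; rw [if_neg hkc]; norm_num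
        have h6 : x k ^ 2 = 16 := by rcases hk2 with h | h <;> rw [h] <;> norm_num
        have h7 : ∑ i ∈ univ.erase k, 4 * ind c i ≤ ∑ i ∈ univ.erase k, x i ^ 2 := sum_le_sum fun i _ => hge i
        rw [← h3, ← h4]
        linarith
      rw [← mul_sum, sum_ind] at h2
      unfold sqNorm; linarith
    rw [hn] at h1
    have hc8 : c.card = 0 ∨ c.card = 8 := by
      have := weight_cases hc
      omega
    have hcard : c.card = 8 := by
      rcases hc8 with h0 | h0
      · exfalso
        -- all coordinates divisible by 4, norm 48: impossible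
        have hc0 : c = ∅ := card_eq_zero.mp h0
        subst hc0
        obtain ⟨t, ht⟩ := h.par
        have hxy : ∀ i, x i = 4 * y i := by intro i; rw [h.eq]; simp [ind]
        have h2 : ∑ i, x i ^ 2 = 16 * ∑ i, y i ^ 2 := by
          rw [mul_sum]; exact sum_congr rfl fun i _ => by rw [hxy]; ring
        have h3 : ∑ i, x i ^ 2 = 48 := hn
        have h7 : ∀ i, ∃ t, y i ^ 2 = y i + 2 * t := by
          intro i
          rcases Int.even_or_odd' (y i) with ⟨s, hs | hs⟩
          · exact ⟨2 * s ^ 2 - s, by rw [hs]; ring⟩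
          · exact ⟨2 * s ^ 2 + s, by rw [hs]; ring⟩
        choose t' ht' using h7
        have h8 : ∑ i, y i ^ 2 = ∑ i, y i + 2 * ∑ i, t' i := by
          rw [mul_sum, ← sum_add_distrib]; exact sum_congr rfl fun i _ => ht' i
        omega
      · exact h0
    refine ⟨c, mem_coe.mpr (mem_filter.mpr ⟨mem_GF.mpr hc, hcard⟩), ?_⟩
    rw [mem_coe, mem_E hc (by norm_num)]
    exact ⟨⟨y, h⟩, by rw [hn]; norm_num⟩
  have h1 := Set.ncard_le_ncard hsub (Finset.finite_toSet _)
  rw [Set.ncard_coe_finset] at h1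
  have h2 := sum_E 8 4096 (fun c hc hw => by
    rw [card_E (mem_GF.mp hc), hw]; decide +kernel)
  rw [card_w, show cntB (fun n => Nat.beq (pop n) 8) basisL 0 = 759 by decide +kernel] at h2
  omega

/-- squares minus one over eight -/
theorem odd_sq {a : ℤ} (ha : ¬ (2 : ℤ) ∣ a) : ∃ t : ℤ, 0 ≤ t ∧ a ^ 2 = 1 + 8 * t := by
  obtain ⟨s, hs⟩ : ∃ s, a = 2 * s + 1 := ⟨a / 2, by omega⟩
  obtain ⟨t, ht⟩ := Int.even_mul_succ_self s
  refine ⟨t, ?_, ?_⟩
  · have : 0 ≤ s * (s + 1) := by
      rcases le_or_gt 0 s with h | h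
      · positivity
      · nlinarith
    omega
  · rw [hs]; linear_combination 4 * ht

/-- shape of odd vectors of norm 48 -/
theorem odd_shape {x : GolayPt → ℤ} (hn : sqNorm x = 48) (hodd : ∀ i, ¬ (2 : ℤ) ∣ x i) :
    (∃ k, x k ^ 2 = 25 ∧ ∀ i, i ≠ k → x i ^ 2 = 1) ∨
    (∃ S : Finset GolayPt, S.card = 3 ∧ (∀ i ∈ S, x i ^ 2 = 9) ∧ ∀ i, i ∉ S → x i ^ 2 = 1) := by
  classical
  choose t ht0 ht1 using fun i => odd_sq (hodd i)
  have hs : ∑ i, t i = 3 := by
    have h1 : ∑ i, x i ^ 2 = 48 := hn
    rw [sum_congr rfl fun i _ => ht1 i, sum_add_distrib, ← mul_sum, H9.Leech.sum_const] at h1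
    omega
  by_cases hex : ∃ k, 2 ≤ t k
  · obtain ⟨k, hk⟩ := hex
    have h1 := add_sum_erase univ t (mem_univ k)
    have h2 : 0 ≤ ∑ i ∈ univ.erase k, t i := sum_nonneg fun i _ => ht0 i
    have hk2 : t k = 2 ∨ t k = 3 := by omega
    have hk3 : t k = 3 := by
      rcases hk2 with h | h
      · exfalso
        have h3 := ht1 k
        rw [h] at h3
        have h4 : -5 < x k ∧ x k < 5 := by constructor <;> nlinarith
        obtain ⟨h5, h6⟩ := h4
        generalize x k = a at *
        interval_cases a <;> omega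
      · exact h
    have hz : ∑ i ∈ univ.erase k, t i = 0 := by omega
    rw [sum_eq_zero_iff_of_nonneg fun i _ => ht0 i] at hz
    left
    refine ⟨k, by rw [ht1, hk3]; norm_num, fun i hi => ?_⟩
    rw [ht1, hz i (mem_erase.mpr ⟨hi, mem_univ _⟩)]; norm_num
  · right
    push Not at hex
    have h01 : ∀ i, t i = 0 ∨ t i = 1 := by
      intro i
      have := ht0 i
      have := hex i
      omega
    refine ⟨univ.filter fun i => t i = 1, ?_, ?_, ?_⟩
    · have h1 : ∑ i, t i = ((univ.filter fun i => t i = 1).card : ℤ) := by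
        rw [Finset.card_eq_sum_ones, Nat.cast_sum, sum_filter]
        apply sum_congr rfl
        intro i _
        rcases h01 i with h | h <;> rw [h] <;> simp
      rw [hs] at h1
      exact_mod_cast h1.symm
    · intro i hi
      rw [mem_filter] at hi
      rw [ht1, hi.2]; norm_num
    · intro i hi
      rw [mem_filter] at hi
      have h0 : t i = 0 := by
        rcases h01 i with h | h
        · exact h
        · exact absurd ⟨mem_univ _, h⟩ hi
      rw [ht1, h0]; norm_num

theorem sq_cases {a b : ℤ} (hb : 0 ≤ b) (h : a ^ 2 = b ^ 2) : a = b ∨ a = -b := sq_eq_sq_iff_eq_or_eq_neg.mp h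

theorem D_le : D.ncard ≤ 98304 := by
  classical
  have hcase : ∀ x ∈ D, (∀ i, ¬ (2 : ℤ) ∣ x i) ∧ ∃ k, x k ^ 2 = 25 ∧ ∀ i, i ≠ k → x i ^ 2 = 1 := by
    rintro x ⟨hx, hn, k, hk⟩
    have hk2 : x k = 5 ∨ x k = -5 := by
      rcases abs_cases (x k) with h | h <;> omega
    have hodd : ∀ i, ¬ (2 : ℤ) ∣ x i := by
      rcases parity hx with h | h
      · exfalso; have := h k; rcases hk2 with h | h <;> omega
      · exact h
    refine ⟨hodd, ?_⟩
    rcases odd_shape hn hodd with h | ⟨S, _, h1, h2⟩
    · exact h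
    · exfalso
      by_cases hkS : k ∈ S
      · have := h1 k hkS
        rcases hk2 with h | h <;> rw [h] at this <;> norm_num at this
      · have := h2 k hkS
        rcases hk2 with h | h <;> rw [h] at this <;> norm_num at this
  have hex : ∃ K : (GolayPt → ℤ) → GolayPt, ∀ x ∈ D, x (K x) ^ 2 = 25 ∧ ∀ i, i ≠ K x → x i ^ 2 = 1 := by
    refine ⟨fun x => if hx : x ∈ D then (hcase x hx).2.choose else none, fun x hx => ?_⟩
    simp only [hx, dif_pos]
    exact (hcase x hx).2.choose_spec
  obtain ⟨K, hK⟩ := hex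
  have h1 : D.ncard ≤ ((GF ×ˢ (univ : Finset GolayPt) : Finset (Finset GolayPt × GolayPt)) : Set (Finset GolayPt × GolayPt)).ncard := by
    apply Set.ncard_le_ncard_of_injOn (fun x => (univ.filter fun i => (4 : ℤ) ∣ x i - 3, K x)) _ _ (Finset.finite_toSet _)
    · intro x hx
      rw [mem_coe, mem_product]
      exact ⟨mem_GF.mpr (filter_mem hx.1 3), mem_univ _⟩
    · intro x hx y hy heq
      rw [Prod.mk.injEq] at heq
      obtain ⟨h1, h2⟩ := heq
      have hx' := hK x hx
      have hy' := hK y hy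
      rw [← h2] at hy'
      have hox := (hcase x hx).1
      have hoy := (hcase y hy).1
      funext i
      have h3 : (4 : ℤ) ∣ x i - 3 ↔ (4 : ℤ) ∣ y i - 3 := by
        have := Finset.ext_iff.mp h1 i
        simpa using this
      have h4 := hox i
      have h5 := hoy i
      by_cases hi : i = K x
      · have h8 : x i = 5 ∨ x i = -5 := sq_cases (by norm_num) (by rw [hi, hx'.1]; norm_num)
        have h9 : y i = 5 ∨ y i = -5 := sq_cases (by norm_num) (by rw [hi, hy'.1]; norm_num)
        omega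
      · have h8 : x i = 1 ∨ x i = -1 := sq_cases (by norm_num) (by rw [hx'.2 i hi]; norm_num)
        have h9 : y i = 1 ∨ y i = -1 := sq_cases (by norm_num) (by rw [hy'.2 i hi]; norm_num)
        omega
  rw [Set.ncard_coe_finset, card_product, card_univ, card_pt] at h1
  have h2 : GF.card = 4096 := by
    have := sum_GF (fun _ => 1)
    simp only [Finset.sum_const, smul_eq_mul, mul_one] at this
    omega
  rw [h2] at h1
  omega

theorem B_le : B.ncard ≤ 8290304 := by
  classical
  have hcase : ∀ x ∈ B, (∀ i, ¬ (2 : ℤ) ∣ x i) ∧ ∃ S : Finset GolayPt, S.card = 3 ∧ (∀ i ∈ S, x i ^ 2 = 9) ∧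
      ∀ i, i ∉ S → x i ^ 2 = 1 := by
    rintro x ⟨hx, hn, k, l, m, hkl, hlm, hkm, hk, hl, hm⟩
    have hk2 : x k = 3 ∨ x k = -3 := by
      rcases abs_cases (x k) with h | h <;> omega
    have hodd : ∀ i, ¬ (2 : ℤ) ∣ x i := by
      rcases parity hx with h | h
      · exfalso; have := h k; rcases hk2 with h | h <;> omega
      · exact h
    refine ⟨hodd, ?_⟩
    rcases odd_shape hn hodd with ⟨p, h1, h2⟩ | h
    · exfalso
      by_cases hkp : k = p
      · rw [← hkp] at h1
        rcases hk2 with h | h <;> rw [h] at h1 <;> norm_num at h1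
      · have := h2 k hkp
        rcases hk2 with h | h <;> rw [h] at this <;> norm_num at this
    · exact h
  have hex : ∃ K : (GolayPt → ℤ) → Finset GolayPt, ∀ x ∈ B, (K x).card = 3 ∧ (∀ i ∈ K x, x i ^ 2 = 9) ∧
      ∀ i, i ∉ K x → x i ^ 2 = 1 := by
    refine ⟨fun x => if hx : x ∈ B then (hcase x hx).2.choose else ∅, fun x hx => ?_⟩
    simp only [hx, dif_pos]
    exact (hcase x hx).2.choose_spec
  obtain ⟨K, hK⟩ := hex
  have h1 : B.ncard ≤ ((GF ×ˢ ((univ : Finset GolayPt).powersetCard 3) : Finset (Finset GolayPt × Finset GolayPt)) :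
      Set (Finset GolayPt × Finset GolayPt)).ncard := by
    apply Set.ncard_le_ncard_of_injOn (fun x => (univ.filter fun i => (4 : ℤ) ∣ x i - 3, K x)) _ _ (Finset.finite_toSet _)
    · intro x hx
      rw [mem_coe, mem_product]
      exact ⟨mem_GF.mpr (filter_mem hx.1 3), mem_powersetCard.mpr ⟨subset_univ _, (hK x hx).1⟩⟩
    · intro x hx y hy heq
      rw [Prod.mk.injEq] at heq
      obtain ⟨h1, h2⟩ := heq
      have hx' := (hK x hx).2
      have hy' := (hK y hy).2
      rw [← h2] at hy'
      have hox := (hcase x hx).1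
      have hoy := (hcase y hy).1
      funext i
      have h3 : (4 : ℤ) ∣ x i - 3 ↔ (4 : ℤ) ∣ y i - 3 := by
        have := Finset.ext_iff.mp h1 i
        simpa using this
      have h4 := hox i
      have h5 := hoy i
      by_cases hi : i ∈ K x
      · have h8 : x i = 3 ∨ x i = -3 := sq_cases (by norm_num) (by rw [hx'.1 i hi]; norm_num)
        have h9 : y i = 3 ∨ y i = -3 := sq_cases (by norm_num) (by rw [hy'.1 i hi]; norm_num)
        omega
      · have h8 : x i = 1 ∨ x i = -1 := sq_cases (by norm_num) (by rw [hx'.2 i hi]; norm_num)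
        have h9 : y i = 1 ∨ y i = -1 := sq_cases (by norm_num) (by rw [hy'.2 i hi]; norm_num)
        omega
  rw [Set.ncard_coe_finset, card_product, card_powersetCard, card_univ, card_pt] at h1
  have h2 : GF.card = 4096 := by
    have := sum_GF (fun _ => 1)
    simp only [Finset.sum_const, smul_eq_mul, mul_one] at this
    omega
  have h3 : Nat.choose 24 3 = 2024 := by decide
  rw [h2, h3] at h1
  omega

theorem cover : X ⊆ A ∪ B ∪ (C ∪ D) := by
  classical
  rintro x ⟨hx, hn⟩
  rcases parity hx with hev | hodd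
  · obtain ⟨c, hc, y, h⟩ := even_rep hx hev
    by_cases hA : ∀ i, x i = 0 ∨ x i = 2 ∨ x i = -2
    · left; left; exact ⟨hx, hn, hA⟩
    · right; left
      refine ⟨hx, hn, ?_⟩
      push Not at hA
      obtain ⟨k, hk0, hk2, hk2'⟩ := hA
      have hle : x k ^ 2 ≤ 48 := by rw [← hn]; exact H9.Trans.sq_le k
      have h2 := hev k
      have h3 : -7 < x k ∧ x k < 7 := by constructor <;> nlinarith
      have h4 : x k = 4 ∨ x k = -4 ∨ x k = 6 ∨ x k = -6 := by omega
      have h5 : x k = 4 ∨ x k = -4 := by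
        rcases h4 with h4 | h4 | h4
        · exact Or.inl h4
        · exact Or.inr h4
        · exfalso
          have hkc : k ∈ c := by
            by_contra hkc
            have h1 := h.eq k
            unfold ind at h1
            rw [if_neg hkc] at h1
            omega
          have hge : ∀ i, 4 * ind c i ≤ x i ^ 2 := by
            intro i
            have h1 := h.eq i
            unfold ind at h1 ⊢
            split_ifs at h1 ⊢ with hi
            · have h7 : x i ≤ -2 ∨ 2 ≤ x i := by omega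
              rcases h7 with h7 | h7 <;> nlinarith
            · nlinarith [sq_nonneg (x i)]
          have hc8 : 8 ≤ c.card := by
            have := weight_cases hc
            have h2 : 0 < c.card := card_pos.mpr ⟨k, hkc⟩
            omega
          have h6 : x k ^ 2 = 36 := by rcases h4 with h | h <;> rw [h] <;> norm_num
          have h3 := add_sum_erase univ (fun i => x i ^ 2) (mem_univ k)
          have h4 := add_sum_erase univ (fun i => 4 * ind c i) (mem_univ k)
          have h5 : 4 * ind c k = 4 := by unfold ind; rw [if_pos hkc]; norm_num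
          have h7 : ∑ i ∈ univ.erase k, 4 * ind c i ≤ ∑ i ∈ univ.erase k, x i ^ 2 := sum_le_sum fun i _ => hge i
          have h8 : ∑ i, 4 * ind c i = 4 * (c.card : ℤ) := by rw [← mul_sum, sum_ind]
          have h9 : ∑ i, x i ^ 2 = 48 := hn
          rw [h8] at h4
          rw [h9] at h3
          have : (8 : ℤ) ≤ c.card := by exact_mod_cast hc8
          linarith
      refine ⟨k, ?_⟩
      rcases h5 with h | h <;> rw [h] <;> norm_num
  · rcases odd_shape hn hodd with ⟨k, h1, _⟩ | ⟨S, hS, h1, _⟩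
    · right; right
      refine ⟨hx, hn, k, ?_⟩
      have h2 : x k = 5 ∨ x k = -5 := sq_cases (by norm_num) (by rw [h1]; norm_num)
      rcases h2 with h | h <;> rw [h] <;> norm_num
    · left; right
      obtain ⟨i, j, k, hij, hik, hjk, rfl⟩ := card_eq_three.mp hS
      have habs : ∀ a : ℤ, a ^ 2 = 9 → |a| = 3 := by
        intro a ha
        have h2 : a = 3 ∨ a = -3 := sq_cases (by norm_num) (by rw [ha]; norm_num)
        rcases h2 with h | h <;> rw [h] <;> norm_num
      exact ⟨hx, hn, i, j, k, hij, hjk, hik, habs _ (h1 i (by simp)), habs _ (h1 j (by simp)), habs _ (h1 k (by simp))⟩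

theorem census : A.ncard = 5275648 ∧ B.ncard = 8290304 ∧ C.ncard = 3108864 ∧ D.ncard = 98304 := by
  have h1 : X.ncard = 16773120 := count48
  have hA := A_le
  have hB := B_le
  have hC := C_le
  have hD := D_le
  have hfin : (A ∪ B ∪ (C ∪ D)).Finite :=
    ((X_finite.subset A_sub).union (X_finite.subset B_sub)).union
      ((X_finite.subset C_sub).union (X_finite.subset D_sub))
  have h2 := Set.ncard_le_ncard cover hfin
  have h3 := Set.ncard_union_le (A ∪ B) (C ∪ D)
  have h4 := Set.ncard_union_le A B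
  have h5 := Set.ncard_union_le C D
  omega

end H9.Shapes48
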