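import Cfsg.Agent.Lib.H9.Steiner24

set_option autoImplicit false

/-! More on Steiner systems: derived systems, block counts, intersection numbers. -/

namespace H9.SteinerMore

open Cfsg Finset H9.Steiner H9.Steiner24

variable {α : Type*} [Fintype α] [DecidableEq α]

theorem block_count {t k : ℕ} {B : Set (Finset α)} (hB : IsSteinerSystem t k B) :
    B.ncard * Nat.choose k t = Nat.choose (Fintype.card α) t := by
  have := card_blk_containing hB (S := ∅) (by simp)
  simp only [card_empty, Nat.sub_zero, empty_subset, filter_true] at this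
  rw [ncard_eq_card_blk]; exact this

theorem derived {t k : ℕ} {B : Set (Finset α)} (hB : IsSteinerSystem (t + 1) (k + 1) B) (p : α) :
    IsSteinerSystem t k {b' : Finset {a : α // a ≠ p} | ∃ b ∈ B, p ∈ b ∧ b' = Finset.subtype (fun a => a ≠ p) b} := by
  classical
  have hmap : ∀ b : Finset α, (Finset.subtype (fun a => a ≠ p) b).map (Function.Embedding.subtype _) = b.erase p := by
    intro b
    ext x
    rw [subtype_map, mem_filter, mem_erase]
    tauto
  constructor
  · rintro b' ⟨b, hb, hpb, rfl⟩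
    rw [← card_map (Function.Embedding.subtype _), hmap, card_erase_of_mem hpb, hB.1 b hb]; rfl
  · intro s hs
    have hps : p ∉ s.map (Function.Embedding.subtype _) := by
      intro h
      rw [mem_map] at h
      obtain ⟨x, _, hx⟩ := h
      exact x.2 hx
    obtain ⟨b, ⟨hb, hsb⟩, hu⟩ := hB.2 (insert p (s.map (Function.Embedding.subtype _))) (by
      rw [card_insert_of_notMem hps, card_map, hs])
    have hpb : p ∈ b := hsb (mem_insert_self _ _)
    refine ⟨Finset.subtype (fun a => a ≠ p) b, ⟨⟨b, hb, hpb, rfl⟩, ?_⟩, ?_⟩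
    · intro x hx
      rw [mem_subtype]
      exact hsb (mem_insert_of_mem (mem_map.mpr ⟨x, hx, rfl⟩))
    · rintro b' ⟨⟨c, hc, hpc, rfl⟩, hsc⟩
      have : c = b := by
        apply hu
        refine ⟨hc, ?_⟩
        intro x hx
        rw [mem_insert, mem_map] at hx
        rcases hx with rfl | ⟨y, hy, rfl⟩
        · exact hpc
        · exact mem_subtype.mp (hsc hy)
      rw [this]

/-- blocks disjoint from a block of S(5,8,24) -/
theorem disjoint_blocks (hα : Fintype.card α = 24) {B : Set (Finset α)} (hB : IsSteinerSystem 5 8 B)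
    {b : Finset α} (hb : b ∈ B) : {c : Finset α | c ∈ B ∧ Disjoint b c}.ncard = 30 := by
  classical
  have hb8 : b.card = 8 := hB.1 b hb
  have m0 := sum_choose_inter B b (lam0 hα hB)
  have m1 := sum_choose_inter B b (lam1 hα hB)
  have m2 := sum_choose_inter B b (lam2 hα hB)
  rw [hb8] at m0 m1 m2
  have key : ∑ c ∈ blk B, (8 * ((c ∩ b).card.choose 0 : ℤ) - 5 * ((c ∩ b).card.choose 1 : ℤ)
      + 2 * ((c ∩ b).card.choose 2 : ℤ)) = 264 := by
    simp only [sum_add_distrib, sum_sub_distrib, ← mul_sum]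
    have h0 : ∑ c ∈ blk B, ((c ∩ b).card.choose 0 : ℤ) = ((8 : ℕ).choose 0 * 759 : ℕ) := by
      rw [← m0]; push_cast; rfl
    have h1 : ∑ c ∈ blk B, ((c ∩ b).card.choose 1 : ℤ) = ((8 : ℕ).choose 1 * 253 : ℕ) := by
      rw [← m1]; push_cast; rfl
    have h2 : ∑ c ∈ blk B, ((c ∩ b).card.choose 2 : ℤ) = ((8 : ℕ).choose 2 * 77 : ℕ) := by
      rw [← m2]; push_cast; rfl
    rw [h0, h1, h2]
    norm_num [Nat.choose]
  have hterm : ∀ c ∈ blk B, (8 * ((c ∩ b).card.choose 0 : ℤ) - 5 * ((c ∩ b).card.choose 1 : ℤ)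
      + 2 * ((c ∩ b).card.choose 2 : ℤ)) = 8 * (if Disjoint b c then 1 else 0) + 24 * (if c = b then 1 else 0) := by
    intro c hc
    rw [mem_blk] at hc
    by_cases hcb : c = b
    · subst hcb
      have h1 : ¬ Disjoint c c := by
        rw [disjoint_self_iff_empty]
        rintro rfl
        simp at hb8
      rw [inter_self, hb8, if_neg h1, if_pos rfl]
      norm_num [Nat.choose]
    · rw [if_neg hcb]
      rcases inter_card hα hB hc hb hcb with h | h | h
      · have h1 : Disjoint b c := by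
          rw [disjoint_comm, disjoint_iff_inter_eq_empty, ← card_eq_zero]; exact h
        rw [h, if_pos h1]; norm_num [Nat.choose]
      · have h1 : ¬ Disjoint b c := by
          rw [disjoint_comm, disjoint_iff_inter_eq_empty, ← card_eq_zero, h]; norm_num
        rw [h, if_neg h1]; norm_num [Nat.choose]
      · have h1 : ¬ Disjoint b c := by
          rw [disjoint_comm, disjoint_iff_inter_eq_empty, ← card_eq_zero, h]; norm_num
        rw [h, if_neg h1]; norm_num [Nat.choose]
  rw [sum_congr rfl hterm, sum_add_distrib, ← mul_sum, ← mul_sum] at key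
  have hbm : b ∈ blk B := mem_blk.mpr hb
  rw [sum_ite_eq' (blk B) b, if_pos hbm] at key
  have h2 : ∑ c ∈ blk B, (if Disjoint b c then (1 : ℤ) else 0) = (((blk B).filter fun c => Disjoint b c).card : ℤ) := by
    rw [card_filter]; push_cast; rfl
  rw [h2] at key
  have h3 : {c : Finset α | c ∈ B ∧ Disjoint b c} = ((blk B).filter fun c => Disjoint b c : Finset (Finset α)) := by
    ext c; simp
  rw [h3, Set.ncard_coe_finset]
  omega

/-- intersection numbers in S(4,7,23) -/
theorem inter_card_23 (hα : Fintype.card α = 23) {B : Set (Finset α)} (hB : IsSteinerSystem 4 7 B)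
    {b c : Finset α} (hb : b ∈ B) (hc : c ∈ B) (hbc : b ≠ c) : (b ∩ c).card = 1 ∨ (b ∩ c).card = 3 := by
  classical
  have hb7 : b.card = 7 := hB.1 b hb
  have l0 : ∀ S : Finset α, S.card = 0 → ((blk B).filter fun b => S ⊆ b).card = 253 := by
    intro S hS
    have := card_blk_containing hB (S := S) (by omega)
    rw [hS, hα] at this; norm_num [Nat.choose] at this; omega
  have l1 : ∀ S : Finset α, S.card = 1 → ((blk B).filter fun b => S ⊆ b).card = 77 := by
    intro S hS
    have := card_blk_containing hB (S := S) (by omega)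
    rw [hS, hα] at this; norm_num [Nat.choose] at this; omega
  have l2 : ∀ S : Finset α, S.card = 2 → ((blk B).filter fun b => S ⊆ b).card = 21 := by
    intro S hS
    have := card_blk_containing hB (S := S) (by omega)
    rw [hS, hα] at this; norm_num [Nat.choose] at this; omega
  have l3 : ∀ S : Finset α, S.card = 3 → ((blk B).filter fun b => S ⊆ b).card = 5 := by
    intro S hS
    have := card_blk_containing hB (S := S) (by omega)
    rw [hS, hα] at this; norm_num [Nat.choose] at this; omega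
  have m0 := sum_choose_inter B b l0
  have m1 := sum_choose_inter B b l1
  have m2 := sum_choose_inter B b l2
  have m3 := sum_choose_inter B b l3
  rw [hb7] at m0 m1 m2 m3
  have key : ∑ c ∈ (blk B).erase b, (3 * ((c ∩ b).card.choose 0 : ℤ) - 3 * ((c ∩ b).card.choose 1 : ℤ)
      + 4 * ((c ∩ b).card.choose 2 : ℤ) - 6 * ((c ∩ b).card.choose 3 : ℤ)) = 0 := by
    have hbm : b ∈ blk B := mem_blk.mpr hb
    rw [← add_right_cancel_iff (a := (3 * ((b ∩ b).card.choose 0 : ℤ) - 3 * ((b ∩ b).card.choose 1 : ℤ)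
      + 4 * ((b ∩ b).card.choose 2 : ℤ) - 6 * ((b ∩ b).card.choose 3 : ℤ))),
      sum_erase_add _ _ hbm, inter_self, hb7]
    simp only [sum_add_distrib, sum_sub_distrib, ← mul_sum]
    have h0 : ∑ c ∈ blk B, ((c ∩ b).card.choose 0 : ℤ) = ((7 : ℕ).choose 0 * 253 : ℕ) := by
      rw [← m0]; push_cast; rfl
    have h1 : ∑ c ∈ blk B, ((c ∩ b).card.choose 1 : ℤ) = ((7 : ℕ).choose 1 * 77 : ℕ) := by
      rw [← m1]; push_cast; rfl
    have h2 : ∑ c ∈ blk B, ((c ∩ b).card.choose 2 : ℤ) = ((7 : ℕ).choose 2 * 21 : ℕ) := by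
      rw [← m2]; push_cast; rfl
    have h3 : ∑ c ∈ blk B, ((c ∩ b).card.choose 3 : ℤ) = ((7 : ℕ).choose 3 * 5 : ℕ) := by
      rw [← m3]; push_cast; rfl
    rw [h0, h1, h2, h3]
    norm_num [Nat.choose]
  have hle : ∀ c ∈ (blk B).erase b, (c ∩ b).card ≤ 3 := by
    intro c hc
    rw [mem_erase, mem_blk] at hc
    by_contra h
    push Not at h
    exact hc.1 (eq_of_card_inter hB hc.2 hb h)
  have hnn : ∀ c ∈ (blk B).erase b, 0 ≤ (3 * ((c ∩ b).card.choose 0 : ℤ) - 3 * ((c ∩ b).card.choose 1 : ℤ)
      + 4 * ((c ∩ b).card.choose 2 : ℤ) - 6 * ((c ∩ b).card.choose 3 : ℤ)) := by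
    intro c hc
    have := hle c hc
    interval_cases (c ∩ b).card <;> norm_num [Nat.choose]
  rw [sum_eq_zero_iff_of_nonneg hnn] at key
  have hcm : c ∈ (blk B).erase b := by
    rw [mem_erase, mem_blk]; exact ⟨hbc.symm, hc⟩
  have h1 := key c hcm
  have h2 := hle c hcm
  rw [inter_comm b c]
  interval_cases (c ∩ b).card
  · norm_num [Nat.choose] at h1
  · simp
  · norm_num [Nat.choose] at h1
  · simp

/-- intersection numbers in S(3,6,22) -/
theorem inter_card_22 (hα : Fintype.card α = 22) {B : Set (Finset α)} (hB : IsSteinerSystem 3 6 B)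
    {b c : Finset α} (hb : b ∈ B) (hc : c ∈ B) (hbc : b ≠ c) : (b ∩ c).card = 0 ∨ (b ∩ c).card = 2 := by
  classical
  have hb6 : b.card = 6 := hB.1 b hb
  have l1 : ∀ S : Finset α, S.card = 1 → ((blk B).filter fun b => S ⊆ b).card = 21 := by
    intro S hS
    have := card_blk_containing hB (S := S) (by omega)
    rw [hS, hα] at this; norm_num [Nat.choose] at this; omega
  have l2 : ∀ S : Finset α, S.card = 2 → ((blk B).filter fun b => S ⊆ b).card = 5 := by
    intro S hS
    have := card_blk_containing hB (S := S) (by omega)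
    rw [hS, hα] at this; norm_num [Nat.choose] at this; omega
  have m1 := sum_choose_inter B b l1
  have m2 := sum_choose_inter B b l2
  rw [hb6] at m1 m2
  have key : ∑ c ∈ (blk B).erase b, (((c ∩ b).card.choose 1 : ℤ) - 2 * ((c ∩ b).card.choose 2 : ℤ)) = 0 := by
    have hbm : b ∈ blk B := mem_blk.mpr hb
    rw [← add_right_cancel_iff (a := (((b ∩ b).card.choose 1 : ℤ) - 2 * ((b ∩ b).card.choose 2 : ℤ))),
      sum_erase_add _ _ hbm, inter_self, hb6]
    simp only [sum_sub_distrib, ← mul_sum]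
    have h1 : ∑ c ∈ blk B, ((c ∩ b).card.choose 1 : ℤ) = ((6 : ℕ).choose 1 * 21 : ℕ) := by
      rw [← m1]; push_cast; rfl
    have h2 : ∑ c ∈ blk B, ((c ∩ b).card.choose 2 : ℤ) = ((6 : ℕ).choose 2 * 5 : ℕ) := by
      rw [← m2]; push_cast; rfl
    rw [h1, h2]
    norm_num [Nat.choose]
  have hle : ∀ c ∈ (blk B).erase b, (c ∩ b).card ≤ 2 := by
    intro c hc
    rw [mem_erase, mem_blk] at hc
    by_contra h
    push Not at h
    exact hc.1 (eq_of_card_inter hB hc.2 hb h)
  have hnn : ∀ c ∈ (blk B).erase b, 0 ≤ (((c ∩ b).card.choose 1 : ℤ) - 2 * ((c ∩ b).card.choose 2 : ℤ)) := by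
    intro c hc
    have := hle c hc
    interval_cases (c ∩ b).card <;> norm_num [Nat.choose]
  rw [sum_eq_zero_iff_of_nonneg hnn] at key
  have hcm : c ∈ (blk B).erase b := by
    rw [mem_erase, mem_blk]; exact ⟨hbc.symm, hc⟩
  have h1 := key c hcm
  have h2 := hle c hcm
  rw [inter_comm b c]
  interval_cases (c ∩ b).card
  · simp
  · norm_num [Nat.choose] at h1
  · simp

/-- complements of blocks in S(5,6,12) -/
theorem compl_block_12 (hα : Fintype.card α = 12) {B : Set (Finset α)} (hB : IsSteinerSystem 5 6 B)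
    {b : Finset α} (hb : b ∈ B) : bᶜ ∈ B := by
  classical
  have hb6 : b.card = 6 := hB.1 b hb
  have l0 : ∀ S : Finset α, S.card = 0 → ((blk B).filter fun b => S ⊆ b).card = 132 := by
    intro S hS
    have := card_blk_containing hB (S := S) (by omega)
    rw [hS, hα] at this; norm_num [Nat.choose] at this; omega
  have l1 : ∀ S : Finset α, S.card = 1 → ((blk B).filter fun b => S ⊆ b).card = 66 := by
    intro S hS
    have := card_blk_containing hB (S := S) (by omega)
    rw [hS, hα] at this; norm_num [Nat.choose] at this; omega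
  have l2 : ∀ S : Finset α, S.card = 2 → ((blk B).filter fun b => S ⊆ b).card = 30 := by
    intro S hS
    have := card_blk_containing hB (S := S) (by omega)
    rw [hS, hα] at this; norm_num [Nat.choose] at this; omega
  have l3 : ∀ S : Finset α, S.card = 3 → ((blk B).filter fun b => S ⊆ b).card = 12 := by
    intro S hS
    have := card_blk_containing hB (S := S) (by omega)
    rw [hS, hα] at this; norm_num [Nat.choose] at this; omega
  have l4 : ∀ S : Finset α, S.card = 4 → ((blk B).filter fun b => S ⊆ b).card = 4 := by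
    intro S hS
    have := card_blk_containing hB (S := S) (by omega)
    rw [hS, hα] at this; norm_num [Nat.choose] at this; omega
  have m0 := sum_choose_inter B b l0
  have m1 := sum_choose_inter B b l1
  have m2 := sum_choose_inter B b l2
  have m3 := sum_choose_inter B b l3
  have m4 := sum_choose_inter B b l4
  rw [hb6] at m0 m1 m2 m3 m4
  by_contra hcon
  have hle : ∀ c ∈ (blk B).erase b, 1 ≤ (c ∩ b).card ∧ (c ∩ b).card ≤ 4 := by
    intro c hc
    rw [mem_erase, mem_blk] at hc
    constructor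
    · by_contra h0
      have h1 : c ∩ b = ∅ := by rw [← card_eq_zero]; omega
      apply hcon
      have h2 : c = bᶜ := by
        apply eq_of_subset_of_card_le
        · intro x hx
          rw [mem_compl]
          intro hxb
          have : x ∈ c ∩ b := mem_inter.mpr ⟨hx, hxb⟩
          rw [h1] at this
          exact absurd this (notMem_empty x)
        · rw [card_compl, hα, hb6, hB.1 c hc.2]
      rw [← h2]; exact hc.2
    · by_contra h
      push Not at h
      exact hc.1 (eq_of_card_inter hB hc.2 hb h)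
  have key : ∑ c ∈ (blk B).erase b, (((c ∩ b).card.choose 0 : ℤ) - ((c ∩ b).card.choose 1 : ℤ)
      + ((c ∩ b).card.choose 2 : ℤ) - ((c ∩ b).card.choose 3 : ℤ) + ((c ∩ b).card.choose 4 : ℤ)) = 1 := by
    have hbm : b ∈ blk B := mem_blk.mpr hb
    rw [← add_right_cancel_iff (a := (((b ∩ b).card.choose 0 : ℤ) - ((b ∩ b).card.choose 1 : ℤ)
      + ((b ∩ b).card.choose 2 : ℤ) - ((b ∩ b).card.choose 3 : ℤ) + ((b ∩ b).card.choose 4 : ℤ))),
      sum_erase_add _ _ hbm, inter_self, hb6]
    simp only [sum_add_distrib, sum_sub_distrib]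
    have h0 : ∑ c ∈ blk B, ((c ∩ b).card.choose 0 : ℤ) = ((6 : ℕ).choose 0 * 132 : ℕ) := by
      rw [← m0]; push_cast; rfl
    have h1 : ∑ c ∈ blk B, ((c ∩ b).card.choose 1 : ℤ) = ((6 : ℕ).choose 1 * 66 : ℕ) := by
      rw [← m1]; push_cast; rfl
    have h2 : ∑ c ∈ blk B, ((c ∩ b).card.choose 2 : ℤ) = ((6 : ℕ).choose 2 * 30 : ℕ) := by
      rw [← m2]; push_cast; rfl
    have h3 : ∑ c ∈ blk B, ((c ∩ b).card.choose 3 : ℤ) = ((6 : ℕ).choose 3 * 12 : ℕ) := by
      rw [← m3]; push_cast; rfl
    have h4 : ∑ c ∈ blk B, ((c ∩ b).card.choose 4 : ℤ) = ((6 : ℕ).choose 4 * 4 : ℕ) := by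
      rw [← m4]; push_cast; rfl
    rw [h0, h1, h2, h3, h4]
    norm_num [Nat.choose]
  have hz : ∀ c ∈ (blk B).erase b, (((c ∩ b).card.choose 0 : ℤ) - ((c ∩ b).card.choose 1 : ℤ)
      + ((c ∩ b).card.choose 2 : ℤ) - ((c ∩ b).card.choose 3 : ℤ) + ((c ∩ b).card.choose 4 : ℤ)) = 0 := by
    intro c hc
    obtain ⟨h1, h2⟩ := hle c hc
    interval_cases (c ∩ b).card <;> norm_num [Nat.choose]
  rw [sum_eq_zero hz] at key
  norm_num at key

end H9.SteinerMore
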